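import Mathlib
import Cfsg.Agent.Lib.Helper17.ExcTwo

/-!
# Primitive groups of degree `2p` with `|N_G(P)| = 2p` (S4707): statements of the pieces

Each `def X : Prop` is the exact statement of one piece, to be proved as
`theorem main : Cfsg.Agent.Lib.Helper16.P2pStmt.X := by intro ...`.

`E2 P p n ε δ θ χ i₀` is the table of the irreducible characters not vanishing on `P ∖ 1` for
a self-centralizing subgroup `P` of prime order `p` with `|N_G(P)| = 2p` (the conclusion of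
`Cfsg.Agent.Lib.Helper17.ExcTwo.exceptional_two'`).
-/

set_option autoImplicit false

namespace Cfsg.Agent.Lib.Helper16.P2pStmt

open Cfsg Subgroup MulAction
open Cfsg.Agent.Lib.Helper17.ExcMain
open scoped ComplexConjugate

universe u w

/-- The table for `|N_G(P)| = 2p`. -/
def E2 {G : Type u} [Group G] [Fintype G] [Fintype (IrrCharacter G)] (P : Subgroup G) (p : ℕ)
    (n : ℕ) (ε δ : ℤ) (θ : Fin n → IrrCharacter G) (χ : IrrCharacter G) (i₀ : Fin n) : Prop :=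
  n * 2 + 1 = p ∧ Function.Injective θ ∧
    (∀ ψ, ψ ≠ trivIrr G → ψ ≠ χ → (∀ i, θ i ≠ ψ) →
      ∃ a : ℤ, (charDegree (ψ : G → ℂ) : ℤ) = p * a) ∧
    (ε = 1 ∨ ε = -1) ∧ (δ = 1 ∨ δ = -1) ∧ χ ≠ trivIrr G ∧ (∀ i, θ i ≠ χ) ∧
    (∀ i, θ i ≠ trivIrr G) ∧
    (∃ a : ℤ, (charDegree (χ : G → ℂ) : ℤ) = δ + p * a) ∧
    (1 : ℤ) + δ * charDegree (χ : G → ℂ) = ε * charDegree ((θ i₀ : IrrCharacter G) : G → ℂ) ∧
    (∀ i j, ∀ g : G, (∀ u : G, u⁻¹ * g * u ∉ P) → (θ i : G → ℂ) g = (θ j : G → ℂ) g) ∧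
    (∀ i j, (θ i : G → ℂ) 1 = (θ j : G → ℂ) 1) ∧
    ∀ y : G, y ∈ P → y ≠ 1 → ∀ A : IrrCharacter G → ℂ, (∀ i j, A (θ i) = A (θ j)) →
      ∑ ψ, A ψ * conj ((ψ : G → ℂ) y)
        = A (trivIrr G) + (δ : ℂ) * A χ - (ε : ℂ) * A (θ i₀)

/-- [EXC] the table exists for `p ≥ 5` (for `p ≥ 7` this is `exceptional_two'`). -/
def Exc : Prop :=
  ∀ (G : Type u) [Group G] [Fintype G] [Fintype (IrrCharacter G)] (P : Subgroup G) (p : ℕ),
    p.Prime → Nat.card P = p → centralizer (P : Set G) ≤ P →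
    Nat.card (normalizer (P : Set G)) = p * 2 → 5 ≤ p →
    ∃ (n : ℕ) (ε δ : ℤ) (θ : Fin n → IrrCharacter G) (χ : IrrCharacter G) (i₀ : Fin n),
      E2 P p n ε δ θ χ i₀

/-- [TWOTR] a transitive action with `∑ fix² = 2 |G|` is doubly transitive. -/
def TwoTr : Prop :=
  ∀ (G : Type u) [Group G] [Fintype G] (X : Type w) [MulAction G X] [Finite X],
    IsPretransitive G X → ∑ g : G, Nat.card (fixedBy X g) ^ 2 = 2 * Nat.card G →
    IsMultiplyPretransitive G X 2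

/-- [DEG] the degrees, from a transitive action on `2p` points which is not doubly
transitive. -/
def Deg : Prop :=
  ∀ (G : Type u) [Group G] [Fintype G] [Fintype (IrrCharacter G)] (X : Type w) [MulAction G X]
    [Finite X], _root_.commutator G = ⊤ → ∀ (P : Subgroup G) (p : ℕ), p.Prime → 5 ≤ p →
    Nat.card P = p → Nat.card X = 2 * p → IsPretransitive G X →
    (∀ y ∈ P, y ≠ 1 → Nat.card (fixedBy X y) = 0) →
    ∑ g : G, Nat.card (fixedBy X g) ^ 2 ≠ 2 * Nat.card G →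
    ∀ (n : ℕ) (ε δ : ℤ) (θ : Fin n → IrrCharacter G) (χ : IrrCharacter G) (i₀ : Fin n),
    E2 P p n ε δ θ χ i₀ →
    δ = -1 ∧ ε = -1 ∧ charDegree (χ : G → ℂ) = p - 1 ∧
      charDegree ((θ i₀ : IrrCharacter G) : G → ℂ) = p - 2

/-- [CUBE] `⟨χ², χ⟩ = 1`. -/
def Cube : Prop :=
  ∀ (G : Type u) [Group G] [Fintype G] [Fintype (IrrCharacter G)] (P : Subgroup G) (p : ℕ),
    p.Prime → 5 ≤ p → Nat.card P = p →
    ∀ (n : ℕ) (θ : Fin n → IrrCharacter G) (χ : IrrCharacter G) (i₀ : Fin n),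
    E2 P p n (-1) (-1) θ χ i₀ → charDegree (χ : G → ℂ) = p - 1 →
    charDegree ((θ i₀ : IrrCharacter G) : G → ℂ) = p - 2 →
    ∑ g : G, (χ : G → ℂ) g ^ 3 = (Nat.card G : ℂ)

/-- [RAT] a character fixed by all the power maps `g ↦ g ^ k`, `k` prime to `|G|`, has
integer values. -/
def Rat : Prop :=
  ∀ (G : Type u) [Group G] [Finite G] (ψ : G → ℂ), IsCharacter G ψ →
    (∀ k : ℕ, k.Coprime (Nat.card G) → ∀ g : G, ψ (g ^ k) = ψ g) →
    ∀ g : G, ∃ m : ℤ, ψ g = (m : ℂ)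

/-- [INTV] `χ` has integer values. -/
def IntV : Prop :=
  Rat.{u} →
  ∀ (G : Type u) [Group G] [Fintype G] [Fintype (IrrCharacter G)] (P : Subgroup G) (p : ℕ),
    p.Prime → 5 ≤ p → Nat.card P = p →
    ∀ (n : ℕ) (θ : Fin n → IrrCharacter G) (χ : IrrCharacter G) (i₀ : Fin n),
    E2 P p n (-1) (-1) θ χ i₀ → charDegree (χ : G → ℂ) = p - 1 →
    charDegree ((θ i₀ : IrrCharacter G) : G → ℂ) = p - 2 →
    ∀ g : G, ∃ m : ℤ, (χ : G → ℂ) g = (m : ℂ)

/-- [CNT] the number of non-trivial elements conjugate into `P`. -/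
def Cnt : Prop :=
  ∀ (G : Type u) [Group G] [Finite G] (P : Subgroup G) (p : ℕ), p.Prime → Nat.card P = p →
    Nat.card (normalizer (P : Set G)) = p * 2 →
    (p - 1) * Nat.card G ≤ 2 * p * Nat.card {g : G // g ≠ 1 ∧ ∃ u : G, u⁻¹ * g * u ∈ P}

/-- [MOM] the moment argument. -/
def Mom : Prop :=
  ∀ (G : Type u) [Group G] [Fintype G] (p : ℕ), 5 ≤ p → ∀ c : G → ℤ,
    c 1 = (p : ℤ) - 1 → (∀ g, c g ≤ (p : ℤ) - 1) → (∀ g, c g = (p : ℤ) - 1 → g = 1) →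
    ((p : ℤ) - 1) * (Nat.card G : ℤ) ≤ 2 * (p : ℤ) * (Nat.card {g : G // c g = -1} : ℤ) →
    ∑ g, c g = 0 → ∑ g, c g ^ 2 = (Nat.card G : ℤ) → ∑ g, c g ^ 3 = (Nat.card G : ℤ) →
    Nat.card G = p * (p - 1) * (p - 2)

/-- [XCARD] the order of the group. -/
def XCard : Prop :=
  Cube.{u} → IntV.{u} → Rat.{u} → Cnt.{u} → Mom.{u} →
  ∀ (G : Type u) [Group G] [Fintype G] [Fintype (IrrCharacter G)] (P : Subgroup G) (p : ℕ),
    p.Prime → 5 ≤ p → Nat.card P = p → Nat.card (normalizer (P : Set G)) = p * 2 →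
    ∀ (n : ℕ) (θ : Fin n → IrrCharacter G) (χ : IrrCharacter G) (i₀ : Fin n),
    E2 P p n (-1) (-1) θ χ i₀ → charDegree (χ : G → ℂ) = p - 1 →
    charDegree ((θ i₀ : IrrCharacter G) : G → ℂ) = p - 2 →
    (∀ g : G, (χ : G → ℂ) g = (χ : G → ℂ) 1 → g = 1) →
    Nat.card G = p * (p - 1) * (p - 2)

/-- [PRE1] the order of `P`, and the normal subgroups. -/
def Pre1 : Prop :=
  ∀ (α : Type u) [Fintype α] [DecidableEq α] (p : ℕ) [Fact p.Prime], 3 < p →
    Fintype.card α = 2 * p → ∀ (G : Subgroup (Equiv.Perm α)), IsPreprimitive G α →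
    ∀ (P : Sylow p G), Nat.card (normalizer ((P : Subgroup G) : Set G)) = 2 * p →
    Nat.card (P : Subgroup G) = p ∧ ¬ (P : Subgroup G).Normal ∧
      ∀ K : Subgroup G, K.Normal → K ≠ ⊥ → (P : Subgroup G) ≤ K

/-- [PRE2] the elements of order `p` have no fixed points (Jordan). -/
def Pre2 : Prop :=
  ∀ (α : Type u) [Fintype α] [DecidableEq α] (p : ℕ) [Fact p.Prime], 3 < p →
    Fintype.card α = 2 * p → ∀ (G : Subgroup (Equiv.Perm α)), IsPreprimitive G α →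
    ¬ IsMultiplyPretransitive G α 2 → ∀ (P : Sylow p G), Nat.card (P : Subgroup G) = p →
    ∀ y ∈ (P : Subgroup G), y ≠ 1 → Nat.card (fixedBy α y) = 0

/-- [PRE3] `P` is self-centralizing. -/
def Pre3 : Prop :=
  ∀ (G : Type u) [Group G] [Finite G] (p : ℕ) [Fact p.Prime], 2 < p → ∀ (P : Sylow p G),
    Nat.card (P : Subgroup G) = p →
    Nat.card (normalizer ((P : Subgroup G) : Set G)) = 2 * p →
    (∀ K : Subgroup G, K.Normal → K ≠ ⊥ → (P : Subgroup G) ≤ K) →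
    centralizer ((P : Subgroup G) : Set G) = (P : Subgroup G)

/-- [PRE4] the group is perfect. -/
def Pre4 : Prop :=
  ∀ (G : Type u) [Group G] [Finite G] (p : ℕ) [Fact p.Prime], 2 < p → ∀ (P : Sylow p G),
    Nat.card (P : Subgroup G) = p →
    Nat.card (normalizer ((P : Subgroup G) : Set G)) = 2 * p →
    ¬ (P : Subgroup G).Normal →
    (∀ K : Subgroup G, K.Normal → K ≠ ⊥ → (P : Subgroup G) ≤ K) →
    _root_.commutator G = ⊤

/-- [NOSUB] no subgroup of index `2p`. -/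
def NoSub : Prop :=
  ∀ (G : Type u) [Group G] [Finite G] (p : ℕ), p.Prime → 7 ≤ p →
    Nat.card G = p * (p - 1) * (p - 2) → ∀ w : G, orderOf w = 2 →
    Nat.card (centralizer ({w} : Set G)) = p - 1 →
    (∀ c ∈ centralizer ({w} : Set G), c ≠ 1 → IsConj c w) →
    ∀ H : Subgroup G, H.index = 2 * p → False

end Cfsg.Agent.Lib.Helper16.P2pStmt
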