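import Mathlib
import Cfsg.Prelude.Def_Blocks
import Cfsg.Prelude.Def_Solvable
import Cfsg.Agent.Lib.CT.ThirdMain
import Cfsg.Agent.Lib.Helper16.BRSpec

/-!
# Brauer's theorem for `n < (p + 3) / 2` (S0996): structures and statements of the pieces

Setting: `G` perfect, `P` a Sylow `p`-subgroup of order `p` with `C_G(P) = P`,
`|N_G(P)| = p e`, `p = e t + 1`, `|G : N_G(P)| = 1 + n p` with `2 n ≤ p + 1`.

* `TabG`: the table of the principal block in this generality (no relation between `n` and `t`).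
* `MSG`: the multiplicities of the restrictions to `N_G(P)` in the case `δ = -1`.
Each `def X : Prop` is the exact statement of one piece, proved as
`theorem main : Cfsg.Agent.Lib.Helper16.BRStmt2.X.{u} := by intro G _ _ ...`.
-/

set_option autoImplicit false

namespace Cfsg.Agent.Lib.Helper16.BRStmt2

open Cfsg Cfsg.Agent.Lib.CT.ThirdMain Cfsg.Agent.Lib.Helper16.BRSpec
open scoped ComplexConjugate

universe u

/-- The table of the principal `p`-block (general `n`). -/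
structure TabG {G : Type u} [Group G] (p : ℕ) (P : Sylow p G) (e t n a b : ℕ) (δ : ℤ) (f : ℕ)
    (A B Y : Set (IrrCharacter G)) : Prop where
  hP : Nat.card (P : Subgroup G) = p
  hC : Subgroup.centralizer ((P : Subgroup G) : Set G) = (P : Subgroup G)
  hN : Nat.card (Subgroup.normalizer ((P : Subgroup G) : Set G)) = p * e
  hG : Nat.card G = (1 + n * p) * (p * e)
  hpe : p = e * t + 1
  he : 2 ≤ e
  ht : 2 ≤ t
  hn1 : 1 ≤ n
  htA : triv G ∉ A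
  htB : triv G ∉ B
  htY : triv G ∉ Y
  hAB : Disjoint A B
  hAY : Disjoint A Y
  hBY : Disjoint B Y
  cA : A.ncard = a
  cB : B.ncard = b
  cY : Y.ncard = t
  hA : ∀ χ ∈ A, (χ : G → ℂ) 1 = ((1 + n * p : ℕ) : ℂ) ∧
    ∀ z ∈ (P : Subgroup G), z ≠ 1 → (χ : G → ℂ) z = 1
  hB : ∀ χ ∈ B, (χ : G → ℂ) 1 = ((p - 1 : ℕ) : ℂ) ∧
    ∀ z ∈ (P : Subgroup G), z ≠ 1 → (χ : G → ℂ) z = -1
  hY1 : ∀ θ ∈ Y, (θ : G → ℂ) 1 = (f : ℂ)
  hYs : ∀ θ ∈ Y, ∑ᶠ z ∈ (((P : Subgroup G) : Set G) \ {1}), (θ : G → ℂ) z = -(δ : ℂ) * (e : ℂ)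
  hYc : ∀ z ∈ (P : Subgroup G), z ≠ 1 → ∑ᶠ θ ∈ Y, (θ : G → ℂ) z = -(δ : ℂ)
  hYq : ∀ z ∈ (P : Subgroup G), z ≠ 1 →
    ∑ᶠ θ ∈ Y, (θ : G → ℂ) z * conj ((θ : G → ℂ) z) = ((p - e : ℕ) : ℂ)
  hYr : ∀ θ ∈ Y, ∀ θ' ∈ Y, ∀ g : G, ¬ p ∣ orderOf g → (θ : G → ℂ) g = (θ' : G → ℂ) g
  hZ : ∀ χ ∈ Zset A B Y, ∀ z ∈ (P : Subgroup G), z ≠ 1 → (χ : G → ℂ) z = 0
  hδ : δ = 1 ∨ δ = -1
  hf0 : 0 < f
  hfmod : (f : ℤ) ≡ δ * (e : ℤ) [ZMOD (p : ℤ)]
  hfdvd : f ∣ e * (1 + n * p)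
  hab : a + b + 1 = e
  hdeg : δ * (f : ℤ) = 1 + (a : ℤ) * (1 + (n : ℤ) * (p : ℤ)) - (b : ℤ) * ((p : ℤ) - 1)

/-- The multiplicities in the case `δ = -1` (general `n`). -/
structure MSG {G : Type u} [Group G] (p e t n f : ℕ) (A B Y : Set (IrrCharacter G))
    (mult : IrrCharacter G → ℕ → ℕ) : Prop where
  htf : t * f = 1 + n * p
  mT : ∀ i, i < e → mult (triv G) i = if i = 0 then 1 else 0
  mB : ∀ χ ∈ B, ∀ i, i < e → mult χ i = 0
  mA0 : ∀ χ ∈ A, mult χ 0 = 0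
  mY0 : ∀ θ ∈ Y, mult θ 0 = 0
  mZ : ∀ χ ∈ Zset A B Y, (χ : G → ℂ) 1 = ((mdeg p χ * p : ℕ) : ℂ) ∧
    ∀ i, i < e → mult χ i = if i = 0 then mdeg p χ else 0
  mZs : ∑ᶠ χ ∈ Zset A B Y, mdeg p χ ^ 2 = n
  mI : ∃ I : Finset ℕ, (∀ i ∈ I, 0 < i ∧ i < e) ∧ (∀ i ∈ I, e - i ∈ I) ∧ f + e = I.card * p

/-- [S1] a self-centralizing element of order `p` generates a Sylow `p`-subgroup. -/
def SylowOfElt : Prop :=
  ∀ (G : Type u) [Group G] [Finite G] (p : ℕ) [Fact p.Prime] (z : G), orderOf z = p →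
    Subgroup.centralizer ({z} : Set G) = Subgroup.zpowers z →
    ∃ P : Sylow p G, (P : Subgroup G) = Subgroup.zpowers z

/-- [S2] few Sylow `p`-subgroups force `O_{p'}(G) = 1`. -/
def CoreTriv : Prop :=
  ∀ (G : Type u) [Group G] [Finite G], commutator G = ⊤ → ∀ (p : ℕ) [Fact p.Prime]
    (P : Sylow p G), Nat.card (P : Subgroup G) = p →
    Subgroup.centralizer ((P : Subgroup G) : Set G) = (P : Subgroup G) →
    2 * Nat.card (Sylow p G) < (p + 1) * (p + 2) → pPrimeCore p G = ⊥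

/-- [ARITHF] -/
def ArithF : Prop :=
  ∀ (p u n : ℕ), 3 ≤ p → 1 ≤ u → u ≤ n → 2 * n ≤ p + 1 →
    (1 + u * p) ∣ (p - 1) * (1 + n * p) → u = n

/-- [ARITHG] -/
def ArithG : Prop :=
  ∀ (p u n : ℕ), 3 ≤ p → 2 ≤ u → u ≤ n → 2 * n ≤ p + 1 →
    (u * p - 1) ∣ (p - 1) * (1 + n * p) → False

/-- [DEGA] a non-trivial irreducible character with value `1` on `P \ {1}` has degree
`1 + n p`. -/
def DegA : Prop :=
  ∀ (G : Type u) [Group G] [Finite G], commutator G = ⊤ → ∀ (p : ℕ) [Fact p.Prime]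
    (P : Sylow p G), Nat.card (P : Subgroup G) = p →
    Subgroup.centralizer ((P : Subgroup G) : Set G) = (P : Subgroup G) → ∀ (e n : ℕ),
    Nat.card (Subgroup.normalizer ((P : Subgroup G) : Set G)) = p * e → e ∣ p - 1 →
    (Subgroup.normalizer ((P : Subgroup G) : Set G)).index = 1 + n * p → 2 * n ≤ p + 1 →
    3 ≤ p → ∀ (y : G) (ω : ℂ) (mult : IrrCharacter G → ℕ → ℕ), Res p P e y ω mult →
    ∀ χ : IrrCharacter G, χ ≠ triv G →
    (∀ z ∈ (P : Subgroup G), z ≠ 1 → (χ : G → ℂ) z = 1) →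
    (χ : G → ℂ) 1 = ((1 + n * p : ℕ) : ℂ)

/-- [DEGB] an irreducible character with value `-1` on `P \ {1}` has degree `p - 1` and its
restriction to `N_G(P)` has no linear constituent. -/
def DegB : Prop :=
  ∀ (G : Type u) [Group G] [Finite G] (p : ℕ) [Fact p.Prime]
    (P : Sylow p G), Nat.card (P : Subgroup G) = p →
    Subgroup.centralizer ((P : Subgroup G) : Set G) = (P : Subgroup G) → ∀ (e n : ℕ),
    Nat.card (Subgroup.normalizer ((P : Subgroup G) : Set G)) = p * e → e ∣ p - 1 →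
    (Subgroup.normalizer ((P : Subgroup G) : Set G)).index = 1 + n * p → 2 * n ≤ p + 1 →
    3 ≤ p → ∀ (y : G) (ω : ℂ) (mult : IrrCharacter G → ℕ → ℕ), Res p P e y ω mult →
    ∀ χ : IrrCharacter G,
    (∀ z ∈ (P : Subgroup G), z ≠ 1 → (χ : G → ℂ) z = -1) →
    (χ : G → ℂ) 1 = ((p - 1 : ℕ) : ℂ) ∧ ∀ i, i < e → mult χ i = 0

/-- [R5] the characters induced from the linear characters of `N_G(P)` take the value `1` on
`P \ {1}`. -/
def ResSum : Prop :=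
  ∀ (G : Type u) [Group G] [Finite G] (p : ℕ) [Fact p.Prime]
    (P : Sylow p G), Nat.card (P : Subgroup G) = p →
    Subgroup.centralizer ((P : Subgroup G) : Set G) = (P : Subgroup G) → ∀ (e : ℕ),
    Nat.card (Subgroup.normalizer ((P : Subgroup G) : Set G)) = p * e →
    ∀ (y : G) (ω : ℂ) (mult : IrrCharacter G → ℕ → ℕ), Res p P e y ω mult →
    ∀ i, i < e → ∀ z ∈ (P : Subgroup G), z ≠ 1 →
    ∑ᶠ χ : IrrCharacter G, (mult χ i : ℂ) * (χ : G → ℂ) z = 1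

/-- [T1G] the case `|N_G(P) : C_G(P)| = p - 1`. -/
def T1G : Prop :=
  DegA.{u} → DegB.{u} → ResSum.{u} →
  ∀ (G : Type u) [Group G] [Finite G], commutator G = ⊤ → ∀ (p : ℕ) [Fact p.Prime], 3 ≤ p →
    ∀ (P : Sylow p G), Nat.card (P : Subgroup G) = p →
    Subgroup.centralizer ((P : Subgroup G) : Set G) = (P : Subgroup G) → ∀ n : ℕ,
    (Subgroup.normalizer ((P : Subgroup G) : Set G)).index = 1 + n * p → 2 * n ≤ p + 1 →
    (Subgroup.centralizer ((P : Subgroup G) : Set G)).relIndex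
      (Subgroup.normalizer ((P : Subgroup G) : Set G)) = p - 1 →
    (n + 1) ∣ (p - 2)

/-- [CYC2] a perfect group has no element `y` of even order with `|G| / o(y)` odd. -/
def Cyc2 : Prop :=
  ∀ (G : Type u) [Group G] [Finite G], commutator G = ⊤ → ∀ y : G, 2 ∣ orderOf y →
    ¬ 2 ∣ Nat.card G / orderOf y → False

/-- [CPOS] the case `δ = 1`: the exceptional degree is `e`. -/
def CPos : Prop :=
  ∀ (G : Type u) [Group G] [Finite G] (p : ℕ) [Fact p.Prime] (P : Sylow p G)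
    (e t n a b f : ℕ) (A B Y : Set (IrrCharacter G)), TabG p P e t n a b 1 f A B Y →
    ∀ (y : G) (ω : ℂ) (mult : IrrCharacter G → ℕ → ℕ), Res p P e y ω mult →
    (∀ i, i < e → ∀ z ∈ (P : Subgroup G), z ≠ 1 →
      ∑ᶠ χ : IrrCharacter G, (mult χ i : ℂ) * (χ : G → ℂ) z = 1) →
    (∀ χ ∈ B, ∀ i, i < e → mult χ i = 0) → f = e

/-- [PGG] the case `δ = 1`, `f = e`: `n (t - 1) ≤ 1`. -/
def PGG : Prop :=
  ∀ (G : Type u) [Group G] [Finite G] (p : ℕ) [Fact p.Prime] (P : Sylow p G)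
    (e t n a b f : ℕ) (A B Y : Set (IrrCharacter G)), TabG p P e t n a b 1 f A B Y →
    f = e → n * (t - 1) ≤ 1

/-- [MSG] the multiplicities in the case `δ = -1`. -/
def MsgOfTab : Prop :=
  ∀ (G : Type u) [Group G] [Finite G] (p : ℕ) [Fact p.Prime] (P : Sylow p G)
    (e t n a b f : ℕ) (A B Y : Set (IrrCharacter G)), TabG p P e t n a b (-1) f A B Y →
    ∀ (y : G) (ω : ℂ) (mult : IrrCharacter G → ℕ → ℕ), Res p P e y ω mult →
    (∀ i, i < e → ∀ z ∈ (P : Subgroup G), z ≠ 1 →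
      ∑ᶠ χ : IrrCharacter G, (mult χ i : ℂ) * (χ : G → ℂ) z = 1) →
    (∀ χ ∈ B, ∀ i, i < e → mult χ i = 0) → 2 * n ≤ p + 1 →
    MSG p e t n f A B Y mult

/-- [EVEN] the case `δ = -1`, `e` even: `n + 1 = t`. -/
def EvenCase : Prop :=
  ∀ (G : Type u) [Group G] [Finite G] (p : ℕ) [Fact p.Prime] (P : Sylow p G)
    (e t n a b f : ℕ) (A B Y : Set (IrrCharacter G)), TabG p P e t n a b (-1) f A B Y →
    ∀ (y : G) (ω : ℂ) (mult : IrrCharacter G → ℕ → ℕ), Res p P e y ω mult →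
    MSG p e t n f A B Y mult → Even e → n + 1 = t

/-- [ODD] the case `δ = -1`, `e` odd does not occur. -/
def OddCase : Prop :=
  ∀ (G : Type u) [Group G] [Finite G] (p : ℕ) [Fact p.Prime] (P : Sylow p G)
    (e t n a b f : ℕ) (A B Y : Set (IrrCharacter G)), TabG p P e t n a b (-1) f A B Y →
    ∀ (y : G) (ω : ℂ) (mult : IrrCharacter G → ℕ → ℕ), Res p P e y ω mult →
    MSG p e t n f A B Y mult → ¬ Even e → False

end Cfsg.Agent.Lib.Helper16.BRStmt2
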