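import Mathlib
import Cfsg.Prelude.Def_Blocks
import Cfsg.Prelude.Def_Solvable
import Cfsg.Prelude.Def_CaseTheorems
import Cfsg.Agent.Lib.Helper16.BRStmt2

/-!
# Brauer–Reynolds: the number of Sylow `p`-subgroups (S4700): statements of the pieces

`FForm n p`: `n = (h u p + u² + u + h) / (u + 1)` for some positive integers `h`, `u`.
Each `def X : Prop` is the exact statement of one piece, proved as
`theorem main : Cfsg.Agent.Lib.Helper16.BFStmt.X := by intro ...`.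
-/

set_option autoImplicit false

namespace Cfsg.Agent.Lib.Helper16.BFStmt

open Cfsg Cfsg.Agent.Lib.CT.ThirdMain Cfsg.Agent.Lib.Helper16.BRSpec
  Cfsg.Agent.Lib.Helper16.BRStmt2
open scoped ComplexConjugate

universe u

/-- The exceptional form of `n`. -/
def FForm (n p : ℕ) : Prop :=
  ∃ h u : ℕ, 0 < h ∧ 0 < u ∧ n * (u + 1) = h * u * p + u ^ 2 + u + h

/-- [NFA] a divisor `≡ 1` of `e (1 + n p)`. -/
def NFA : Prop :=
  ∀ (p e n x : ℕ), p.Prime → 3 ≤ p → e ∣ p - 1 → 1 ≤ n → ¬ FForm n p →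
    x ∣ e * (1 + n * p) → x % p = 1 → x ≠ 1 → x = 1 + n * p

/-- [NFB] a divisor `≡ -1` of `e (1 + n p)`. -/
def NFB : Prop :=
  ∀ (p e n x : ℕ), p.Prime → 3 ≤ p → e ∣ p - 1 → 1 ≤ n → ¬ FForm n p →
    x ∣ e * (1 + n * p) → x % p = p - 1 →
    x = p - 1 ∨ (e = p - 1 ∧ x = (p - 1) * (1 + n * p))

/-- [NFY] the degree of the exceptional characters. -/
def NFY : Prop :=
  ∀ (p e t n f : ℕ) (δ : ℤ), p.Prime → p = e * t + 1 → 2 ≤ e → 1 ≤ n → ¬ FForm n p →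
    0 < f → f ≠ 1 → f ∣ e * (1 + n * p) → (f : ℤ) ≡ δ * (e : ℤ) [ZMOD (p : ℤ)] →
    (δ = 1 ∨ δ = -1) →
    (δ = -1 → t * f = 1 + n * p) ∧ (δ = 1 → f = e ∨ f = e * (1 + n * p))

/-- [NFREL] the degree equation. -/
def NFRel : Prop :=
  ∀ (p e t n a b1 b2 f : ℕ) (δ : ℤ), p.Prime → p = e * t + 1 → 2 ≤ e → 1 ≤ n →
    a + b1 + b2 + 1 = e → (1 ≤ b2 → e = p - 1) → (δ = 1 ∨ δ = -1) → 0 < f →
    δ * (f : ℤ) = 1 + (a : ℤ) * (1 + (n : ℤ) * (p : ℤ)) - (b1 : ℤ) * ((p : ℤ) - 1) -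
      (b2 : ℤ) * (((p : ℤ) - 1) * (1 + (n : ℤ) * (p : ℤ))) →
    (δ = -1 → t * f = 1 + n * p) → (δ = 1 → f = e ∨ f = e * (1 + n * p)) →
    b2 = 0 ∧ 1 ≤ b1 ∧ (δ = 1 → f = e) ∧ (t = 1 → (n + 1) ∣ (p - 2))

/-- [MSG2] the multiplicities in the case `δ = -1`, from `t f = 1 + n p`
(`BRStmt2.MsgOfTab` with the hypothesis `2 n ≤ p + 1` replaced by `t f = 1 + n p`). -/
def MsgOfTab2 : Prop :=
  ∀ (G : Type u) [Group G] [Finite G] (p : ℕ) [Fact p.Prime] (P : Sylow p G)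
    (e t n a b f : ℕ) (A B Y : Set (IrrCharacter G)), TabG p P e t n a b (-1) f A B Y →
    ∀ (y : G) (ω : ℂ) (mult : IrrCharacter G → ℕ → ℕ), Res p P e y ω mult →
    (∀ i, i < e → ∀ z ∈ (P : Subgroup G), z ≠ 1 →
      ∑ᶠ χ : IrrCharacter G, (mult χ i : ℂ) * (χ : G → ℂ) z = 1) →
    (∀ χ ∈ B, ∀ i, i < e → mult χ i = 0) → t * f = 1 + n * p →
    MSG p e t n f A B Y mult

/-- [RED] reduction to `G / O_{p'}(G)`. -/
def Red : Prop :=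
  ∀ (G : Type u) [Group G] [Finite G], commutator G = ⊤ → ∀ (p : ℕ) [Fact p.Prime]
    (P : Sylow p G), Nat.card (P : Subgroup G) = p → ∀ n : ℕ,
    Nat.card (Sylow p G) = 1 + n * p →
    commutator (G ⧸ pPrimeCore p G) = ⊤ ∧ pPrimeCore p (G ⧸ pPrimeCore p G) = ⊥ ∧
    ∃ (Q : Sylow p (G ⧸ pPrimeCore p G)) (n' m : ℕ),
      Nat.card (Q : Subgroup (G ⧸ pPrimeCore p G)) = p ∧
      Nat.card (Sylow p (G ⧸ pPrimeCore p G)) = 1 + n' * p ∧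
      1 + n * p = (1 + n' * p) * (1 + m * p)

/-- [SLPSL] in characteristic `2`, `SL(2, F) ≃ PSL(2, F)`. -/
def SlPsl : Prop :=
  ∀ (F : Type) [Field F] [Fintype F] (m : ℕ), Fintype.card F = 2 ^ m →
    Nonempty (Matrix.SpecialLinearGroup (Fin 2) F ≃* Matrix.ProjectiveSpecialLinearGroup (Fin 2) F)

end Cfsg.Agent.Lib.Helper16.BFStmt
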