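import Mathlib
import Cfsg.Agent.Lib.Helper16.BFStmt

/-!
# Brauer–Reynolds (S4700): one more piece, the case `|N_G(P) : C_G(P)| = p - 1`
-/

set_option autoImplicit false

namespace Cfsg.Agent.Lib.Helper16.BFStmt2

open Cfsg Cfsg.Agent.Lib.Helper16.BFStmt

universe u

/-- [NFT1] if `n` is not of the exceptional form, then `|N_G(P) : C_G(P)| ≠ p - 1`. -/
def NFT1 : Prop :=
  NFA → NFB →
  ∀ (G : Type u) [Group G] [Finite G], commutator G = ⊤ → ∀ (p : ℕ) [Fact p.Prime]
    (P : Sylow p G), Nat.card (P : Subgroup G) = p → pPrimeCore p G = ⊥ → ∀ n : ℕ, 1 ≤ n →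
    (Subgroup.normalizer ((P : Subgroup G) : Set G)).index = 1 + n * p → ¬ FForm n p →
    (Subgroup.centralizer ((P : Subgroup G) : Set G)).relIndex
      (Subgroup.normalizer ((P : Subgroup G) : Set G)) = p - 1 → False

end Cfsg.Agent.Lib.Helper16.BFStmt2
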