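import Mathlib
import Cfsg.Agent.Lib.Helper16.BRStmt
import Cfsg.Agent.Lib.Helper16.BRStmt2
import Cfsg.Agent.Lib.Helper16.BRCore
import Cfsg.Agent.S4441
import Cfsg.Agent.Lib.CT.Knorr
import Cfsg.Agent.Lib.CT.LinChar
import Cfsg.Agent.Lib.CT.Wedderburn
import Cfsg.Agent.Lib.CT.Ops

/-!
# Brauer's theorem for `n < (p + 3) / 2` (S0996): the table and the assembly from the pieces
-/

set_option autoImplicit false

namespace Cfsg.Agent.Lib.Helper16.BGCore

open Cfsg Cfsg.Agent.Lib.CT.ThirdMain Cfsg.Agent.Lib.Helper16.BRSpec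
  Cfsg.Agent.Lib.Helper16.BRStmt Cfsg.Agent.Lib.Helper16.BRStmt2
  Cfsg.Agent.Lib.Helper16.BRCore
open scoped ComplexConjugate

universe u
variable {G : Type u} [Group G]

/-- The general table, the restriction data and the vanishing of the multiplicities on `B`. -/
theorem exists_tabG (hLoc : Loc.{u}) (hDegSum : DegDvdSum.{u}) (hYa : YaSum.{u})
    (hYV : YValues.{u}) (hGen : ExistsGen.{u}) (hRes : ExistsRes.{u}) (hDegA : DegA.{u})
    (hDegB : DegB.{u}) (hRS : ResSum.{u}) (hT1 : T1G.{u}) (hCyc : Cyc2.{u})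
    [Finite G] (hperf : commutator G = ⊤) (p : ℕ) [Fact p.Prime] (P : Sylow p G)
    (hP : Nat.card (P : Subgroup G) = p)
    (hC : Subgroup.centralizer ((P : Subgroup G) : Set G) = (P : Subgroup G)) (n : ℕ)
    (hNidx : (Subgroup.normalizer ((P : Subgroup G) : Set G)).index = 1 + n * p)
    (hn2 : 2 * n ≤ p + 1) :
    ∃ (e t a b : ℕ) (δ : ℤ) (f : ℕ) (A B Y : Set (IrrCharacter G)) (y : G) (ω : ℂ)
      (mult : IrrCharacter G → ℕ → ℕ), TabG p P e t n a b δ f A B Y ∧ Res p P e y ω mult ∧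
        (∀ χ ∈ B, ∀ i, i < e → mult χ i = 0) := by
  classical
  have hp : p.Prime := Fact.out
  obtain ⟨hp3, hPnn, he2, hedvd, n', hn1', hNidx'⟩ := hLoc G hperf p P hP
  have hnn : n' = n := by
    rw [hNidx] at hNidx'
    have h : n * p = n' * p := by omega
    exact (Nat.eq_of_mul_eq_mul_right hp.pos h).symm
  subst hnn
  have hn1 := hn1'
  obtain ⟨e, he⟩ : ∃ e, (Subgroup.centralizer ((P : Subgroup G) : Set G)).relIndex
      (Subgroup.normalizer ((P : Subgroup G) : Set G)) = e := ⟨_, rfl⟩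
  rw [he] at he2 hedvd
  have hedvd' := hedvd
  obtain ⟨t, ht⟩ := hedvd
  have hpe : p = e * t + 1 := by omega
  -- sizes
  have hCN : Subgroup.centralizer ((P : Subgroup G) : Set G) ≤
      Subgroup.normalizer ((P : Subgroup G) : Set G) := Subgroup.centralizer_le_normalizer _
  have hCidx : (Subgroup.centralizer ((P : Subgroup G) : Set G)).index = e * (1 + n' * p) := by
    rw [← Subgroup.relIndex_mul_index hCN, he, hNidx]
  have hGC := Subgroup.card_mul_index (Subgroup.centralizer ((P : Subgroup G) : Set G))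
  rw [hCidx, hC, hP] at hGC
  have hNcard : Nat.card (Subgroup.normalizer ((P : Subgroup G) : Set G)) = p * e := by
    have h1 := Subgroup.card_mul_index (Subgroup.normalizer ((P : Subgroup G) : Set G))
    rw [hNidx] at h1
    have h2 : Nat.card (Subgroup.normalizer ((P : Subgroup G) : Set G)) * (1 + n' * p) =
        p * e * (1 + n' * p) := by
      rw [h1, ← hGC]; ring
    exact Nat.eq_of_mul_eq_mul_right (by omega : 0 < 1 + n' * p) h2
  have hGcard : Nat.card G = (1 + n' * p) * (p * e) := by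
    rw [← hGC]; ring
  -- restriction data
  obtain ⟨y, hyN, hyo, hyP, hcov, hreg, hconj⟩ := hGen G p P hP hC e hNcard
  obtain ⟨ω, mult, hR⟩ := hRes G p P hP hC e hNcard y hyN hyo hyP hcov hreg hconj
  have hpodd : Odd p := by
    rcases hp.eq_two_or_odd' with h | h
    · omega
    · exact h
  -- t ≠ 1
  have ht2 : 2 ≤ t := by
    rcases Nat.lt_or_ge t 2 with h | h
    · exfalso
      interval_cases t
      · omega
      · have hep : e = p - 1 := by omega
        have hdvd := hT1 hDegA hDegB hRS G hperf p hp3 P hP hC n' hNidx hn2 (he.trans hep)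
        have h1 : Odd (p - 2) := Nat.Odd.sub_even (by omega) hpodd (by decide)
        have h2 : Odd (n' + 1) := Odd.of_dvd_nat h1 hdvd
        have h3 : Even n' := by
          rcases Nat.even_or_odd n' with h | h
          · exact h
          · exact absurd (Odd.add_odd h odd_one) (Nat.not_even_iff_odd.2 h2)
        have h4 : Odd (1 + n' * p) := by
          rw [add_comm]
          exact Even.add_one (Even.mul_right h3 p)
        have h5 : Odd ((1 + n' * p) * p) := Odd.mul h4 hpodd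
        refine hCyc G hperf y ?_ ?_
        · rw [hyo, hep]
          obtain ⟨k, hk⟩ := hpodd
          exact ⟨k, by omega⟩
        · rw [hyo, hGcard, hep]
          have h6 : (1 + n' * p) * (p * (p - 1)) / (p - 1) = (1 + n' * p) * p := by
            rw [← mul_assoc]
            exact Nat.mul_div_cancel _ (by omega)
          rw [h6, ← even_iff_two_dvd]
          exact Nat.not_even_iff_odd.2 h5
    · exact h
  have h2e : 2 * e + 1 ≤ p := by
    have := Nat.mul_le_mul_left e ht2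
    omega
  -- the block data
  haveI : Fintype G := Fintype.ofFinite G
  haveI : Finite (IrrCharacter G) := Cfsg.Agent.Lib.CT.Wedderburn.finite_irrCharacter G
  obtain ⟨M, hM⟩ := Cfsg.Agent.Lib.CT.Knorr.exists_isPModular p hp
  have hMp : M.IsPrime := hM.2.1.isPrime
  obtain ⟨X, Y, hB0, hXY, hXc, hYc, εX, ε, hX, hε, hYd, hYr, hrel⟩ :=
    Cfsg.Agent.S4441.result p M hM (by omega) P hP e he
  rw [Nat.card_coe_set_eq] at hXc hYc
  have hYt : Y.ncard = t := by
    rw [hYc, ht]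
    exact Nat.mul_div_cancel_left t (by omega)
  have h1reg : ¬ p ∣ orderOf (1 : G) := not_dvd_orderOf_one hp
  obtain ⟨z₀, hz₀, hz₀1⟩ : ∃ z ∈ (P : Subgroup G), z ≠ 1 := by
    by_contra hcon
    push_neg at hcon
    have hbot : (P : Subgroup G) = ⊥ := (Subgroup.eq_bot_iff_forall _).2 hcon
    rw [hbot, Subgroup.card_bot] at hP
    omega
  have hXval : ∀ χ ∈ X, ∀ z ∈ (P : Subgroup G), z ≠ 1 → (χ : G → ℂ) z = (εX χ : ℂ) := by
    intro χ hχ z hz hz1
    have h := (hX χ hχ).2.2 z hz hz1 1 (Subgroup.one_mem _) h1reg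
    rwa [mul_one] at h
  have htY : triv G ∉ Y := by
    intro h
    have h1 := hYd _ h
    have htd : charDegree ((triv G : IrrCharacter G) : G → ℂ) = 1 :=
      Cfsg.Agent.Lib.CT.Wedderburn.charDegree_eq_of_apply_one (n := 1) (by rw [coe_triv]; simp)
    rw [htd] at h1
    rcases hε with rfl | rfl
    · have hd : (p : ℤ) ∣ ((e - 1 : ℕ) : ℤ) := by
        have h2 := h1.dvd
        rw [Nat.cast_sub (by omega)]
        simpa using h2
      have h3 := Nat.le_of_dvd (by omega) (Int.natCast_dvd_natCast.1 hd)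
      omega
    · have hd : (p : ℤ) ∣ ((e + 1 : ℕ) : ℤ) := by
        have h2 := h1.dvd
        have h3 : ((e + 1 : ℕ) : ℤ) = -(-1 * (e : ℤ) - ((1 : ℕ) : ℤ)) := by push_cast; ring
        rw [h3]
        exact (dvd_neg).2 h2
      have h3 := Nat.le_of_dvd (by omega) (Int.natCast_dvd_natCast.1 hd)
      omega
  have htX : triv G ∈ X := by
    have h : triv G ∈ X ∪ Y := hB0 ▸ triv_mem_principalBlock hMp
    rcases h with h | h
    · exact h
    · exact absurd h htY
  have hεt : εX (triv G) = 1 := by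
    have h := hXval _ htX z₀ hz₀ hz₀1
    rw [coe_triv] at h
    have h2 : ((1 : ℤ) : ℂ) = (εX (triv G) : ℂ) := by simpa using h
    exact (Int.cast_injective h2).symm
  obtain ⟨A, hAmem⟩ : ∃ A : Set (IrrCharacter G),
      ∀ χ, χ ∈ A ↔ (χ ∈ X ∧ χ ≠ triv G ∧ εX χ = 1) :=
    ⟨{χ | χ ∈ X ∧ χ ≠ triv G ∧ εX χ = 1}, fun χ => Iff.rfl⟩
  obtain ⟨B, hBmem⟩ : ∃ B : Set (IrrCharacter G), ∀ χ, χ ∈ B ↔ (χ ∈ X ∧ εX χ = -1) :=
    ⟨{χ | χ ∈ X ∧ εX χ = -1}, fun χ => Iff.rfl⟩
  have hAX : A ⊆ X := fun χ h => ((hAmem χ).1 h).1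
  have hBX : B ⊆ X := fun χ h => ((hBmem χ).1 h).1
  have hABd : Disjoint A B := by
    rw [Set.disjoint_left]
    intro χ hA hB
    have h1 := ((hAmem χ).1 hA).2.2
    have h2 := ((hBmem χ).1 hB).2
    omega
  have htA : triv G ∉ A := fun h => ((hAmem _).1 h).2.1 rfl
  have htB : triv G ∉ B := fun h => by
    have h2 := ((hBmem _).1 h).2
    omega
  have hXeq : X = {triv G} ∪ (A ∪ B) := by
    ext χ
    constructor
    · intro h
      by_cases hχ : χ = triv G
      · left; exact hχ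
      · right
        rcases (hX χ h).1 with h1 | h1
        · left; exact (hAmem χ).2 ⟨h, hχ, h1⟩
        · right; exact (hBmem χ).2 ⟨h, h1⟩
    · rintro (h | h | h)
      · rw [Set.mem_singleton_iff] at h; rw [h]; exact htX
      · exact hAX h
      · exact hBX h
  have hdis1 : Disjoint ({triv G} : Set (IrrCharacter G)) (A ∪ B) := by
    rw [Set.disjoint_singleton_left]
    rintro (h | h)
    · exact htA h
    · exact htB h
  have hAfin : A.Finite := Set.toFinite A
  have hBfin : B.Finite := Set.toFinite B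
  have hab : A.ncard + B.ncard + 1 = e := by
    rw [← hXc, hXeq, Set.ncard_union_eq hdis1 (Set.finite_singleton _) (hAfin.union hBfin),
      Set.ncard_singleton, Set.ncard_union_eq hABd hAfin hBfin]
    omega
  -- degrees
  have hchar : ∀ χ : IrrCharacter G, (χ : G → ℂ) 1 = (charDegree (χ : G → ℂ) : ℂ) := fun χ =>
    (Cfsg.Agent.Lib.CT.Wedderburn.char_natCast_charDegree
      (Cfsg.Agent.Lib.CT.Ops.IsIrrCharacter.isCharacter χ.2)).symm
  have hA1 : ∀ χ ∈ A, ∀ z ∈ (P : Subgroup G), z ≠ 1 → (χ : G → ℂ) z = 1 := by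
    intro χ hχ z hz hz1
    rw [hXval χ (hAX hχ) z hz hz1, ((hAmem χ).1 hχ).2.2]; simp
  have hB1 : ∀ χ ∈ B, ∀ z ∈ (P : Subgroup G), z ≠ 1 → (χ : G → ℂ) z = -1 := by
    intro χ hχ z hz hz1
    rw [hXval χ (hBX hχ) z hz hz1, ((hBmem χ).1 hχ).2]; simp
  have hAdeg : ∀ χ ∈ A, (χ : G → ℂ) 1 = ((1 + n' * p : ℕ) : ℂ) := fun χ hχ =>
    hDegA G hperf p P hP hC e n' hNcard hedvd' hNidx hn2 hp3 y ω mult hR χ
      ((hAmem χ).1 hχ).2.1 (hA1 χ hχ)
  have hBdeg : ∀ χ ∈ B, (χ : G → ℂ) 1 = ((p - 1 : ℕ) : ℂ) ∧ ∀ i, i < e → mult χ i = 0 :=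
    fun χ hχ => hDegB G p P hP hC e n' hNcard hedvd' hNidx hn2 hp3 y ω mult hR χ (hB1 χ hχ)
  -- the exceptional characters
  have hYne : Y.Nonempty := by
    apply Set.nonempty_of_ncard_ne_zero
    omega
  obtain ⟨θ₀, hθ₀⟩ := hYne
  obtain ⟨f, hf⟩ : ∃ f, charDegree (θ₀ : G → ℂ) = f := ⟨_, rfl⟩
  have hYdeg : ∀ θ ∈ Y, charDegree (θ : G → ℂ) = f := by
    intro θ hθ
    have h := hYr θ hθ θ₀ hθ₀ 1 h1reg
    rw [← hf]
    unfold charDegree
    rw [h]
  have hY1 : ∀ θ ∈ Y, (θ : G → ℂ) 1 = (f : ℂ) := by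
    intro θ hθ
    rw [hchar θ, hYdeg θ hθ]
  have hf0 : 0 < f := by
    rw [← hf]
    exact Cfsg.Agent.Lib.CT.Wedderburn.irr_charDegree_pos θ₀.2
  have hY11 : ∀ θ ∈ Y, ∀ θ' ∈ Y, (θ : G → ℂ) 1 = (θ' : G → ℂ) 1 := by
    intro θ hθ θ' hθ'
    rw [hY1 θ hθ, hY1 θ' hθ']
  have hdeg : ∀ θ ∈ Y, (ε : ℂ) * (θ : G → ℂ) 1 = ∑ᶠ χ ∈ X, (εX χ : ℂ) * (χ : G → ℂ) 1 :=
    fun θ hθ => hrel θ hθ 1 h1reg
  have hYaz := hYa G p M hM P hP X Y hB0 hXY ⟨θ₀, hθ₀⟩ εX ε hε hXval hY11 hdeg z₀ hz₀ hz₀1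
  have hfdvd : f ∣ e * (1 + n' * p) := by
    have hε' : (-ε = 1 ∨ -ε = -1) := by
      rcases hε with h | h
      · right; rw [h]
      · left; rw [h]; norm_num
    have h := hDegSum G p P hP Y ⟨θ₀, hθ₀⟩ f hYdeg (-ε) hε' z₀ hz₀ hz₀1
      (by rw [hYaz]; push_cast; ring)
    rwa [hCidx] at h
  have hmodf : (f : ℤ) ≡ ε * (e : ℤ) [ZMOD (p : ℤ)] := by
    have h := hYd θ₀ hθ₀
    rwa [hf] at h
  have hXsum : ∑ᶠ χ ∈ X, (εX χ : ℂ) * (χ : G → ℂ) 1 =
      1 + (A.ncard : ℂ) * ((1 + n' * p : ℕ) : ℂ) - (B.ncard : ℂ) * ((p - 1 : ℕ) : ℂ) := by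
    rw [hXeq, finsum_mem_union hdis1 (Set.finite_singleton _) (hAfin.union hBfin),
      finsum_mem_singleton, finsum_mem_union hABd hAfin hBfin, hεt,
      finsum_mem_const_ncard A hAfin _ ((1 + n' * p : ℕ) : ℂ) (by
        intro χ hχ
        rw [((hAmem χ).1 hχ).2.2, hAdeg χ hχ]
        simp),
      finsum_mem_const_ncard B hBfin _ (-((p - 1 : ℕ) : ℂ)) (by
        intro χ hχ
        rw [((hBmem χ).1 hχ).2, (hBdeg χ hχ).1]
        simp)]
    rw [coe_triv]
    push_cast
    ring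
  have hdegZ : ε * (f : ℤ) = 1 + (A.ncard : ℤ) * (1 + (n' : ℤ) * (p : ℤ)) -
      (B.ncard : ℤ) * ((p : ℤ) - 1) := by
    have h := hdeg θ₀ hθ₀
    rw [hY1 θ₀ hθ₀, hXsum, Nat.cast_sub hp.one_lt.le] at h
    have h2 : ((ε * (f : ℤ) : ℤ) : ℂ) = ((1 + (A.ncard : ℤ) * (1 + (n' : ℤ) * (p : ℤ)) -
        (B.ncard : ℤ) * ((p : ℤ) - 1) : ℤ) : ℂ) := by
      push_cast
      rw [h]
      push_cast
      ring
    exact Int.cast_injective h2
  obtain ⟨hYc', hYq, hYs, hvan⟩ := hYV G p M hM P hP hC e t hpe hNcard X Y hB0 hXY hXc hYt εX ε hε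
    (fun χ hχ => ⟨(hX χ hχ).1, hXval χ hχ⟩) hY11 hdeg
  refine ⟨e, t, A.ncard, B.ncard, ε, f, A, B, Y, y, ω, mult, ?_, hR, fun χ hχ => (hBdeg χ hχ).2⟩
  exact
    { hP := hP
      hC := hC
      hN := hNcard
      hG := hGcard
      hpe := hpe
      he := he2
      ht := ht2
      hn1 := hn1
      htA := htA
      htB := htB
      htY := htY
      hAB := hABd
      hAY := Set.disjoint_of_subset_left hAX hXY
      hBY := Set.disjoint_of_subset_left hBX hXY
      cA := rfl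
      cB := rfl
      cY := hYt
      hA := fun χ hχ => ⟨hAdeg χ hχ, hA1 χ hχ⟩
      hB := fun χ hχ => ⟨(hBdeg χ hχ).1, hB1 χ hχ⟩
      hY1 := hY1
      hYs := hYs
      hYc := hYc'
      hYq := hYq
      hYr := hYr
      hZ := by
        intro χ hχ z hz hz1
        obtain ⟨h1, h2, h3, h4⟩ := hχ
        apply hvan χ _ z hz hz1
        rw [hB0]
        rintro (h | h)
        · rcases (hX χ h).1 with h5 | h5
          · exact h2 ((hAmem χ).2 ⟨h, h1, h5⟩)
          · exact h3 ((hBmem χ).2 ⟨h, h5⟩)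
        · exact h4 h
      hδ := hε
      hf0 := hf0
      hfmod := hmodf
      hfdvd := hfdvd
      hab := hab
      hdeg := hdegZ }

/-- `Tab` from `TabG` in the case `δ = -1`, `n + 1 = t`. -/
theorem tab_of_tabG (p : ℕ) [Fact p.Prime] (P : Sylow p G) (e t n a b f : ℕ)
    (A B Y : Set (IrrCharacter G)) (hT : TabG p P e t n a b (-1) f A B Y)
    (htf : t * f = 1 + n * p) (hnt : n + 1 = t) : Tab p P e t n a b (-1) f A B Y := by
  have hp : p.Prime := Fact.out
  have hpe := hT.hpe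
  have hfe : f + e = p := by
    have h1 : t * (f + e) = t * p := by
      have h2 : t * e = p - 1 := by rw [hpe]; simp [mul_comm]
      have h3 : (n + 1) * p = n * p + p := by ring
      rw [mul_add, htf, h2, ← hnt, h3]
      have := hp.one_lt
      omega
    exact Nat.eq_of_mul_eq_mul_left (by have := hT.ht; omega) h1
  have hfZ : (f : ℤ) = (p : ℤ) - (e : ℤ) := by
    have : ((f + e : ℕ) : ℤ) = (p : ℤ) := by rw [hfe]
    push_cast at this
    linarith
  have habZ : (a : ℤ) + (b : ℤ) + 1 = (e : ℤ) := by exact_mod_cast hT.hab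
  have hkey : (p : ℤ) * ((a : ℤ) * (n : ℤ) - (b : ℤ) + 1) = 0 := by
    linear_combination (-1 : ℤ) * hT.hdeg - hfZ - habZ
  have hb : b = a * n + 1 := by
    rcases mul_eq_zero.1 hkey with h | h
    · have : (p : ℤ) ≠ 0 := by exact_mod_cast hp.ne_zero
      exact absurd h this
    · have h2 : (b : ℤ) = (a : ℤ) * (n : ℤ) + 1 := by linarith
      exact_mod_cast h2
  have hea : e = a * t + 2 := by
    have := hT.hab
    rw [hb] at this
    rw [← hnt]
    linarith
  exact
    { hP := hT.hP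
      hC := hT.hC
      hN := hT.hN
      hG := hT.hG
      hpe := hT.hpe
      he := hT.he
      ht := hT.ht
      hn := hnt
      htA := hT.htA
      htB := hT.htB
      htY := hT.htY
      hAB := hT.hAB
      hAY := hT.hAY
      hBY := hT.hBY
      cA := hT.cA
      cB := hT.cB
      cY := hT.cY
      hA := hT.hA
      hB := hT.hB
      hY1 := hT.hY1
      hYs := hT.hYs
      hYc := hT.hYc
      hYq := hT.hYq
      hYr := hT.hYr
      hZ := hT.hZ
      hcase := Or.inr ⟨rfl, hfe, hb, hea⟩ }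

/-- Brauer's theorem (`n < (p + 3) / 2`), in `CoreConcl` form, from the pieces. -/
theorem coreConcl_of_pieces (hLoc : Loc.{u}) (hDegSum : DegDvdSum.{u}) (hYa : YaSum.{u})
    (hYV : YValues.{u}) (hGen : ExistsGen.{u}) (hRes : ExistsRes.{u}) (hDegA : DegA.{u})
    (hDegB : DegB.{u}) (hRS : ResSum.{u}) (hT1 : T1G.{u}) (hCyc : Cyc2.{u})
    (hS1 : SylowOfElt.{u}) (hS2 : CoreTriv.{u}) (hCPos : CPos.{u}) (hPGG : PGG.{u})
    (hMsg : MsgOfTab.{u}) (hEven : EvenCase.{u}) (hOdd : OddCase.{u})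
    (hPF : PslOfNOne.{u}) (hPG : CaseCFalse.{u}) (hInv : InvOfInvol.{u}) (hMS : MsOfTab.{u})
    (hCZ : CzOfMs.{u}) (hPI : CaseDFalse.{u}) (hPJ1 : CaseDInvol.{u}) (hPJ2 : PslOfInvol.{u})
    [Finite G] (hperf : commutator G = ⊤) (p : ℕ) [Fact p.Prime] (z : G) (hz : orderOf z = p)
    (hC : Subgroup.centralizer ({z} : Set G) = Subgroup.zpowers z)
    (hn : 2 * Nat.card (Sylow p G) < (p + 1) * (p + 2)) : CoreConcl p G := by
  classical
  have hp : p.Prime := Fact.out
  obtain ⟨P, hPz⟩ := hS1 G p z hz hC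
  have hP : Nat.card (P : Subgroup G) = p := by
    rw [hPz, Nat.card_zpowers, hz]
  have hCP : Subgroup.centralizer ((P : Subgroup G) : Set G) = (P : Subgroup G) := by
    rw [hPz, Subgroup.zpowers_eq_closure, Subgroup.centralizer_closure,
      ← Subgroup.zpowers_eq_closure]
    exact hC
  have hO := hS2 G hperf p P hP hCP hn
  obtain ⟨hp3, -, -, -, n, hn1, hNidx⟩ := hLoc G hperf p P hP
  have hpodd : Odd p := by
    rcases hp.eq_two_or_odd' with h | h
    · omega
    · exact h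
  have hn2 : 2 * n ≤ p + 1 := by
    have h1 : Nat.card (Sylow p G) = 1 + n * p := by
      rw [← hNidx]
      exact Sylow.card_eq_index_normalizer P
    rw [h1] at hn
    have h2 : 2 * n * p < (p + 3) * p := by nlinarith
    have h3 : 2 * n < p + 3 := lt_of_mul_lt_mul_right h2 (Nat.zero_le p)
    obtain ⟨k, hk⟩ := hpodd
    omega
  obtain ⟨e, t, a, b, δ, f, A, B, Y, y, ω, mult, hT, hR, hB0⟩ :=
    exists_tabG hLoc hDegSum hYa hYV hGen hRes hDegA hDegB hRS hT1 hCyc hperf p P hP hCP n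
      hNidx hn2
  have hR5 := hRS G p P hP hCP e hT.hN y ω mult hR
  rcases hT.hδ with hδ | hδ
  · subst hδ
    have hfe := hCPos G p P e t n a b f A B Y hT y ω mult hR hR5 hB0
    have hnt := hPGG G p P e t n a b f A B Y hT hfe
    have ht2 := hT.ht
    have ht : t = 2 := by
      rcases Nat.lt_or_ge t 3 with h | h
      · omega
      · exfalso
        have h1 : 1 * 2 ≤ n * (t - 1) := Nat.mul_le_mul hn1 (by omega)
        omega
    have hn1' : n = 1 := by
      rw [ht] at hnt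
      omega
    left
    refine hPF G hperf p P hP hO hCP e hT.he ?_ hT.hN ?_
    · rw [hT.hpe, ht]; ring
    · rw [hT.hG, hn1']; ring
  · subst hδ
    have hM := hMsg G p P e t n a b f A B Y hT y ω mult hR hR5 hB0 hn2
    by_cases hev : Even e
    · have hnt := hEven G p P e t n a b f A B Y hT y ω mult hR hM hev
      have hTab := tab_of_tabG p P e t n a b f A B Y hT hM.htf hnt
      exact core_of_tab hPF hPG hGen hRes hInv hMS hCZ hPI hPJ1 hPJ2 hperf p P hO e t n a b (-1) f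
        A B Y hTab
    · exact (hOdd G p P e t n a b f A B Y hT y ω mult hR hM hev).elim

end Cfsg.Agent.Lib.Helper16.BGCore

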