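import Mathlib
import Cfsg.Agent.Lib.Helper16.BRStmt
import Cfsg.Agent.Lib.Helper16.BRStmt2
import Cfsg.Agent.Lib.Helper16.BFStmt
import Cfsg.Agent.Lib.Helper16.BFStmt2
import Cfsg.Agent.Lib.Helper16.BRCore
import Cfsg.Agent.Lib.Helper16.BGCore
import Cfsg.Agent.Lib.Helper91.BGDEGB
import Cfsg.Agent.S4441
import Cfsg.Agent.Lib.CT.Knorr
import Cfsg.Agent.Lib.CT.LinChar
import Cfsg.Agent.Lib.CT.Wedderburn
import Cfsg.Agent.Lib.CT.Ops

/-!
# Brauer–Reynolds (S4700): the table in the non-exceptional case, and the assembly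
-/

set_option autoImplicit false

namespace Cfsg.Agent.Lib.Helper16.BFCore

open Cfsg Cfsg.Agent.Lib.CT.ThirdMain Cfsg.Agent.Lib.Helper16.BRSpec
  Cfsg.Agent.Lib.Helper16.BRStmt Cfsg.Agent.Lib.Helper16.BRStmt2
  Cfsg.Agent.Lib.Helper16.BFStmt Cfsg.Agent.Lib.Helper16.BFStmt2
  Cfsg.Agent.Lib.Helper16.BRCore Cfsg.Agent.Lib.Helper16.BGCore
open scoped ComplexConjugate

universe u
variable {G : Type u} [Group G]

/-- The general table when `n` is not of the exceptional form. -/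
theorem exists_tabG_nf (hLoc : Loc.{u}) (hDeg : DegDvd.{u}) (hDegSum : DegDvdSum.{u})
    (hYa : YaSum.{u}) (hCent : CentEq.{u}) (hYV : YValues.{u}) (hGen : ExistsGen.{u})
    (hRes : ExistsRes.{u}) (hNFA : NFA) (hNFB : NFB) (hNFY : NFY) (hNFRel : NFRel)
    (hT1 : NFT1.{u})
    [Finite G] (hperf : commutator G = ⊤) (p : ℕ) [Fact p.Prime] (P : Sylow p G)
    (hP : Nat.card (P : Subgroup G) = p) (hO : pPrimeCore p G = ⊥) (n : ℕ)
    (hNidx : (Subgroup.normalizer ((P : Subgroup G) : Set G)).index = 1 + n * p)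
    (hNF : ¬ FForm n p) :
    ∃ (e t a b : ℕ) (δ : ℤ) (f : ℕ) (A B Y : Set (IrrCharacter G)) (y : G) (ω : ℂ)
      (mult : IrrCharacter G → ℕ → ℕ), TabG p P e t n a b δ f A B Y ∧ Res p P e y ω mult ∧
        (∀ χ ∈ B, ∀ i, i < e → mult χ i = 0) ∧ (δ = 1 → f = e) ∧
        (δ = -1 → t * f = 1 + n * p) := by
  classical
  have hp : p.Prime := Fact.out
  obtain ⟨hp3, hPnn, he2, hedvd, n', hn1', hNidx'⟩ := hLoc G hperf p P hP
  have hnn : n' = n := by
    rw [hNidx] at hNidx'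
    have h : n * p = n' * p := by omega
    exact (Nat.eq_of_mul_eq_mul_right hp.pos h).symm
  have hn1 : 1 ≤ n := by rw [← hnn]; exact hn1'
  obtain ⟨e, he⟩ : ∃ e, (Subgroup.centralizer ((P : Subgroup G) : Set G)).relIndex
      (Subgroup.normalizer ((P : Subgroup G) : Set G)) = e := ⟨_, rfl⟩
  rw [he] at he2 hedvd
  have hedvd' := hedvd
  have hep1 : e ≠ p - 1 := fun h => hT1 hNFA hNFB G hperf p P hP hO n hn1 hNidx hNF (he.trans h)
  obtain ⟨t, ht⟩ := hedvd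
  have hpe : p = e * t + 1 := by omega
  have ht2 : 2 ≤ t := by
    rcases Nat.lt_or_ge t 2 with h | h
    · interval_cases t
      · omega
      · exfalso; apply hep1; omega
    · exact h
  have h2e : 2 * e + 1 ≤ p := by
    have := Nat.mul_le_mul_left e ht2
    omega
  -- sizes
  have hCN : Subgroup.centralizer ((P : Subgroup G) : Set G) ≤
      Subgroup.normalizer ((P : Subgroup G) : Set G) := Subgroup.centralizer_le_normalizer _
  have hPC : (P : Subgroup G) ≤ Subgroup.centralizer ((P : Subgroup G) : Set G) := by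
    haveI : IsCyclic (P : Subgroup G) := isCyclic_of_prime_card hP
    intro x hx
    rw [Subgroup.mem_centralizer_iff]
    intro y hy
    have h := (IsCyclic.commGroup (α := (P : Subgroup G))).mul_comm ⟨y, hy⟩ ⟨x, hx⟩
    exact congrArg Subtype.val h
  have hCidx : (Subgroup.centralizer ((P : Subgroup G) : Set G)).index = e * (1 + n * p) := by
    rw [← Subgroup.relIndex_mul_index hCN, he, hNidx]
  have hGC := Subgroup.card_mul_index (Subgroup.centralizer ((P : Subgroup G) : Set G))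
  rw [hCidx] at hGC
  -- the block data
  haveI : Fintype G := Fintype.ofFinite G
  haveI : Finite (IrrCharacter G) := Cfsg.Agent.Lib.CT.Wedderburn.finite_irrCharacter G
  obtain ⟨M, hM⟩ := Cfsg.Agent.Lib.CT.Knorr.exists_isPModular p hp
  have hMp : M.IsPrime := hM.2.1.isPrime
  obtain ⟨X, Y, hB0, hXY, hXc, hYc, εX, ε, hX, hε, hYd, hYr, hrel⟩ :=
    Cfsg.Agent.S4441.result p M hM (by omega) P hP e he
  rw [Nat.card_coe_set_eq] at hXc hYc
  have hYt : Y.ncard = t := by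
    rw [hYc, ht]
    exact Nat.mul_div_cancel_left t (by omega)
  have h1reg : ¬ p ∣ orderOf (1 : G) := not_dvd_orderOf_one hp
  obtain ⟨z₀, hz₀, hz₀1⟩ : ∃ z ∈ (P : Subgroup G), z ≠ 1 := by
    by_contra hcon
    push_neg at hcon
    have hbot : (P : Subgroup G) = ⊥ := (Subgroup.eq_bot_iff_forall _).2 hcon
    rw [hbot, Subgroup.card_bot] at hP
    omega
  have hXval : ∀ χ ∈ X, ∀ z ∈ (P : Subgroup G), z ≠ 1 → (χ : G → ℂ) z = (εX χ : ℂ) := by
    intro χ hχ z hz hz1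
    have h := (hX χ hχ).2.2 z hz hz1 1 (Subgroup.one_mem _) h1reg
    rwa [mul_one] at h
  have htY : triv G ∉ Y := by
    intro h
    have h1 := hYd _ h
    have htd : charDegree ((triv G : IrrCharacter G) : G → ℂ) = 1 :=
      Cfsg.Agent.Lib.CT.Wedderburn.charDegree_eq_of_apply_one (n := 1) (by rw [coe_triv]; simp)
    rw [htd] at h1
    rcases hε with rfl | rfl
    · have hd : (p : ℤ) ∣ ((e - 1 : ℕ) : ℤ) := by
        have h2 := h1.dvd
        rw [Nat.cast_sub (by omega)]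
        simpa using h2
      have h3 := Nat.le_of_dvd (by omega) (Int.natCast_dvd_natCast.1 hd)
      omega
    · have hd : (p : ℤ) ∣ ((e + 1 : ℕ) : ℤ) := by
        have h2 := h1.dvd
        have h3 : ((e + 1 : ℕ) : ℤ) = -(-1 * (e : ℤ) - ((1 : ℕ) : ℤ)) := by push_cast; ring
        rw [h3]
        exact (dvd_neg).2 h2
      have h3 := Nat.le_of_dvd (by omega) (Int.natCast_dvd_natCast.1 hd)
      omega
  have htX : triv G ∈ X := by
    have h : triv G ∈ X ∪ Y := hB0 ▸ triv_mem_principalBlock hMp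
    rcases h with h | h
    · exact h
    · exact absurd h htY
  have hεt : εX (triv G) = 1 := by
    have h := hXval _ htX z₀ hz₀ hz₀1
    rw [coe_triv] at h
    have h2 : ((1 : ℤ) : ℂ) = (εX (triv G) : ℂ) := by simpa using h
    exact (Int.cast_injective h2).symm
  obtain ⟨A, hAmem⟩ : ∃ A : Set (IrrCharacter G),
      ∀ χ, χ ∈ A ↔ (χ ∈ X ∧ χ ≠ triv G ∧ εX χ = 1) :=
    ⟨{χ | χ ∈ X ∧ χ ≠ triv G ∧ εX χ = 1}, fun χ => Iff.rfl⟩
  obtain ⟨B, hBmem⟩ : ∃ B : Set (IrrCharacter G), ∀ χ, χ ∈ B ↔ (χ ∈ X ∧ εX χ = -1) :=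
    ⟨{χ | χ ∈ X ∧ εX χ = -1}, fun χ => Iff.rfl⟩
  have hAX : A ⊆ X := fun χ h => ((hAmem χ).1 h).1
  have hBX : B ⊆ X := fun χ h => ((hBmem χ).1 h).1
  have hABd : Disjoint A B := by
    rw [Set.disjoint_left]
    intro χ hA hB
    have h1 := ((hAmem χ).1 hA).2.2
    have h2 := ((hBmem χ).1 hB).2
    omega
  have htA : triv G ∉ A := fun h => ((hAmem _).1 h).2.1 rfl
  have htB : triv G ∉ B := fun h => by
    have h2 := ((hBmem _).1 h).2
    omega
  have hXeq : X = {triv G} ∪ (A ∪ B) := by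
    ext χ
    constructor
    · intro h
      by_cases hχ : χ = triv G
      · left; exact hχ
      · right
        rcases (hX χ h).1 with h1 | h1
        · left; exact (hAmem χ).2 ⟨h, hχ, h1⟩
        · right; exact (hBmem χ).2 ⟨h, h1⟩
    · rintro (h | h | h)
      · rw [Set.mem_singleton_iff] at h; rw [h]; exact htX
      · exact hAX h
      · exact hBX h
  have hdis1 : Disjoint ({triv G} : Set (IrrCharacter G)) (A ∪ B) := by
    rw [Set.disjoint_singleton_left]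
    rintro (h | h)
    · exact htA h
    · exact htB h
  have hAfin : A.Finite := Set.toFinite A
  have hBfin : B.Finite := Set.toFinite B
  have hab : A.ncard + B.ncard + 1 = e := by
    rw [← hXc, hXeq, Set.ncard_union_eq hdis1 (Set.finite_singleton _) (hAfin.union hBfin),
      Set.ncard_singleton, Set.ncard_union_eq hABd hAfin hBfin]
    omega
  -- degrees
  have hchar : ∀ χ : IrrCharacter G, (χ : G → ℂ) 1 = (charDegree (χ : G → ℂ) : ℂ) := fun χ =>
    (Cfsg.Agent.Lib.CT.Wedderburn.char_natCast_charDegree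
      (Cfsg.Agent.Lib.CT.Ops.IsIrrCharacter.isCharacter χ.2)).symm
  have hAdeg : ∀ χ ∈ A, charDegree (χ : G → ℂ) = 1 + n * p := by
    intro χ hχ
    obtain ⟨hχX, hχt, hχε⟩ := (hAmem χ).1 hχ
    have hdvd : charDegree (χ : G → ℂ) ∣ e * (1 + n * p) := by
      have h := hDeg G p P hP χ (εX χ) (hX χ hχX).1 z₀ hz₀ hz₀1 (hXval χ hχX z₀ hz₀ hz₀1)
      rwa [hCidx] at h
    have hmod : charDegree (χ : G → ℂ) % p = 1 := by
      have h1 := (hX χ hχX).2.1
      rw [hχε] at h1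
      have h2 : (charDegree (χ : G → ℂ) : ℤ) ≡ ((1 : ℕ) : ℤ) [ZMOD (p : ℤ)] := by
        simpa using h1
      have h3 := Int.natCast_modEq_iff.1 h2
      rw [Nat.ModEq, Nat.mod_eq_of_lt hp.one_lt] at h3
      exact h3
    exact hNFA p e n _ hp hp3 hedvd' hn1 hNF hdvd hmod
      (fun h => hχt (eq_triv_of_degree_one hperf χ h))
  have hBdeg : ∀ χ ∈ B, charDegree (χ : G → ℂ) = p - 1 := by
    intro χ hχ
    obtain ⟨hχX, hχε⟩ := (hBmem χ).1 hχ
    have hdvd : charDegree (χ : G → ℂ) ∣ e * (1 + n * p) := by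
      have h := hDeg G p P hP χ (εX χ) (hX χ hχX).1 z₀ hz₀ hz₀1 (hXval χ hχX z₀ hz₀ hz₀1)
      rwa [hCidx] at h
    have hmod : charDegree (χ : G → ℂ) % p = p - 1 := by
      have h1 := (hX χ hχX).2.1
      rw [hχε] at h1
      have h2 : (charDegree (χ : G → ℂ) : ℤ) ≡ ((p - 1 : ℕ) : ℤ) [ZMOD (p : ℤ)] := by
        refine h1.trans ?_
        rw [Int.modEq_iff_dvd, Nat.cast_sub hp.one_lt.le]
        simp
      have h3 := Int.natCast_modEq_iff.1 h2
      rw [Nat.ModEq, Nat.mod_eq_of_lt (by omega : p - 1 < p)] at h3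
      exact h3
    rcases hNFB p e n _ hp hp3 hedvd' hn1 hNF hdvd hmod with h | ⟨h, -⟩
    · exact h
    · exact absurd h hep1
  -- the exceptional characters
  have hYne : Y.Nonempty := by
    apply Set.nonempty_of_ncard_ne_zero
    omega
  obtain ⟨θ₀, hθ₀⟩ := hYne
  obtain ⟨f, hf⟩ : ∃ f, charDegree (θ₀ : G → ℂ) = f := ⟨_, rfl⟩
  have hYdeg : ∀ θ ∈ Y, charDegree (θ : G → ℂ) = f := by
    intro θ hθ
    have h := hYr θ hθ θ₀ hθ₀ 1 h1reg
    rw [← hf]
    unfold charDegree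
    rw [h]
  have hY1 : ∀ θ ∈ Y, (θ : G → ℂ) 1 = (f : ℂ) := by
    intro θ hθ
    rw [hchar θ, hYdeg θ hθ]
  have hf0 : 0 < f := by
    rw [← hf]
    exact Cfsg.Agent.Lib.CT.Wedderburn.irr_charDegree_pos θ₀.2
  have hY11 : ∀ θ ∈ Y, ∀ θ' ∈ Y, (θ : G → ℂ) 1 = (θ' : G → ℂ) 1 := by
    intro θ hθ θ' hθ'
    rw [hY1 θ hθ, hY1 θ' hθ']
  have hdeg : ∀ θ ∈ Y, (ε : ℂ) * (θ : G → ℂ) 1 = ∑ᶠ χ ∈ X, (εX χ : ℂ) * (χ : G → ℂ) 1 :=
    fun θ hθ => hrel θ hθ 1 h1reg
  have hYaz := hYa G p M hM P hP X Y hB0 hXY ⟨θ₀, hθ₀⟩ εX ε hε hXval hY11 hdeg z₀ hz₀ hz₀1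
  have hfdvd : f ∣ e * (1 + n * p) := by
    have hε' : (-ε = 1 ∨ -ε = -1) := by
      rcases hε with h | h
      · right; rw [h]
      · left; rw [h]; norm_num
    have h := hDegSum G p P hP Y ⟨θ₀, hθ₀⟩ f hYdeg (-ε) hε' z₀ hz₀ hz₀1
      (by rw [hYaz]; push_cast; ring)
    rwa [hCidx] at h
  have hmodf : (f : ℤ) ≡ ε * (e : ℤ) [ZMOD (p : ℤ)] := by
    have h := hYd θ₀ hθ₀
    rwa [hf] at h
  have hXsum : ∑ᶠ χ ∈ X, (εX χ : ℂ) * (χ : G → ℂ) 1 =
      1 + (A.ncard : ℂ) * ((1 + n * p : ℕ) : ℂ) - (B.ncard : ℂ) * ((p - 1 : ℕ) : ℂ) := by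
    rw [hXeq, finsum_mem_union hdis1 (Set.finite_singleton _) (hAfin.union hBfin),
      finsum_mem_singleton, finsum_mem_union hABd hAfin hBfin, hεt,
      finsum_mem_const_ncard A hAfin _ ((1 + n * p : ℕ) : ℂ) (by
        intro χ hχ
        rw [((hAmem χ).1 hχ).2.2, hchar χ, hAdeg χ hχ]
        simp),
      finsum_mem_const_ncard B hBfin _ (-((p - 1 : ℕ) : ℂ)) (by
        intro χ hχ
        rw [((hBmem χ).1 hχ).2, hchar χ, hBdeg χ hχ]
        simp)]
    rw [coe_triv]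
    push_cast
    ring
  have hdegZ : ε * (f : ℤ) = 1 + (A.ncard : ℤ) * (1 + (n : ℤ) * (p : ℤ)) -
      (B.ncard : ℤ) * ((p : ℤ) - 1) := by
    have h := hdeg θ₀ hθ₀
    rw [hY1 θ₀ hθ₀, hXsum, Nat.cast_sub hp.one_lt.le] at h
    have h2 : ((ε * (f : ℤ) : ℤ) : ℂ) = ((1 + (A.ncard : ℤ) * (1 + (n : ℤ) * (p : ℤ)) -
        (B.ncard : ℤ) * ((p : ℤ) - 1) : ℤ) : ℂ) := by
      push_cast
      rw [h]
      push_cast
      ring
    exact Int.cast_injective h2
  have hf1 : f ≠ 1 := by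
    intro h
    apply htY
    have h2 := eq_triv_of_degree_one hperf θ₀ (hf.trans h)
    rw [← h2]
    exact hθ₀
  obtain ⟨hYm, hYp⟩ := hNFY p e t n f ε hp hpe he2 hn1 hNF hf0 hf1 hfdvd hmodf hε
  obtain ⟨-, hb1, hfe, -⟩ := hNFRel p e t n A.ncard B.ncard 0 f ε hp hpe he2 hn1 (by omega)
    (by omega) hε hf0 (by rw [hdegZ]; push_cast; ring) hYm hYp
  obtain ⟨χB, hχB⟩ := Set.nonempty_of_ncard_ne_zero (by omega : B.ncard ≠ 0)
  have hC : Subgroup.centralizer ((P : Subgroup G) : Set G) = (P : Subgroup G) := by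
    obtain ⟨hχX, hχε⟩ := (hBmem χB).1 hχB
    refine hCent G p P hP hO χB ?_ ?_
    · rw [hchar χB, hBdeg χB hχB]
    · intro x hx hx1 y hy hyreg
      have h := (hX χB hχX).2.2 x hx hx1 y hy hyreg
      rw [h, hχε]
      simp
  have hNcard : Nat.card (Subgroup.normalizer ((P : Subgroup G) : Set G)) = p * e := by
    have h1 := Subgroup.card_mul_index (Subgroup.normalizer ((P : Subgroup G) : Set G))
    rw [hNidx] at h1
    rw [hC, hP] at hGC
    have h2 : Nat.card (Subgroup.normalizer ((P : Subgroup G) : Set G)) * (1 + n * p) =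
        p * e * (1 + n * p) := by
      rw [h1, ← hGC]; ring
    exact Nat.eq_of_mul_eq_mul_right (by omega : 0 < 1 + n * p) h2
  have hGcard : Nat.card G = (1 + n * p) * (p * e) := by
    rw [hC, hP] at hGC
    rw [← hGC]; ring
  obtain ⟨y, hyN, hyo, hyP, hcov, hreg, hconj⟩ := hGen G p P hP hC e hNcard
  obtain ⟨ω, mult, hR⟩ := hRes G p P hP hC e hNcard y hyN hyo hyP hcov hreg hconj
  obtain ⟨hYc', hYq, hYs, hvan⟩ := hYV G p M hM P hP hC e t hpe hNcard X Y hB0 hXY hXc hYt εX ε hε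
    (fun χ hχ => ⟨(hX χ hχ).1, hXval χ hχ⟩) hY11 hdeg
  have hB1 : ∀ χ ∈ B, ∀ z ∈ (P : Subgroup G), z ≠ 1 → (χ : G → ℂ) z = -1 := by
    intro χ hχ z hz hz1
    rw [hXval χ (hBX hχ) z hz hz1, ((hBmem χ).1 hχ).2]; simp
  have hB0mult : ∀ χ ∈ B, ∀ i, i < e → mult χ i = 0 := by
    intro χ hχ i hi
    have h := hR.r2 χ
    rw [Cfsg.Agent.Lib.Helper91.BGDEGB.finsum_P_split,
      Cfsg.Agent.Lib.Helper91.BGDEGB.finsum_P_const (P : Subgroup G) _ (-1) (hB1 χ hχ), hP,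
      hchar χ, hBdeg χ hχ] at h
    have h2 : ((p * ∑ i ∈ Finset.range e, mult χ i : ℕ) : ℂ) = ((0 : ℕ) : ℂ) := by
      push_cast
      rw [h]
      ring
    have h3 : p * ∑ i ∈ Finset.range e, mult χ i = 0 := Nat.cast_injective h2
    rcases Nat.mul_eq_zero.mp h3 with h4 | h4
    · exact absurd h4 hp.pos.ne'
    · exact (Finset.sum_eq_zero_iff.mp h4) i (Finset.mem_range.mpr hi)
  refine ⟨e, t, A.ncard, B.ncard, ε, f, A, B, Y, y, ω, mult, ?_, hR, hB0mult, hfe, hYm⟩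
  exact
    { hP := hP
      hC := hC
      hN := hNcard
      hG := hGcard
      hpe := hpe
      he := he2
      ht := ht2
      hn1 := hn1
      htA := htA
      htB := htB
      htY := htY
      hAB := hABd
      hAY := Set.disjoint_of_subset_left hAX hXY
      hBY := Set.disjoint_of_subset_left hBX hXY
      cA := rfl
      cB := rfl
      cY := hYt
      hA := fun χ hχ => ⟨by rw [hchar χ, hAdeg χ hχ], fun z hz hz1 => by
        rw [hXval χ (hAX hχ) z hz hz1, ((hAmem χ).1 hχ).2.2]; simp⟩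
      hB := fun χ hχ => ⟨by rw [hchar χ, hBdeg χ hχ], hB1 χ hχ⟩
      hY1 := hY1
      hYs := hYs
      hYc := hYc'
      hYq := hYq
      hYr := hYr
      hZ := by
        intro χ hχ z hz hz1
        obtain ⟨h1, h2, h3, h4⟩ := hχ
        apply hvan χ _ z hz hz1
        rw [hB0]
        rintro (h | h)
        · rcases (hX χ h).1 with h5 | h5
          · exact h2 ((hAmem χ).2 ⟨h, h1, h5⟩)
          · exact h3 ((hBmem χ).2 ⟨h, h5⟩)
        · exact h4 h
      hδ := hε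
      hf0 := hf0
      hfmod := hmodf
      hfdvd := hfdvd
      hab := hab
      hdeg := hdegZ }

/-- Brauer–Reynolds for `O_{p'}(G) = 1`: if `n` is not of the exceptional form, then `G` is
`PSL(2, p)` or `PSL(2, 2^m)` with `p = 2^m + 1`. -/
theorem coreConcl_nf (hLoc : Loc.{u}) (hDeg : DegDvd.{u}) (hDegSum : DegDvdSum.{u})
    (hYa : YaSum.{u}) (hCent : CentEq.{u}) (hYV : YValues.{u}) (hGen : ExistsGen.{u})
    (hRes : ExistsRes.{u}) (hNFA : NFA) (hNFB : NFB) (hNFY : NFY) (hNFRel : NFRel)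
    (hT1 : NFT1.{u}) (hRS : ResSum.{u}) (hPGG : PGG.{u}) (hMsg2 : MsgOfTab2.{u})
    (hEven : EvenCase.{u}) (hOdd : OddCase.{u})
    (hPF : PslOfNOne.{u}) (hPG : CaseCFalse.{u}) (hInv : InvOfInvol.{u}) (hMS : MsOfTab.{u})
    (hCZ : CzOfMs.{u}) (hPI : CaseDFalse.{u}) (hPJ1 : CaseDInvol.{u}) (hPJ2 : PslOfInvol.{u})
    [Finite G] (hperf : commutator G = ⊤) (p : ℕ) [Fact p.Prime] (P : Sylow p G)
    (hP : Nat.card (P : Subgroup G) = p) (hO : pPrimeCore p G = ⊥) (n : ℕ)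
    (hNidx : (Subgroup.normalizer ((P : Subgroup G) : Set G)).index = 1 + n * p)
    (hNF : ¬ FForm n p) : CoreConcl p G := by
  obtain ⟨e, t, a, b, δ, f, A, B, Y, y, ω, mult, hT, hR, hB0, hfe, htf⟩ :=
    exists_tabG_nf hLoc hDeg hDegSum hYa hCent hYV hGen hRes hNFA hNFB hNFY hNFRel hT1 hperf p P
      hP hO n hNidx hNF
  have hCP := hT.hC
  have hn1 := hT.hn1
  have hR5 := hRS G p P hP hCP e hT.hN y ω mult hR
  rcases hT.hδ with hδ | hδ
  · subst hδ
    have hfe' := hfe rfl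
    have hnt := hPGG G p P e t n a b f A B Y hT hfe'
    have ht2 := hT.ht
    have ht : t = 2 := by
      rcases Nat.lt_or_ge t 3 with h | h
      · omega
      · exfalso
        have h1 : 1 * 2 ≤ n * (t - 1) := Nat.mul_le_mul hn1 (by omega)
        omega
    have hn1' : n = 1 := by
      rw [ht] at hnt
      omega
    left
    refine hPF G hperf p P hP hO hCP e hT.he ?_ hT.hN ?_
    · rw [hT.hpe, ht]; ring
    · rw [hT.hG, hn1']; ring
  · subst hδ
    have hM := hMsg2 G p P e t n a b f A B Y hT y ω mult hR hR5 hB0 (htf rfl)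
    by_cases hev : Even e
    · have hnt := hEven G p P e t n a b f A B Y hT y ω mult hR hM hev
      have hTab := tab_of_tabG p P e t n a b f A B Y hT hM.htf hnt
      exact core_of_tab hPF hPG hGen hRes hInv hMS hCZ hPI hPJ1 hPJ2 hperf p P hO e t n a b (-1) f
        A B Y hTab
    · exact (hOdd G p P e t n a b f A B Y hT y ω mult hR hM hev).elim

/-- S4700 from the pieces. -/
theorem s4700_of_pieces (hLoc : Loc.{u}) (hDeg : DegDvd.{u}) (hDegSum : DegDvdSum.{u})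
    (hYa : YaSum.{u}) (hCent : CentEq.{u}) (hYV : YValues.{u}) (hGen : ExistsGen.{u})
    (hRes : ExistsRes.{u}) (hNFA : NFA) (hNFB : NFB) (hNFY : NFY) (hNFRel : NFRel)
    (hT1 : NFT1.{u}) (hRS : ResSum.{u}) (hPGG : PGG.{u}) (hMsg2 : MsgOfTab2.{u})
    (hEven : EvenCase.{u}) (hOdd : OddCase.{u})
    (hPF : PslOfNOne.{u}) (hPG : CaseCFalse.{u}) (hInv : InvOfInvol.{u}) (hMS : MsOfTab.{u})
    (hCZ : CzOfMs.{u}) (hPI : CaseDFalse.{u}) (hPJ1 : CaseDInvol.{u}) (hPJ2 : PslOfInvol.{u})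
    (hRed : Red.{u}) (hSlPsl : SlPsl)
    [Finite G] (hperf : commutator G = ⊤) (p : ℕ) [Fact p.Prime] (P : Sylow p G)
    (hP : Nat.card (P : Subgroup G) = p) (n : ℕ) (hn : Nat.card (Sylow p G) = 1 + n * p) :
    (∃ (F : Type) (_ : Field F) (_ : Fintype F), Fintype.card F = p ∧ 3 < p ∧
      Nonempty (G ⧸ Cfsg.pPrimeCore p G ≃* Matrix.ProjectiveSpecialLinearGroup (Fin 2) F)) ∨
    (∃ (m : ℕ) (F : Type) (_ : Field F) (_ : Fintype F), Fintype.card F = 2 ^ m ∧
      p = 2 ^ m + 1 ∧ 3 < p ∧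
      Nonempty (G ⧸ Cfsg.pPrimeCore p G ≃* Matrix.SpecialLinearGroup (Fin 2) F)) ∨
    (∃ h u : ℕ, 0 < h ∧ 0 < u ∧ n * (u + 1) = h * u * p + u ^ 2 + u + h) := by
  have hp : p.Prime := Fact.out
  by_cases hF : FForm n p
  · right; right; exact hF
  obtain ⟨hperf', hO', Q, n', m, hQ, hn', hmul⟩ := hRed G hperf p P hP n hn
  have hNidx : (Subgroup.normalizer ((Q : Subgroup (G ⧸ pPrimeCore p G)) :
      Set (G ⧸ pPrimeCore p G))).index = 1 + n' * p := by
    rw [← hn']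
    exact (Sylow.card_eq_index_normalizer Q).symm
  obtain ⟨-, -, -, -, n'', hn1'', hNidx''⟩ := hLoc (G ⧸ pPrimeCore p G) hperf' p Q hQ
  have hn1 : 1 ≤ n' := by
    rw [hNidx] at hNidx''
    have h : n' * p = n'' * p := by omega
    rw [Nat.eq_of_mul_eq_mul_right hp.pos h]
    exact hn1''
  rcases Nat.eq_zero_or_pos m with hm | hm
  · have hnn : n = n' := by
      rw [hm] at hmul
      have h : n * p = n' * p := by
        simp only [Nat.zero_mul, Nat.add_zero, Nat.mul_one] at hmul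
        omega
      exact Nat.eq_of_mul_eq_mul_right hp.pos h
    rw [hnn] at hF
    have hcc := coreConcl_nf hLoc hDeg hDegSum hYa hCent hYV hGen hRes hNFA hNFB hNFY hNFRel hT1
      hRS hPGG hMsg2 hEven hOdd hPF hPG hInv hMS hCZ hPI hPJ1 hPJ2 hperf' p Q hQ hO' n' hNidx hF
    rcases hcc with ⟨h3, e⟩ | ⟨m', F, iF, iF', hcF, hpm, h3, ⟨e⟩⟩
    · left
      exact ⟨ZMod p, inferInstance, inferInstance, ZMod.card p, h3, e⟩
    · right; left
      obtain ⟨e'⟩ := hSlPsl F m' hcF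
      exact ⟨m', F, iF, iF', hcF, hpm, h3, ⟨e.trans e'.symm⟩⟩
  · exfalso
    apply hF
    refine ⟨m * (n' + 1), n', Nat.mul_pos hm (by omega), hn1, ?_⟩
    have h1 : n * p = (n' + m + n' * m * p) * p := by
      have h2 : (1 + n' * p) * (1 + m * p) = 1 + (n' + m + n' * m * p) * p := by ring
      rw [h2] at hmul
      omega
    have h3 : n = n' + m + n' * m * p := Nat.eq_of_mul_eq_mul_right hp.pos h1
    rw [h3]
    ring

end Cfsg.Agent.Lib.Helper16.BFCore
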