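import Mathlib
import Cfsg.Agent.Lib.Helper16.BGCore
import Cfsg.Agent.Lib.Helper85.BRLoc
import Cfsg.Agent.Lib.Helper91.BRDEGSUM
import Cfsg.Agent.Lib.Helper67.BRYA
import Cfsg.Agent.Lib.Helper79.BRPY
import Cfsg.Agent.Lib.Helper62.BRPH1
import Cfsg.Agent.Lib.Helper46.BRPH2
import Cfsg.Agent.Lib.Helper64.BRINV
import Cfsg.Agent.Lib.Helper87.BRMS
import Cfsg.Agent.Lib.Helper96.BRCZ
import Cfsg.Agent.Lib.Helper67.BRPJ1
import Cfsg.Agent.Lib.Helper33.BGCYC2
import Cfsg.Agent.Lib.Helper78.BGCPOS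
import Cfsg.Agent.Lib.Helper78.BGDEGA
import Cfsg.Agent.Lib.Helper91.BGDEGB
import Cfsg.Agent.Lib.Helper80.BGEVEN
import Cfsg.Agent.Lib.Helper87.BGMSG
import Cfsg.Agent.Lib.Helper81.BGR5
import Cfsg.Agent.Lib.Helper14.BGT1G
import Cfsg.Agent.Lib.Helper14.BGPGG

/-!
# The involution of a perfect group of order `p (p - 1) (p - 2)` with `|N_G(P)| = 2p`

`G` perfect, `P` a self-centralizing Sylow `p`-subgroup of order `p ≥ 7` with `|N_G(P)| = 2p`
and `|G| = p (p - 1) (p - 2)`: there is an involution `w` whose centralizer has order `p - 1`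
and consists of conjugates of `w` (and `1`).
-/

set_option autoImplicit false

namespace Cfsg.Agent.Lib.Helper16.BGInvol

open Cfsg Cfsg.Agent.Lib.CT.ThirdMain Cfsg.Agent.Lib.Helper16.BRSpec
  Cfsg.Agent.Lib.Helper16.BRStmt Cfsg.Agent.Lib.Helper16.BRStmt2
  Cfsg.Agent.Lib.Helper16.BRCore Cfsg.Agent.Lib.Helper16.BGCore

universe u
variable {G : Type u} [Group G]

theorem exists_invol_of_pieces (hLoc : Loc.{u}) (hDegSum : DegDvdSum.{u}) (hYa : YaSum.{u})
    (hYV : YValues.{u}) (hGen : ExistsGen.{u}) (hRes : ExistsRes.{u}) (hDegA : DegA.{u})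
    (hDegB : DegB.{u}) (hRS : ResSum.{u}) (hT1 : T1G.{u}) (hCyc : Cyc2.{u})
    (hCPos : CPos.{u}) (hPGG : PGG.{u}) (hMsg : MsgOfTab.{u}) (hEven : EvenCase.{u})
    (hInv : InvOfInvol.{u}) (hMS : MsOfTab.{u}) (hCZ : CzOfMs.{u}) (hPJ1 : CaseDInvol.{u})
    [Finite G] (hperf : commutator G = ⊤) (p : ℕ) [Fact p.Prime] (hp7 : 7 ≤ p)
    (P : Sylow p G) (hP : Nat.card (P : Subgroup G) = p)
    (hC : Subgroup.centralizer ((P : Subgroup G) : Set G) = (P : Subgroup G))
    (hN : Nat.card (Subgroup.normalizer ((P : Subgroup G) : Set G)) = p * 2)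
    (hG : Nat.card G = p * (p - 1) * (p - 2)) :
    ∃ w : G, orderOf w = 2 ∧ Nat.card (Subgroup.centralizer ({w} : Set G)) = p - 1 ∧
      ∀ c ∈ Subgroup.centralizer ({w} : Set G), c ≠ 1 → IsConj c w := by
  classical
  have hp : p.Prime := Fact.out
  have hpodd : Odd p := hp.odd_of_ne_two (by omega)
  obtain ⟨k, hk⟩ := hpodd
  have hk3 : 3 ≤ k := by omega
  -- the index of the normalizer
  have hidx : (Subgroup.normalizer ((P : Subgroup G) : Set G)).index = 1 + (k - 1) * p := by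
    have h1 := Subgroup.card_mul_index (Subgroup.normalizer ((P : Subgroup G) : Set G))
    rw [hN, hG] at h1
    have h2 : p * (p - 1) * (p - 2) = p * 2 * (1 + (k - 1) * p) := by
      obtain ⟨j, rfl⟩ : ∃ j, k = j + 3 := ⟨k - 3, by omega⟩
      subst hk
      have e1 : 2 * (j + 3) + 1 - 1 = 2 * j + 6 := by omega
      have e2 : 2 * (j + 3) + 1 - 2 = 2 * j + 5 := by omega
      have e3 : j + 3 - 1 = j + 2 := by omega
      rw [e1, e2, e3]
      ring
    rw [h2] at h1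
    exact Nat.eq_of_mul_eq_mul_left (by omega : 0 < p * 2) h1
  have hn2 : 2 * (k - 1) ≤ p + 1 := by omega
  obtain ⟨e, t, a, b, δ, f, A, B, Y, y, ω, mult, hT, hR, hB0⟩ :=
    exists_tabG hLoc hDegSum hYa hYV hGen hRes hDegA hDegB hRS hT1 hCyc hperf p P hP hC (k - 1)
      hidx hn2
  have he2 : e = 2 := by
    have h1 := hT.hN
    rw [hN] at h1
    exact (Nat.eq_of_mul_eq_mul_left hp.pos h1).symm
  have htk : t = k := by
    have h1 := hT.hpe
    rw [he2] at h1
    omega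
  have hR5 := hRS G p P hP hC e hT.hN y ω mult hR
  rcases hT.hδ with hδ | hδ
  · subst hδ
    exfalso
    have hfe := hCPos G p P e t (k - 1) a b f A B Y hT y ω mult hR hR5 hB0
    have hnt := hPGG G p P e t (k - 1) a b f A B Y hT hfe
    have h1 : 2 * 2 ≤ (k - 1) * (t - 1) := Nat.mul_le_mul (by omega) (by omega)
    omega
  · subst hδ
    have hM := hMsg G p P e t (k - 1) a b f A B Y hT y ω mult hR hR5 hB0 hn2
    have hev : Even e := by rw [he2]; exact even_two
    have hnt := hEven G p P e t (k - 1) a b f A B Y hT y ω mult hR hM hev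
    have hTab := tab_of_tabG p P e t (k - 1) a b f A B Y hT hM.htf hnt
    have ht3 : 3 ≤ t := by omega
    have ha : a = 0 := by
      rcases hTab.hcase with ⟨hδ', -⟩ | ⟨-, -, -, hea⟩
      · norm_num at hδ'
      · rw [he2] at hea
        have h0 : a * t = 0 := by omega
        rcases Nat.mul_eq_zero.mp h0 with h | h
        · exact h
        · omega
    have hMS' := hMS G p P e t (k - 1) a b f A B Y hTab y ω mult hR
    have h22 : e / 2 = 1 := by rw [he2]
    have hwN : y ^ (e / 2) ∈ Subgroup.normalizer ((P : Subgroup G) : Set G) := pow_mem hR.hyN _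
    have hwP : y ^ (e / 2) ∉ (P : Subgroup G) := hR.hyP (e / 2) (by omega) (by omega)
    have hww : y ^ (e / 2) * y ^ (e / 2) = 1 := by
      rw [h22, pow_one, ← pow_two, ← he2, ← hR.hyo, pow_orderOf_eq_one]
    have hinv := hInv G p (by omega) P hP hC (y ^ (e / 2)) hwN hwP hww
    have hCZ' := hCZ G p P e t (k - 1) a b f A B Y hTab y ω mult hR hMS' hinv
    have hconjw := hPJ1 G p P e t (k - 1) a b f A B Y hTab y ω mult hR hMS' hCZ' ha ht3
    have hcw := hCZ'.cw
    rw [h22, pow_one] at hcw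
    refine ⟨y, by rw [hR.hyo, he2], ?_, hconjw⟩
    rw [hcw, he2, htk]
    omega

/-- The involution, with all the pieces plugged in. -/
theorem exists_invol [Finite G] (hperf : commutator G = ⊤) (p : ℕ) [Fact p.Prime]
    (hp7 : 7 ≤ p) (P : Sylow p G) (hP : Nat.card (P : Subgroup G) = p)
    (hC : Subgroup.centralizer ((P : Subgroup G) : Set G) = (P : Subgroup G))
    (hN : Nat.card (Subgroup.normalizer ((P : Subgroup G) : Set G)) = p * 2)
    (hG : Nat.card G = p * (p - 1) * (p - 2)) :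
    ∃ w : G, orderOf w = 2 ∧ Nat.card (Subgroup.centralizer ({w} : Set G)) = p - 1 ∧
      ∀ c ∈ Subgroup.centralizer ({w} : Set G), c ≠ 1 → IsConj c w :=
  exists_invol_of_pieces
    Cfsg.Agent.Lib.Helper85.BRLoc.main
    Cfsg.Agent.Lib.Helper91.BRDEGSUM.main
    Cfsg.Agent.Lib.Helper67.BRYA.main
    Cfsg.Agent.Lib.Helper79.BRPY.main
    Cfsg.Agent.Lib.Helper62.BRPH1.main
    Cfsg.Agent.Lib.Helper46.BRPH2.main
    Cfsg.Agent.Lib.Helper78.BGDEGA.main
    Cfsg.Agent.Lib.Helper91.BGDEGB.main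
    Cfsg.Agent.Lib.Helper81.BGR5.main
    Cfsg.Agent.Lib.Helper14.BGT1G.main
    Cfsg.Agent.Lib.Helper33.BGCYC2.main
    Cfsg.Agent.Lib.Helper78.BGCPOS.main
    Cfsg.Agent.Lib.Helper14.BGPGG.main
    Cfsg.Agent.Lib.Helper87.BGMSG.main
    Cfsg.Agent.Lib.Helper80.BGEVEN.main
    Cfsg.Agent.Lib.Helper64.BRINV.main
    Cfsg.Agent.Lib.Helper87.BRMS.main
    Cfsg.Agent.Lib.Helper96.BRCZ.main
    Cfsg.Agent.Lib.Helper67.BRPJ1.main
    hperf p hp7 P hP hC hN hG

end Cfsg.Agent.Lib.Helper16.BGInvol
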