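import Mathlib
import Cfsg.Agent.Lib.Helper16.BPLocal

/-!
# Blocks of subgroups containing the centralizer of a defect group
-/

set_option autoImplicit false

namespace Cfsg.Agent.Lib.Helper16.BPLocal2

open Cfsg Cfsg.Agent.Lib.Helper77.LocalRing Cfsg.Agent.Lib.Helper77.CentralChar
  Cfsg.Agent.Lib.Helper77.ClassSum Cfsg.Agent.Lib.Helper77.BlockIdem
  Cfsg.Agent.Lib.Helper77.BPBasic Cfsg.Agent.Lib.Helper77.BPBrauer
  Cfsg.Agent.Lib.Helper77.BPPairs
  Cfsg.Agent.Lib.Helper77.BPNormal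
  Cfsg.Agent.Lib.Helper77.BPMax2 Cfsg.Agent.Lib.Helper77.BPEquiv
  Cfsg.Agent.Lib.Helper77.BPEquiv2
  Cfsg.Agent.Lib.Helper77.BPTransport Cfsg.Agent.Lib.Helper77.BPConjMax
  Cfsg.Agent.Lib.Helper77.BPCent
  Cfsg.Agent.Lib.Helper77.BPSub Cfsg.Agent.Lib.Helper77.BPUp
  Cfsg.Agent.Lib.Helper16.ZR
  Cfsg.Agent.Lib.Helper16.MinMax Cfsg.Agent.Lib.Helper16.BPLocal

universe u
variable {G : Type u} [Group G] {M : Ideal AlgInt}

/-- A block `b` of `H` with defect group `D₀` and `C_G(D₀) ≤ H`: a Brauer pair `(D₀, f)` of `G`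
which belongs to every block induced by `b`, with `b^G` defined and the defect groups of `f`
inside `Z(D₀)`. -/
theorem exists_pair_of_local [Finite G] {p : ℕ} [Fact p.Prime] (hM : IsPModular p M)
    (H : Subgroup G) (b : Set (IrrCharacter H)) (hb : IsPBlock M b) (D₀ : Subgroup H)
    (hD₀ : IsDefectGroup p M b D₀)
    (hC : Subgroup.centralizer ((D₀.map H.subtype : Subgroup G) : Set G) ≤ H) :
    ∃ (f : Set (IrrCharacter (Subgroup.centralizer ((D₀.map H.subtype : Subgroup G) : Set G))))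
      (χ₀ : IrrCharacter G),
      IsBrauerPair p M (D₀.map H.subtype) f ∧
      IsInducedBlock M H b (blockOf M (χ₀ : G → ℂ)) ∧
      (∀ B : Set (IrrCharacter G), IsInducedBlock M H b B →
        IsBrauerPairOf p M B (D₀.map H.subtype) f) ∧
      (∀ Df : Subgroup (Subgroup.centralizer ((D₀.map H.subtype : Subgroup G) : Set G)),
        IsDefectGroup p M f Df → ∀ x ∈ Df,
          (x : G) ∈ ((Subgroup.center ↥D₀).map D₀.subtype).map H.subtype) := by
  classical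
  have hMp := isPrime_of_isPModular hM
  obtain ⟨β, hmax⟩ := exists_maximal_pair hM b hb D₀ hD₀
  have hβ : IsPBlock M β := hmax.1.1.2
  have hD₀p : IsPGroup p D₀ := hmax.1.1.1
  have hfB : IsPBlock M (upBlock H D₀ β) := isPBlock_upBlock H D₀ hC hβ
  have hQp : IsPGroup p (D₀.map H.subtype) := hD₀p.map H.subtype
  have hQf : IsBrauerPair p M (D₀.map H.subtype) (upBlock H D₀ β) := ⟨hQp, hfB⟩
  obtain ⟨χ₀, hχ₀⟩ := exists_irr_of_pair hM (D₀.map H.subtype) (upBlock H D₀ β) hQf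
  obtain ⟨ζ₀, hζ₀b, hζ₀⟩ := exists_irr_of_pairOf hM hmax.1
  obtain ⟨ξ', hξ'⟩ := isPBlock_nonempty hMp hβ
  have hξf : pull (zIso H D₀ _ (hS_of_le H D₀ hC)).symm ξ' ∈ upBlock H D₀ β := by
    rw [upBlock_eq H D₀ hC]
    exact ⟨ξ', hξ', rfl⟩
  have key : ∀ ζ ∈ b, ∀ z ∈ fixedSubring (⊤ : Subgroup G) ⊓ intSubring M hMp,
      MemLocalIdeal M (omega (ζ : H → ℂ) (res H z) - omega (χ₀ : G → ℂ) z) := by
    intro ζ hζ z hz
    have hz1 := (Subring.mem_inf.mp hz).1
    have hz2 := (Subring.mem_inf.mp hz).2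
    have hzc : res H z ∈ Zc H := res_mem_center H (fixedSubring_mono le_top hz1)
    have hzR : ∀ h : H, MemLocalRing M ((res H z).coeff h) := by
      intro h
      rw [coeff_res]
      exact (mem_intSubring M hMp).mp hz2 _
    have hzH : res H z ∈ fixedSubring (⊤ : Subgroup H) ⊓ intSubring M hMp :=
      Subring.mem_inf.mpr ⟨mem_fixedSubring_top_iff.mpr hzc, (mem_intSubring M hMp).mpr hzR⟩
    have h1 : MemLocalIdeal M (omega (ζ : H → ℂ) (res H z) - omega (ζ₀ : H → ℂ) (res H z)) :=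
      omega_sub_mem_of_sameBlock hMp ζ.2 ζ₀.2 (sameBlock_of_mem hMp hb hζ hζ₀b) (res H z) hzc hzR
    have h2 := hζ₀ (res H z) hzH ξ' hξ'
    have h3 := hχ₀ z hz _ hξf
    rw [om_up H D₀ hC ξ' z] at h3
    have h4 := memLocalIdeal_add hMp (memLocalIdeal_sub hMp h1 h2) h3
    have e : omega (ζ : H → ℂ) (res H z) - omega (χ₀ : G → ℂ) z =
        omega (ζ : H → ℂ) (res H z) - omega (ζ₀ : H → ℂ) (res H z) -
          (om (Subgroup.centralizer (D₀ : Set H)) (ξ' : _ → ℂ) (res H z) -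
            omega (ζ₀ : H → ℂ) (res H z)) +
          (om (Subgroup.centralizer (D₀ : Set H)) (ξ' : _ → ℂ) (res H z) -
            omega (χ₀ : G → ℂ) z) := by ring
    rw [e]
    exact h4
  have hcs : ∀ g : G, classSum g ∈ fixedSubring (⊤ : Subgroup G) ⊓ intSubring M hMp := fun g =>
    Subring.mem_inf.mpr ⟨mem_fixedSubring_top_iff.mpr (classSum_mem_center g),
      classSum_mem_intSubring M hMp g⟩
  have key2 : ∀ ζ ∈ b, ∀ g : G, MemLocalIdeal M
      (inducedCentralChar H (ζ : H → ℂ) g - centralChar (χ₀ : G → ℂ) g) := by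
    intro ζ hζ g
    have h := key ζ hζ (classSum g) (hcs g)
    rw [omega_res_classSum, omega_classSum _ (irr_conj_inv χ₀)] at h
    exact h
  refine ⟨upBlock H D₀ β, χ₀, hQf, ⟨hb, isPBlock_blockOf χ₀, ?_⟩, ?_, ?_⟩
  · intro ζ hζ χ hχ g
    have h1 := key2 ζ hζ g
    have h2 : MemLocalIdeal M (centralChar (χ₀ : G → ℂ) g - centralChar (χ : G → ℂ) g) := hχ g
    have h3 := memLocalIdeal_add hMp h1 h2
    rwa [sub_add_sub_cancel] at h3
  · intro B hind
    have hB := hind.2.1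
    obtain ⟨χ, hχ⟩ := isPBlock_nonempty hMp hB
    have hχ₀B : χ₀ ∈ B := by
      rw [isPBlock_eq_blockOf hMp hB hχ]
      intro g
      have h1 := hind.2.2 ζ₀ hζ₀b χ hχ g
      have h2 := key2 ζ₀ hζ₀b g
      have h3 := memLocalIdeal_sub hMp h2 h1
      rwa [sub_sub_sub_cancel_left] at h3
    refine ⟨hQf, hB, fun ξ hξ => ?_⟩
    have h := hχ₀ (blockIdem B) (blockIdem_mem_top hMp B hB) ξ hξ
    rw [omega_blockIdem, if_pos hχ₀B] at h
    rw [brauerOmega_eq]
    exact h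
  · intro Df hDf x hx
    have hβD := isDefectGroup_of_maximal_self hM hmax
    have hZ'' := isDefectGroup_pull (M := M) (p := p) (zIso H D₀ _ (hS_of_le H D₀ hC)).symm hβD
    rw [← upBlock_eq H D₀ hC] at hZ''
    obtain ⟨c, hc⟩ := defectGroup_conj hM _ hfB hZ'' hDf
    rw [hc] at hx
    obtain ⟨z, hz, rfl⟩ := hx
    obtain ⟨w, hw, rfl⟩ := hz
    have hw' : w ∈ (D₀ ⊓ Subgroup.centralizer (D₀ : Set H)).subgroupOf
        (Subgroup.centralizer (D₀ : Set H)) := hw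
    rw [Subgroup.mem_subgroupOf] at hw'
    have hwD : (w : H) ∈ D₀ := hw'.1
    have hwG : (((w : H) : G)) ∈ D₀.map H.subtype := ⟨(w : H), hwD, rfl⟩
    have hcomm := Subgroup.mem_centralizer_iff.mp c.2 _ hwG
    have hval : ((((MulAut.conj c).toMonoidHom
        ((zIso H D₀ _ (hS_of_le H D₀ hC)).symm.symm.toMonoidHom w) : _) : G)) =
        ((w : H) : G) := by
      show (c : G) * ((zIso H D₀ _ (hS_of_le H D₀ hC) w : _) : G) * (c : G)⁻¹ = _
      rw [coe_zIso, ← hcomm, mul_inv_cancel_right]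
    rw [hval]
    have hcen : (⟨(w : H), hwD⟩ : D₀) ∈ Subgroup.center ↥D₀ := by
      rw [Subgroup.mem_center_iff]
      intro d
      apply Subtype.ext
      exact Subgroup.mem_centralizer_iff.mp w.2 d d.2
    exact ⟨(w : H), ⟨⟨(w : H), hwD⟩, hcen, rfl⟩, rfl⟩

end Cfsg.Agent.Lib.Helper16.BPLocal2
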