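import Mathlib
import Cfsg.Agent.Lib.Helper80.BTStmt
import Cfsg.Agent.Lib.Helper80.Integrality
import Cfsg.Agent.Lib.CT.Wedderburn
import Cfsg.Agent.Lib.CT.Ops
import Cfsg.Agent.Lib.Helper85.BRLoc
import Cfsg.Agent.Lib.Helper33.BRW1
import Cfsg.Agent.Lib.Helper16.BRCore
import Cfsg.Agent.Lib.Helper17.EvenInv
import Cfsg.Agent.Lib.Helper17.ExcMain

/-!
Piece YFACTS of S0997 (helper16, second seat): `Y` is nonempty and its members are faithful
of degree `f ≥ 2`, `f ∣ g₀`, `q ∤ f`.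
-/

set_option autoImplicit false
set_option linter.unusedVariables false
set_option linter.style.haveILetI false

universe u

namespace Cfsg.Agent.Lib.Helper16.BTYFACTS

open Cfsg Cfsg.Agent.Lib.Helper80

theorem main : BTStmt.YFACTS.{u} := by
  intro G _ _ p q b g₀ hyp c hXF
  classical
  obtain ⟨hsimple, hncyc, hp, hq, hpq, hcard, hg0⟩ := hyp
  obtain ⟨⟨t, htX, ht1⟩, hXq⟩ := hXF
  haveI : Fact p.Prime := ⟨hp⟩
  haveI : IsSimpleGroup G := hsimple
  have hperf : commutator G = ⊤ := Cfsg.Agent.Lib.Helper33.BRW1.perfect_of_simple hncyc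
  have hp2 : 2 ≤ p := hp.two_le
  have hedvd : c.e ∣ p - 1 := by
    have h := Cfsg.Agent.Lib.Helper85.BRLoc.relIndex_dvd_pred p c.P c.hP
    rw [c.he] at h
    exact h
  have hepos : 1 ≤ c.e := Nat.pos_of_dvd_of_pos hedvd (by omega)
  have hele : c.e ≤ p - 1 := Nat.le_of_dvd (by omega) hedvd
  have hYcard : 1 ≤ Nat.card c.Y := by
    rw [c.hY]
    exact Nat.div_pos hele hepos
  have hYne : c.Y.Nonempty := by
    by_contra hne
    rw [Set.not_nonempty_iff_eq_empty] at hne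
    rw [hne] at hYcard
    simp at hYcard
  refine ⟨hYne, ?_⟩
  intro θ hθY
  have hθchar : IsCharacter G (θ : G → ℂ) :=
    Cfsg.Agent.Lib.CT.Ops.IsIrrCharacter.isCharacter θ.2
  have hθt : (θ : G → ℂ) ≠ fun _ => 1 := by
    intro hcon
    have h : θ = t := Subtype.ext (by rw [hcon, ht1])
    rw [h] at hθY
    exact (Set.disjoint_left.mp c.hdisj htX) hθY
  have hfdvd : charDegree (θ : G → ℂ) ∣ Nat.card G := Integrality.charDegree_dvd_card θ
  have hfpos : 1 ≤ charDegree (θ : G → ℂ) := Nat.pos_of_dvd_of_pos hfdvd Nat.card_pos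
  have hf1 : charDegree (θ : G → ℂ) ≠ 1 := by
    intro h1
    have h := Cfsg.Agent.Lib.Helper16.BRCore.eq_triv_of_degree_one hperf θ h1
    apply hθt
    rw [h]
    rfl
  -- the degree equation
  have hXfin : c.X.Finite := by
    haveI : Finite c.X := Nat.finite_of_card_ne_zero (by rw [c.hX]; omega)
    exact Set.toFinite c.X
  have h1reg : ¬ p ∣ orderOf (1 : G) := by
    rw [orderOf_one, Nat.dvd_one]
    exact hp.ne_one
  have hrel := c.hYX θ hθY 1 h1reg
  rw [finsum_mem_eq_finite_toFinset_sum _ hXfin] at hrel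
  have hdegC : ∀ χ : IrrCharacter G, (χ : G → ℂ) 1 = (charDegree (χ : G → ℂ) : ℂ) := fun χ =>
    (Cfsg.Agent.Lib.CT.Wedderburn.char_natCast_charDegree
      (Cfsg.Agent.Lib.CT.Ops.IsIrrCharacter.isCharacter χ.2)).symm
  have hrelZ : c.ε * (charDegree (θ : G → ℂ) : ℤ)
      = ∑ χ ∈ hXfin.toFinset, c.εX χ * (charDegree (χ : G → ℂ) : ℤ) := by
    have h : ((c.ε * (charDegree (θ : G → ℂ) : ℤ) : ℤ) : ℂ)
        = ((∑ χ ∈ hXfin.toFinset, c.εX χ * (charDegree (χ : G → ℂ) : ℤ) : ℤ) : ℂ) := by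
      push_cast
      rw [← hdegC θ, hrel]
      refine Finset.sum_congr rfl (fun χ _ => ?_)
      rw [hdegC χ]
    exact_mod_cast h
  have htS : t ∈ hXfin.toFinset := (Set.Finite.mem_toFinset hXfin).2 htX
  have htdeg : charDegree (t : G → ℂ) = 1 :=
    Cfsg.Agent.Lib.CT.Wedderburn.charDegree_eq_of_apply_one (n := 1) (by rw [ht1]; simp)
  rw [← Finset.add_sum_erase _ _ htS, htdeg] at hrelZ
  have hqsum : (q : ℤ) ∣
      ∑ χ ∈ hXfin.toFinset.erase t, c.εX χ * (charDegree (χ : G → ℂ) : ℤ) := by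
    refine Finset.dvd_sum (fun χ hχ => ?_)
    obtain ⟨hne, hmem⟩ := Finset.mem_erase.mp hχ
    have hχX : χ ∈ c.X := (Set.Finite.mem_toFinset hXfin).1 hmem
    have hχ1 : (χ : G → ℂ) ≠ fun _ => 1 := by
      intro hcon
      apply hne
      exact Subtype.ext (by rw [hcon, ht1])
    exact Dvd.dvd.mul_left (Int.natCast_dvd_natCast.mpr (hXq χ hχX hχ1)) _
  have hqf : ¬ q ∣ charDegree (θ : G → ℂ) := by
    intro hcon
    have h1 : (q : ℤ) ∣ c.ε * (charDegree (θ : G → ℂ) : ℤ) :=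
      Dvd.dvd.mul_left (Int.natCast_dvd_natCast.mpr hcon) _
    rw [hrelZ] at h1
    have h2 : (q : ℤ) ∣ c.εX t * ((1 : ℕ) : ℤ) := (dvd_add_left hqsum).mp h1
    have h3 : (q : ℤ) ∣ ((1 : ℕ) : ℤ) := by
      rcases (c.hεX t htX).1 with h | h
      · rw [h, one_mul] at h2
        exact h2
      · rw [h, neg_one_mul, dvd_neg] at h2
        exact h2
    have h4 : q ∣ 1 := Int.natCast_dvd_natCast.mp h3
    exact hq.ne_one (Nat.dvd_one.mp h4)
  have hpf : ¬ p ∣ charDegree (θ : G → ℂ) := by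
    intro hcon
    have hmod := c.hYdeg θ hθY
    have h1 : (p : ℤ) ∣ c.ε * (c.e : ℤ) := by
      have h2 := dvd_add hmod.dvd (Int.natCast_dvd_natCast.mpr hcon)
      rwa [sub_add_cancel] at h2
    have h3 : (p : ℤ) ∣ (c.e : ℤ) := by
      rcases c.hε with h | h
      · rw [h, one_mul] at h1
        exact h1
      · rw [h, neg_one_mul, dvd_neg] at h1
        exact h1
    have h4 : p ∣ c.e := Int.natCast_dvd_natCast.mp h3
    have h5 := Nat.le_of_dvd (by omega) h4
    omega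
  have hfg : charDegree (θ : G → ℂ) ∣ g₀ := by
    rw [hcard] at hfdvd
    have hcp : Nat.Coprime (charDegree (θ : G → ℂ)) p :=
      ((Nat.Prime.coprime_iff_not_dvd hp).mpr hpf).symm
    have hcq : Nat.Coprime (charDegree (θ : G → ℂ)) (q ^ b) :=
      Nat.Coprime.pow_right b ((Nat.Prime.coprime_iff_not_dvd hq).mpr hqf).symm
    have h1 : charDegree (θ : G → ℂ) ∣ p * (q ^ b * g₀) := by
      rw [← mul_assoc]
      exact hfdvd
    exact hcq.dvd_of_dvd_mul_left (hcp.dvd_of_dvd_mul_left h1)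
  have hfaith : ∀ g : G, (θ : G → ℂ) g = (θ : G → ℂ) 1 → g = 1 := by
    intro g hg
    refine Cfsg.Agent.Lib.Helper17.EvenInv.faithful_of_simple ?_ θ ?_ g hg
    · intro hcomm
      exact hncyc (Cfsg.Agent.Lib.Helper33.BRW1.isCyclic_of_comm
        (fun a b => hcomm.is_comm.comm a b))
    · intro hcon
      apply hθt
      funext x
      rw [hcon]
      exact Cfsg.Agent.Lib.Helper17.ExcMain.trivIrr_apply G x
  exact ⟨hqf, hfg, by omega, hfaith⟩

end Cfsg.Agent.Lib.Helper16.BTYFACTS
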