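import Mathlib
import Cfsg.Agent.Lib.Lead.BrHalfStmt
import Cfsg.Agent.Lib.Helper81.Mult
import Cfsg.Agent.Lib.CT.Ops
import Cfsg.Agent.Lib.CT.Wedderburn

/-!
S4504 part C, piece `Mom4`: the fourth moment of `ξ` is `|L| * M` with `p + 1 ≤ 4 M`.
-/

set_option autoImplicit false
set_option linter.style.haveILetI false

namespace Cfsg.Agent.Lib.Helper16.BrCMom4

open Cfsg Cfsg.Agent.Lib.Lead.BrHalf Cfsg.Agent.Lib.Helper81.Mult Cfsg.Agent.Lib.CT.Ops
  Cfsg.Agent.Lib.CT.Wedderburn
open scoped ComplexConjugate Classical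

universe u

variable {L : Type u} [Group L]

/-- `Φ = ξ * conj ξ` -/
noncomputable def Phi (ξ : L → ℂ) : L → ℂ := ξ * (fun g => ξ g⁻¹)

theorem phi_char {ξ : L → ℂ} (h : IsCharacter L ξ) : IsCharacter L (Phi ξ) :=
  isCharacter_mul h (isCharacter_inv_arg h)

theorem phi_apply [Finite L] {ξ : L → ℂ} (h : IsCharacter L ξ) (g : L) :
    Phi ξ g = ξ g * conj (ξ g) := by
  unfold Phi
  rw [Pi.mul_apply, char_apply_inv h]

theorem phi_real [Finite L] {ξ : L → ℂ} (h : IsCharacter L ξ) (g : L) :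
    Phi ξ g = ((‖ξ g‖ ^ 2 : ℝ) : ℂ) := by
  rw [phi_apply h, Complex.mul_conj, Complex.normSq_eq_norm_sq]

theorem phi_inv (ξ : L → ℂ) (g : L) : Phi ξ g⁻¹ = Phi ξ g := by
  unfold Phi
  simp only [Pi.mul_apply, inv_inv]
  ring

/-- the trivial character -/
noncomputable def triv (L : Type u) [Group L] : IrrCharacter L :=
  ⟨fun _ => (1 : ℂ), isIrrCharacter_one⟩

theorem main : Mom4.{u} := by
  intro L _ _ p _ c
  have hp : p.Prime := Fact.out
  haveI : Finite (IrrCharacter L) := finite_irrCharacter L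
  letI : Fintype (IrrCharacter L) := Fintype.ofFinite _
  have hξc : IsCharacter L c.ξ := isCharacter_of_irr c.hξ
  have hΦ : IsCharacter L (Phi c.ξ) := phi_char hξc
  have hcard0 : (Nat.card L : ℂ) ≠ 0 := Nat.cast_ne_zero.mpr Nat.card_pos.ne'
  refine ⟨∑ χ : IrrCharacter L, mult (Phi c.ξ) χ ^ 2, ?_, ?_⟩
  · -- the fourth moment
    have hpar := parseval (Phi c.ξ) (Phi c.ξ) (char_conj hΦ)
    have h1 : ∀ g : L, Phi c.ξ g * Phi c.ξ g⁻¹ = ((‖c.ξ g‖ ^ 4 : ℝ) : ℂ) := by
      intro g
      rw [phi_inv, phi_real hξc]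
      push_cast
      ring
    rw [Finset.sum_congr rfl (fun g _ => h1 g)] at hpar
    have h2 : ∀ χ : IrrCharacter L, multC (Phi c.ξ) χ * multC (Phi c.ξ) χ =
        ((mult (Phi c.ξ) χ ^ 2 : ℕ) : ℂ) := by
      intro χ
      rw [← mult_cast hΦ χ]
      push_cast
      ring
    rw [Finset.sum_congr rfl (fun χ _ => h2 χ), ← Nat.cast_sum, ← Complex.ofReal_sum] at hpar
    have h3 : ((∑ g : L, ‖c.ξ g‖ ^ 4 : ℝ) : ℂ) =
        (Nat.card L : ℂ) * ((∑ χ : IrrCharacter L, mult (Phi c.ξ) χ ^ 2 : ℕ) : ℂ) := by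
      rw [← hpar, ← mul_assoc, mul_inv_cancel₀ hcard0, one_mul]
    apply Complex.ofReal_injective
    rw [h3]
    push_cast
    ring
  · -- the bound
    have hm1 : mult (Phi c.ξ) (triv L) = 1 := by
      have h1 : multC (Phi c.ξ) (triv L) = 1 := by
        have h2 := multC_irr (⟨c.ξ, c.hξ⟩ : IrrCharacter L) ⟨c.ξ, c.hξ⟩
        rw [if_pos rfl, multC_def] at h2
        rw [multC_def, ← h2]
        congr 1
        refine Finset.sum_congr rfl fun g _ => ?_
        unfold Phi triv
        simp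
      have h3 := mult_cast hΦ (triv L)
      rw [h1] at h3
      exact_mod_cast h3
    have hdeg : (charDegree c.ξ) ^ 2 =
        ∑ χ : IrrCharacter L, mult (Phi c.ξ) χ * charDegree (χ : L → ℂ) := by
      have h1 := char_expand hΦ (1 : L)
      have h2 : Phi c.ξ 1 = ((charDegree c.ξ ^ 2 : ℕ) : ℂ) := by
        unfold Phi
        simp only [Pi.mul_apply, inv_one]
        rw [← char_natCast_charDegree hξc]
        push_cast
        ring
      rw [h2] at h1
      have h3 : ∀ χ : IrrCharacter L, (mult (Phi c.ξ) χ : ℂ) * χ.1 1 =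
          ((mult (Phi c.ξ) χ * charDegree (χ : L → ℂ) : ℕ) : ℂ) := by
        intro χ
        rw [← char_natCast_charDegree (isCharacter_of_irr χ.2)]
        push_cast
        ring
      rw [Finset.sum_congr rfl (fun χ _ => h3 χ), ← Nat.cast_sum] at h1
      exact_mod_cast h1
    have hdtriv : charDegree ((triv L : IrrCharacter L) : L → ℂ) = 1 := by
      apply charDegree_eq_of_apply_one
      unfold triv
      simp
    have hle : ∀ χ : IrrCharacter L, χ ≠ triv L →
        mult (Phi c.ξ) χ * charDegree (χ : L → ℂ) ≤ mult (Phi c.ξ) χ ^ 2 * (p + 1) := by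
      intro χ hχ
      by_cases hm : mult (Phi c.ξ) χ = 0
      · rw [hm]; simp
      · have hnt : ∃ g, (χ : L → ℂ) g ≠ 1 := by
          by_contra hcon
          push Not at hcon
          apply hχ
          apply Subtype.ext
          funext g
          exact hcon g
        have hsum : (∑ g : L, c.ξ g * conj (c.ξ g) * conj ((χ : L → ℂ) g)) ≠ 0 := by
          have h1 : (∑ g : L, c.ξ g * conj (c.ξ g) * conj ((χ : L → ℂ) g)) =
              (Nat.card L : ℂ) * multC (Phi c.ξ) χ := by
            rw [multC_def, ← mul_assoc, mul_inv_cancel₀ hcard0, one_mul]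
            refine Finset.sum_congr rfl fun g _ => ?_
            rw [phi_apply hξc, char_apply_inv (isCharacter_of_irr χ.2)]
          rw [h1, ← mult_cast hΦ χ]
          exact mul_ne_zero hcard0 (Nat.cast_ne_zero.mpr hm)
        have hd := c.hB2 χ hnt hsum
        have hmpos : 1 ≤ mult (Phi c.ξ) χ := Nat.one_le_iff_ne_zero.mpr hm
        calc mult (Phi c.ξ) χ * charDegree (χ : L → ℂ)
            ≤ mult (Phi c.ξ) χ * (p + 1) := Nat.mul_le_mul_left _ hd
          _ ≤ mult (Phi c.ξ) χ ^ 2 * (p + 1) := by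
              apply Nat.mul_le_mul_right
              rw [pow_two]
              exact Nat.le_mul_of_pos_left _ hmpos
    have hsplit1 : ∑ χ : IrrCharacter L, mult (Phi c.ξ) χ * charDegree (χ : L → ℂ) =
        1 + ∑ χ ∈ Finset.univ.erase (triv L),
          mult (Phi c.ξ) χ * charDegree (χ : L → ℂ) := by
      rw [← Finset.add_sum_erase Finset.univ _ (Finset.mem_univ (triv L)), hm1, hdtriv]
    have hsplit2 : ∑ χ : IrrCharacter L, mult (Phi c.ξ) χ ^ 2 =
        1 + ∑ χ ∈ Finset.univ.erase (triv L), mult (Phi c.ξ) χ ^ 2 := by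
      rw [← Finset.add_sum_erase Finset.univ _ (Finset.mem_univ (triv L)), hm1]
      norm_num
    have hsumle : ∑ χ ∈ Finset.univ.erase (triv L),
        mult (Phi c.ξ) χ * charDegree (χ : L → ℂ) ≤
        (∑ χ ∈ Finset.univ.erase (triv L), mult (Phi c.ξ) χ ^ 2) * (p + 1) := by
      rw [Finset.sum_mul]
      apply Finset.sum_le_sum
      intro χ hχ
      exact hle χ (Finset.ne_of_mem_erase hχ)
    have hpe := c.hdeg
    rw [hsplit2]
    rw [hsplit1] at hdeg
    generalize (∑ χ ∈ Finset.univ.erase (triv L), mult (Phi c.ξ) χ ^ 2) = M' at hsumle ⊢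
    generalize (∑ χ ∈ Finset.univ.erase (triv L),
      mult (Phi c.ξ) χ * charDegree (χ : L → ℂ)) = S at hsumle hdeg
    generalize charDegree c.ξ = e at hdeg hpe
    by_contra hcon
    push Not at hcon
    have h1 : 2 * M' + 2 ≤ e := by omega
    have h2 : e * (2 * M' + 2) ≤ e * e := Nat.mul_le_mul_left e h1
    have h3 : e * e ≤ 1 + M' * (2 * e + 1 + 1) := by
      have : e ^ 2 = e * e := pow_two e
      rw [← hpe] at hsumle
      omega
    nlinarith
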