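import Mathlib
import Cfsg.Agent.Lib.Lead.BrHalfStmt
import Cfsg.Agent.Lib.Helper16.BrCMom4

/-!
S4504 part C, piece `APhi`: the class sum of the elements of order `p` on `ξ₀ * conj ξ₀`.
-/

set_option autoImplicit false
set_option linter.style.haveILetI false

namespace Cfsg.Agent.Lib.Helper16.BrCAPhi

open Cfsg Cfsg.Agent.Lib.Lead.BrHalf Cfsg.Agent.Lib.Helper81.Mult Cfsg.Agent.Lib.CT.Ops
  Cfsg.Agent.Lib.CT.Wedderburn Cfsg.Agent.Lib.Helper16.BrCMom4
open scoped ComplexConjugate Classical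

universe u

variable {L : Type u} [Group L]

theorem mult_triv [Fintype L] {ξ₀ : L → ℂ} (hξ : IsIrrCharacter L ξ₀) :
    mult (Phi ξ₀) (triv L) = 1 := by
  have hΦ : IsCharacter L (Phi ξ₀) := phi_char (isCharacter_of_irr hξ)
  have h1 : multC (Phi ξ₀) (triv L) = 1 := by
    have h2 := multC_irr (⟨ξ₀, hξ⟩ : IrrCharacter L) ⟨ξ₀, hξ⟩
    rw [if_pos rfl, multC_def] at h2
    rw [multC_def, ← h2]
    congr 1
    refine Finset.sum_congr rfl fun g _ => ?_
    unfold Phi triv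
    simp
  have h3 := mult_cast hΦ (triv L)
  rw [h1] at h3
  exact_mod_cast h3

theorem sum_ne_zero [Fintype L] {ξ₀ : L → ℂ} (hξ : IsIrrCharacter L ξ₀) (χ : IrrCharacter L)
    (hm : mult (Phi ξ₀) χ ≠ 0) :
    (∑ g : L, ξ₀ g * conj (ξ₀ g) * conj ((χ : L → ℂ) g)) ≠ 0 := by
  have hξc := isCharacter_of_irr hξ
  have hΦ : IsCharacter L (Phi ξ₀) := phi_char hξc
  have hcard0 : (Nat.card L : ℂ) ≠ 0 := Nat.cast_ne_zero.mpr Nat.card_pos.ne'
  have h1 : (∑ g : L, ξ₀ g * conj (ξ₀ g) * conj ((χ : L → ℂ) g)) =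
      (Nat.card L : ℂ) * multC (Phi ξ₀) χ := by
    rw [multC_def, ← mul_assoc, mul_inv_cancel₀ hcard0, one_mul]
    refine Finset.sum_congr rfl fun g _ => ?_
    rw [phi_apply hξc, char_apply_inv (isCharacter_of_irr χ.2)]
  rw [h1, ← mult_cast hΦ χ]
  exact mul_ne_zero hcard0 (Nat.cast_ne_zero.mpr hm)

theorem nontriv_of_ne (χ : IrrCharacter L) (hχ : χ ≠ triv L) : ∃ g, (χ : L → ℂ) g ≠ 1 := by
  by_contra hcon
  push Not at hcon
  apply hχ
  apply Subtype.ext
  funext g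
  exact hcon g

theorem main (hAIrr : AIrr.{u}) : APhi.{u} := by
  intro L _ _ p _ c ξ₀ hξ hB g
  have hp : p.Prime := Fact.out
  haveI : Finite (IrrCharacter L) := finite_irrCharacter L
  letI : Fintype (IrrCharacter L) := Fintype.ofFinite _
  have hξc : IsCharacter L ξ₀ := isCharacter_of_irr hξ
  have hΦ : IsCharacter L (Phi ξ₀) := phi_char hξc
  have hp1 : (p : ℂ) + 1 ≠ 0 := by
    have : ((p + 1 : ℕ) : ℂ) ≠ 0 := Nat.cast_ne_zero.mpr (Nat.succ_ne_zero p)
    push_cast at this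
    exact this
  -- expand
  have hstep1 : (∑ u : L, if orderOf u = p then ξ₀ (g * u) * conj (ξ₀ (g * u)) else 0) =
      ∑ χ : IrrCharacter L, (mult (Phi ξ₀) χ : ℂ) *
        ∑ u : L, (if orderOf u = p then (χ : L → ℂ) (g * u) else 0) := by
    have h1 : ∀ u : L, (if orderOf u = p then ξ₀ (g * u) * conj (ξ₀ (g * u)) else 0) =
        ∑ χ : IrrCharacter L, (mult (Phi ξ₀) χ : ℂ) *
          (if orderOf u = p then (χ : L → ℂ) (g * u) else 0) := by
      intro u
      by_cases hu : orderOf u = p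
      · simp only [if_pos hu]
        rw [← phi_apply hξc, char_expand hΦ (g * u)]
      · simp only [if_neg hu, mul_zero, Finset.sum_const_zero]
    rw [Finset.sum_congr rfl (fun u _ => h1 u), Finset.sum_comm]
    refine Finset.sum_congr rfl fun χ _ => ?_
    rw [Finset.mul_sum]
  rw [hstep1]
  -- the term of each character
  have hterm : ∀ χ : IrrCharacter L, χ ≠ triv L →
      (mult (Phi ξ₀) χ : ℂ) * ∑ u : L, (if orderOf u = p then (χ : L → ℂ) (g * u) else 0) =
      (c.n : ℂ) * ((p : ℂ) - 1) / ((p : ℂ) + 1) * ((mult (Phi ξ₀) χ : ℂ) * (χ : L → ℂ) g) := by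
    intro χ hχ
    by_cases hm : mult (Phi ξ₀) χ = 0
    · rw [hm]; simp
    · have hb := hB χ (nontriv_of_ne χ hχ) (sum_ne_zero hξ χ hm)
      rw [hAIrr p c (χ : L → ℂ) χ.2 g]
      have hχ1 : (χ : L → ℂ) 1 ≠ 0 := irr_apply_one_ne_zero χ.2
      have hS : (∑ u : L, if u ∈ (c.P : Subgroup L) then (χ : L → ℂ) u else 0) =
          2 * (p : ℂ) * (χ : L → ℂ) 1 / ((p : ℂ) + 1) := by
        rw [eq_div_iff hp1, mul_comm]
        exact hb
      rw [hS]
      field_simp
      ring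
  have htriv : (mult (Phi ξ₀) (triv L) : ℂ) *
      ∑ u : L, (if orderOf u = p then ((triv L : IrrCharacter L) : L → ℂ) (g * u) else 0) =
      (c.n : ℂ) * ((p : ℂ) - 1) := by
    rw [mult_triv hξ, hAIrr p c ((triv L : IrrCharacter L) : L → ℂ) (triv L).2 g]
    have hS : (∑ u : L, if u ∈ (c.P : Subgroup L) then ((triv L : IrrCharacter L) : L → ℂ) u
        else 0) = (p : ℂ) := by
      have h1 : ∀ u : L, (if u ∈ (c.P : Subgroup L) then ((triv L : IrrCharacter L) : L → ℂ) u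
          else 0) = if u ∈ (c.P : Subgroup L) then (1 : ℂ) else 0 := by
        intro u
        rfl
      rw [Finset.sum_congr rfl (fun u _ => h1 u), Finset.sum_boole]
      have h2 : (Finset.univ.filter (fun u : L => u ∈ (c.P : Subgroup L))).card =
          Nat.card (c.P : Subgroup L) := by
        rw [Nat.card_eq_fintype_card, Fintype.card_subtype]
      rw [h2, c.hP]
    rw [hS]
    have h3 : ((triv L : IrrCharacter L) : L → ℂ) g = 1 := rfl
    have h4 : ((triv L : IrrCharacter L) : L → ℂ) 1 = 1 := rfl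
    rw [h3, h4]
    ring
  have hexp := char_expand hΦ g
  rw [phi_apply hξc] at hexp
  rw [← Finset.add_sum_erase Finset.univ _ (Finset.mem_univ (triv L))] at hexp ⊢
  rw [htriv]
  have hrest : ∑ χ ∈ Finset.univ.erase (triv L), (mult (Phi ξ₀) χ : ℂ) *
      ∑ u : L, (if orderOf u = p then (χ : L → ℂ) (g * u) else 0) =
      (c.n : ℂ) * ((p : ℂ) - 1) / ((p : ℂ) + 1) *
        ∑ χ ∈ Finset.univ.erase (triv L), (mult (Phi ξ₀) χ : ℂ) * (χ : L → ℂ) g := by
    rw [Finset.mul_sum]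
    refine Finset.sum_congr rfl fun χ hχ => ?_
    exact hterm χ (Finset.ne_of_mem_erase hχ)
  rw [hrest]
  have h5 : ∑ χ ∈ Finset.univ.erase (triv L), (mult (Phi ξ₀) χ : ℂ) * (χ : L → ℂ) g =
      ξ₀ g * conj (ξ₀ g) - 1 := by
    rw [hexp, mult_triv hξ]
    have h3 : ((triv L : IrrCharacter L) : L → ℂ) g = 1 := rfl
    rw [h3]
    push_cast
    ring
  rw [h5]

end Cfsg.Agent.Lib.Helper16.BrCAPhi
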