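import Mathlib
import Cfsg.Agent.Lib.Lead.BrHalfStmt
import Cfsg.Agent.Lib.CT.Wedderburn

/-!
S4504 part C, piece `SumSing`: the contribution of the `p`-singular elements to
`∑ (|ξ|^4 - |ξ|^2)`.
-/

set_option autoImplicit false
set_option linter.style.haveILetI false

namespace Cfsg.Agent.Lib.Helper16.BrCSumSing

open Cfsg Cfsg.Agent.Lib.Lead.BrHalf Cfsg.Agent.Lib.CT.Wedderburn
open scoped ComplexConjugate Classical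

universe u

theorem main (hCS : CountSing.{u}) (hCP : CountP.{u}) (hXC : XiCent.{u}) (hKEx : KEx.{u})
    (hSq : SqSum) (hPC : PerClass) (hPS : PerSum) (hPD : PerDiff) (hPQ : PerSq) (hQ4 : Q4) :
    SumSing.{u} := by
  intro L _ _ p _ c
  have hp : p.Prime := Fact.out
  have hp2 : p ≠ 2 := by
    have := c.hp5
    omega
  obtain ⟨hξ1, hXC'⟩ := hXC p c
  have hξc : IsCharacter L c.ξ := isCharacter_of_irr c.hξ
  have hepos : 0 < c.e := irr_charDegree_pos c.hξ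
  have he0 : (c.e : ℝ) ≠ 0 := Nat.cast_ne_zero.mpr hepos.ne'
  -- the function
  let F : L → ℂ := fun g => ((‖c.ξ g‖ ^ 4 - ‖c.ξ g‖ ^ 2 : ℝ) : ℂ)
  have hFz : ∀ g : L, ∀ z ∈ Subgroup.center L, F (g * z) = F g := by
    intro g z hz
    obtain ⟨hnz, hmul⟩ := hXC' z hz
    have h1 : ‖c.ξ (g * z)‖ = ‖c.ξ g‖ := by
      rw [hmul g, norm_mul, norm_div, hnz, hξ1, Complex.norm_natCast, div_self he0, mul_one]
    show ((‖c.ξ (g * z)‖ ^ 4 - ‖c.ξ (g * z)‖ ^ 2 : ℝ) : ℂ) = ((‖c.ξ g‖ ^ 4 - ‖c.ξ g‖ ^ 2 : ℝ) : ℂ)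
    rw [h1]
  have hFc : IsClassFunction L F := by
    intro g h
    show ((‖c.ξ (h * g * h⁻¹)‖ ^ 4 - ‖c.ξ (h * g * h⁻¹)‖ ^ 2 : ℝ) : ℂ) =
      ((‖c.ξ g‖ ^ 4 - ‖c.ξ g‖ ^ 2 : ℝ) : ℂ)
    rw [char_isClassFunction hξc g h]
  have h1 := hCS p c F hFz
  have h2 := hCP p c F hFc
  -- a non-square
  obtain ⟨k, -, hk, -⟩ := hKEx p c
  have h1p : ¬ p ∣ 1 := fun h => hp.one_lt.ne' (Nat.dvd_one.mp h)
  have hA := hPS p hp2 c.ζ c.hζ 1 k h1p hk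
  have hD := hPD p hp2 c.ζ c.hζ 1 k h1p hk
  have hS := hPQ p hp2 c.ζ c.hζ 1 k h1p hk
  rw [one_mul] at hA hD hS
  obtain ⟨hq2, hq4⟩ := hQ4 p (per p c.ζ 1) (per p c.ζ k) hA hD hS
  have h3 := hSq p hp2 (fun a => F (c.x ^ a))
    ((‖per p c.ζ 1‖ ^ 4 - ‖per p c.ζ 1‖ ^ 2 : ℝ) : ℂ)
    ((‖per p c.ζ k‖ ^ 4 - ‖per p c.ζ k‖ ^ 2 : ℝ) : ℂ)
    (by
      intro a ha hsq
      show ((‖c.ξ (c.x ^ a)‖ ^ 4 - ‖c.ξ (c.x ^ a)‖ ^ 2 : ℝ) : ℂ) = _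
      rw [c.hres a, (hPC p c.ζ c.hζ a k ha).1 hsq])
    (by
      intro a ha hsq
      show ((‖c.ξ (c.x ^ a)‖ ^ 4 - ‖c.ξ (c.x ^ a)‖ ^ 2 : ℝ) : ℂ) = _
      rw [c.hres a, (hPC p c.ζ c.hζ a k ha).2 hsq hk])
  have he : (p - 1) / 2 = c.e := by
    have := c.hdeg
    have he' : c.e = charDegree c.ξ := rfl
    omega
  rw [he] at h3
  have hfin : ((∑ g : L, if p ∣ orderOf g then ‖c.ξ g‖ ^ 4 - ‖c.ξ g‖ ^ 2 else 0 : ℝ) : ℂ) =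
      (((c.zc : ℝ) * (c.n : ℝ) * (c.e : ℝ) * (q4 p - ((p : ℝ) + 1) / 2) : ℝ) : ℂ) := by
    have h4 : ((∑ g : L, if p ∣ orderOf g then ‖c.ξ g‖ ^ 4 - ‖c.ξ g‖ ^ 2 else 0 : ℝ) : ℂ) =
        ∑ g : L, if p ∣ orderOf g then F g else 0 := by
      rw [Complex.ofReal_sum]
      refine Finset.sum_congr rfl fun g _ => ?_
      by_cases hg : p ∣ orderOf g
      · rw [if_pos hg, if_pos hg]
      · rw [if_neg hg, if_neg hg, Complex.ofReal_zero]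
    rw [h4, h1, h2]
    have h5 : (∑ a ∈ Finset.Ico 1 p, F (c.x ^ a)) = ∑ a ∈ Finset.Ico 1 p, (fun a => F (c.x ^ a)) a :=
      rfl
    rw [h5, h3]
    have h6 : (‖per p c.ζ 1‖ ^ 4 - ‖per p c.ζ 1‖ ^ 2) + (‖per p c.ζ k‖ ^ 4 - ‖per p c.ζ k‖ ^ 2) =
        q4 p - ((p : ℝ) + 1) / 2 := by
      linarith
    rw [← h6]
    push_cast
    ring
  exact Complex.ofReal_injective hfin

end Cfsg.Agent.Lib.Helper16.BrCSumSing
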