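import Mathlib
import Cfsg.Agent.Lib.Lead.BrHalfStmt
import Cfsg.Agent.Lib.Helper76.GaloisConj

/-!
S4504 part C, piece `TG`: the value of `T g` for `p`-regular `g`.
-/

set_option autoImplicit false
set_option linter.style.haveILetI false

namespace Cfsg.Agent.Lib.Helper16.BrCTG

open Cfsg Cfsg.Agent.Lib.Lead.BrHalf
open scoped ComplexConjugate Classical

universe u

theorem main (hDSq : DSq.{u}) (hAPhi : APhi.{u}) (hHBSig : HBSig.{u}) (hAPsi : APsi.{u}) :
    TG.{u} := by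
  intro L _ _ p _ c k hk g hg
  have hp : p.Prime := Fact.out
  have hirr : IsIrrCharacter L (fun g => c.ξ (g ^ k)) :=
    Cfsg.Agent.Lib.Helper76.GaloisConj.isIrrCharacter_pow c.hξ k hk.1
  have hgk : g ^ k = g := hk.2.2 g hg
  have h1 := hAPhi p c c.ξ c.hξ c.hB g
  have h2 := hAPhi p c (fun g => c.ξ (g ^ k)) hirr (hHBSig p c k hk) g
  have h3 := hAPsi p c k hk g
  beta_reduce at h2
  rw [hgk] at h2 h3
  -- the conjugate sum
  have h4 : (∑ u : L, if orderOf u = p then conj (c.ξ (g * u) * conj (c.ξ ((g * u) ^ k))) else 0) =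
      conj (-(c.n : ℂ) * (c.ξ g * conj (c.ξ g))) := by
    rw [← h3, map_sum]
    refine Finset.sum_congr rfl fun u _ => ?_
    by_cases hu : orderOf u = p
    · rw [if_pos hu, if_pos hu]
    · rw [if_neg hu, if_neg hu, map_zero]
  -- the sum of |D|^2
  have hD : (∑ u : L, if orderOf u = p then c.D k (g * u) * conj (c.D k (g * u)) else 0) =
      (p : ℂ) * (c.T g : ℂ) := by
    have hterm : ∀ u : L, (if orderOf u = p then c.D k (g * u) * conj (c.D k (g * u)) else 0) =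
        if (orderOf u = p ∧ p ∣ orderOf (g * u)) then (p : ℂ) else 0 := by
      intro u
      by_cases hu : orderOf u = p
      · rw [if_pos hu, hDSq p c k hk (g * u)]
        by_cases hs : p ∣ orderOf (g * u)
        · rw [if_pos hs, if_pos ⟨hu, hs⟩]
        · rw [if_neg hs, if_neg (fun h => hs h.2)]
      · rw [if_neg hu, if_neg (fun h => hu h.1)]
    rw [Finset.sum_congr rfl (fun u _ => hterm u), ← Finset.sum_filter, Finset.sum_const,
      nsmul_eq_mul, mul_comm]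
    rfl
  have hexp : ∀ u : L, (if orderOf u = p then c.D k (g * u) * conj (c.D k (g * u)) else 0) =
      (if orderOf u = p then c.ξ (g * u) * conj (c.ξ (g * u)) else 0) +
      (if orderOf u = p then c.ξ ((g * u) ^ k) * conj (c.ξ ((g * u) ^ k)) else 0) -
      (if orderOf u = p then c.ξ (g * u) * conj (c.ξ ((g * u) ^ k)) else 0) -
      (if orderOf u = p then conj (c.ξ (g * u) * conj (c.ξ ((g * u) ^ k))) else 0) := by
    intro u
    by_cases hu : orderOf u = p
    · simp only [if_pos hu, Ctx.D, map_sub, map_mul, Complex.conj_conj]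
      ring
    · simp only [if_neg hu]
      ring
  rw [Finset.sum_congr rfl (fun u _ => hexp u), Finset.sum_sub_distrib, Finset.sum_sub_distrib,
    Finset.sum_add_distrib, h1, h2, h3, h4] at hD
  -- now pure algebra
  have hr : c.ξ g * conj (c.ξ g) = ((‖c.ξ g‖ ^ 2 : ℝ) : ℂ) := by
    rw [Complex.mul_conj, Complex.normSq_eq_norm_sq]
  rw [hr] at hD
  have hconj : conj (-(c.n : ℂ) * ((‖c.ξ g‖ ^ 2 : ℝ) : ℂ)) = -(c.n : ℂ) * ((‖c.ξ g‖ ^ 2 : ℝ) : ℂ) := by
    rw [map_mul, map_neg, Complex.conj_natCast, Complex.conj_ofReal]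
  rw [hconj] at hD
  have hp0 : (p : ℂ) ≠ 0 := Nat.cast_ne_zero.mpr hp.ne_zero
  have hp1 : (p : ℂ) + 1 ≠ 0 := by
    have : ((p + 1 : ℕ) : ℂ) ≠ 0 := Nat.cast_ne_zero.mpr (Nat.succ_ne_zero p)
    push_cast at this
    exact this
  have hfin : ((p : ℂ) + 1) * (c.T g : ℂ) =
      2 * (c.n : ℂ) * ((p : ℂ) - 1 + 2 * ((‖c.ξ g‖ ^ 2 : ℝ) : ℂ)) := by
    have h5 : (p : ℂ) * (((p : ℂ) + 1) * (c.T g : ℂ)) =
        (p : ℂ) * (2 * (c.n : ℂ) * ((p : ℂ) - 1 + 2 * ((‖c.ξ g‖ ^ 2 : ℝ) : ℂ))) := by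
      have h6 : (p : ℂ) * (((p : ℂ) + 1) * (c.T g : ℂ)) = ((p : ℂ) + 1) * ((p : ℂ) * (c.T g : ℂ)) := by
        ring
      rw [h6, ← hD]
      field_simp
      ring
    exact mul_left_cancel₀ hp0 h5
  have hcast : (((p : ℝ) + 1) * (c.T g : ℝ) : ℝ) =
      2 * (c.n : ℝ) * ((p : ℝ) - 1 + 2 * ‖c.ξ g‖ ^ 2) := by
    apply Complex.ofReal_injective
    push_cast
    push_cast at hfin
    exact hfin
  exact hcast

end Cfsg.Agent.Lib.Helper16.BrCTG
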