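import Mathlib
import Cfsg.Agent.Lib.Helper76.BrRBStmt
import Cfsg.Agent.Lib.Helper81.Mult
import Cfsg.Agent.Lib.Helper51.BrCAPsi
import Cfsg.Agent.Lib.CT.Kernel
import Cfsg.Agent.Lib.CT.KnUtil
import Cfsg.Agent.Lib.CT.Ops
import Cfsg.Agent.Lib.CT.Wedderburn

/-!
S4504 parts R+B, piece `AVB`: for a character `ψ` and `k ∈ C_L(P)`, `∑_{u ∈ P} ψ u` is a
nonnegative real `r` and `|∑_{u ∈ P} ψ (u k)| ≤ r`.
-/

set_option autoImplicit false
set_option linter.style.haveILetI false

namespace Cfsg.Agent.Lib.Helper16.BrRBAVB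

open Cfsg Cfsg.Agent.Lib.Helper76.BrRB Cfsg.Agent.Lib.Helper81.Mult Cfsg.Agent.Lib.CT.Ops
  Cfsg.Agent.Lib.CT.Wedderburn
open scoped ComplexConjugate Classical

universe u

variable {L : Type u} [Group L]

/-- a sum over `P` as a sum over a subgroup `H ≥ P`. -/
theorem sum_sub [Fintype L] (P H : Subgroup L) [Fintype ↥H] (hPH : P ≤ H) (F : L → ℂ) :
    (∑ u : L, if u ∈ P then F u else 0) = ∑ c : ↥H, if (c : L) ∈ P then F (c : L) else 0 := by
  have h1 : (∑ c : ↥H, if (c : L) ∈ P then F (c : L) else 0) =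
      ∑ u ∈ Finset.univ.filter (fun u : L => u ∈ H), (if u ∈ P then F u else 0) := by
    exact (Finset.sum_subtype (Finset.univ.filter (fun u : L => u ∈ H)) (by simp)
      (fun u => if u ∈ P then F u else 0)).symm
  rw [h1, Finset.sum_filter]
  refine Finset.sum_congr rfl fun u _ => ?_
  by_cases hu : u ∈ P
  · rw [if_pos (hPH hu)]
  · rw [if_neg hu]
    simp

theorem main : AVB.{u} := by
  intro L _ _ p _ P hP ψ hψ k hk
  have hp : p.Prime := Fact.out
  -- the centralizer as a group
  have hPab : ∀ a ∈ (P : Subgroup L), ∀ b ∈ (P : Subgroup L), a * b = b * a := by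
    intro a ha b hb
    have hcyc : IsCyclic ↥(P : Subgroup L) := by
      haveI : Fact p.Prime := ⟨hp⟩
      exact isCyclic_of_prime_card (p := p) hP
    have hcomm := (IsCyclic.commGroup (α := ↥(P : Subgroup L))).mul_comm ⟨a, ha⟩ ⟨b, hb⟩
    exact congrArg Subtype.val hcomm
  have hPC : (P : Subgroup L) ≤ Subgroup.centralizer ((P : Subgroup L) : Set L) := by
    intro a ha
    rw [Subgroup.mem_centralizer_iff]
    intro b hb
    exact hPab b hb a ha
  letI : Fintype ↥(Subgroup.centralizer ((P : Subgroup L) : Set L)) := Fintype.ofFinite _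
  haveI : Finite (IrrCharacter ↥(Subgroup.centralizer ((P : Subgroup L) : Set L))) :=
    finite_irrCharacter _
  letI : Fintype (IrrCharacter ↥(Subgroup.centralizer ((P : Subgroup L) : Set L))) :=
    Fintype.ofFinite _
  have hψC : IsCharacter ↥(Subgroup.centralizer ((P : Subgroup L) : Set L))
      (fun c : ↥(Subgroup.centralizer ((P : Subgroup L) : Set L)) => ψ (c : L)) :=
    isCharacter_restrict _ hψ
  -- data for each irreducible character of the centralizer
  have hdata : ∀ φ : IrrCharacter ↥(Subgroup.centralizer ((P : Subgroup L) : Set L)),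
      ∃ r : ℕ, ∀ k' : ↥(Subgroup.centralizer ((P : Subgroup L) : Set L)),
        (∑ c : ↥(Subgroup.centralizer ((P : Subgroup L) : Set L)),
          if (c : L) ∈ (P : Subgroup L) then
            (φ : ↥(Subgroup.centralizer ((P : Subgroup L) : Set L)) → ℂ) (c * k') else 0) =
        (r : ℂ) * ((φ : ↥(Subgroup.centralizer ((P : Subgroup L) : Set L)) → ℂ) k' /
          (φ : ↥(Subgroup.centralizer ((P : Subgroup L) : Set L)) → ℂ) 1) := by
    intro φ
    have hφc := isCharacter_of_irr φ.2
    have hφ1 : (φ : ↥(Subgroup.centralizer ((P : Subgroup L) : Set L)) → ℂ) 1 ≠ 0 :=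
      irr_apply_one_ne_zero φ.2
    obtain ⟨r, hr⟩ := Cfsg.Agent.Lib.Helper51.BrCAPsi.sum_subgroup_nat
      ((P : Subgroup L).subgroupOf (Subgroup.centralizer ((P : Subgroup L) : Set L))) hφc
    refine ⟨r, fun k' => ?_⟩
    rw [← hr, Finset.sum_mul]
    refine Finset.sum_congr rfl fun c _ => ?_
    by_cases hc : (c : L) ∈ (P : Subgroup L)
    · rw [if_pos hc, if_pos (Subgroup.mem_subgroupOf.mpr hc)]
      have hcen : c ∈ Subgroup.center ↥(Subgroup.centralizer ((P : Subgroup L) : Set L)) := by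
        rw [Subgroup.mem_center_iff]
        intro g
        apply Subtype.ext
        have hg := g.2
        rw [Subgroup.mem_centralizer_iff] at hg
        exact (hg (c : L) hc).symm
      have hn := Cfsg.Agent.Lib.CT.Kernel.norm_eq_of_mem_center φ.2 hcen
      obtain ⟨ω, h1, -, h3⟩ := Cfsg.Agent.Lib.CT.Kernel.exists_scalar_of_norm_eq hφc hn
      rw [h1 k', h3]
      field_simp
    · rw [if_neg hc, if_neg (fun h => hc (Subgroup.mem_subgroupOf.mp h)), zero_mul]
  choose r hr using hdata
  -- expand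
  have hexp : ∀ k' : ↥(Subgroup.centralizer ((P : Subgroup L) : Set L)),
      (∑ c : ↥(Subgroup.centralizer ((P : Subgroup L) : Set L)),
        if (c : L) ∈ (P : Subgroup L) then ψ ((c * k' : ↥(Subgroup.centralizer
          ((P : Subgroup L) : Set L))) : L) else 0) =
      ∑ φ : IrrCharacter ↥(Subgroup.centralizer ((P : Subgroup L) : Set L)),
        (mult (fun c : ↥(Subgroup.centralizer ((P : Subgroup L) : Set L)) => ψ (c : L)) φ : ℂ) *
          ((r φ : ℂ) * ((φ : ↥(Subgroup.centralizer ((P : Subgroup L) : Set L)) → ℂ) k' /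
            (φ : ↥(Subgroup.centralizer ((P : Subgroup L) : Set L)) → ℂ) 1)) := by
    intro k'
    have h1 : ∀ c : ↥(Subgroup.centralizer ((P : Subgroup L) : Set L)),
        (if (c : L) ∈ (P : Subgroup L) then ψ ((c * k' : ↥(Subgroup.centralizer
          ((P : Subgroup L) : Set L))) : L) else 0) =
        ∑ φ : IrrCharacter ↥(Subgroup.centralizer ((P : Subgroup L) : Set L)),
          (mult (fun c : ↥(Subgroup.centralizer ((P : Subgroup L) : Set L)) => ψ (c : L)) φ : ℂ) *
            (if (c : L) ∈ (P : Subgroup L) then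
              (φ : ↥(Subgroup.centralizer ((P : Subgroup L) : Set L)) → ℂ) (c * k') else 0) := by
      intro c
      by_cases hc : (c : L) ∈ (P : Subgroup L)
      · simp only [if_pos hc]
        exact char_expand hψC (c * k')
      · simp only [if_neg hc, mul_zero, Finset.sum_const_zero]
    rw [Finset.sum_congr rfl (fun c _ => h1 c), Finset.sum_comm]
    refine Finset.sum_congr rfl fun φ _ => ?_
    rw [← Finset.mul_sum, hr φ k']
  refine ⟨∑ φ : IrrCharacter ↥(Subgroup.centralizer ((P : Subgroup L) : Set L)),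
    (mult (fun c : ↥(Subgroup.centralizer ((P : Subgroup L) : Set L)) => ψ (c : L)) φ : ℝ) *
      (r φ : ℝ), ?_, ?_⟩
  · -- the value at 1
    unfold sP
    rw [sum_sub (P : Subgroup L) (Subgroup.centralizer ((P : Subgroup L) : Set L)) hPC ψ]
    have h2 := hexp 1
    simp only [mul_one] at h2
    rw [h2]
    push_cast
    refine Finset.sum_congr rfl fun φ _ => ?_
    have hφ1 : (φ : ↥(Subgroup.centralizer ((P : Subgroup L) : Set L)) → ℂ) 1 ≠ 0 :=
      irr_apply_one_ne_zero φ.2
    rw [div_self hφ1, mul_one]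
  · -- the bound
    unfold sPt
    rw [sum_sub (P : Subgroup L) (Subgroup.centralizer ((P : Subgroup L) : Set L)) hPC
      (fun u => ψ (u * k))]
    have h3 := hexp ⟨k, hk⟩
    have h4 : (∑ c : ↥(Subgroup.centralizer ((P : Subgroup L) : Set L)),
        if (c : L) ∈ (P : Subgroup L) then (fun u => ψ (u * k)) (c : L) else 0) =
        ∑ c : ↥(Subgroup.centralizer ((P : Subgroup L) : Set L)),
        if (c : L) ∈ (P : Subgroup L) then ψ ((c * (⟨k, hk⟩ : ↥(Subgroup.centralizer
          ((P : Subgroup L) : Set L))) : ↥(Subgroup.centralizer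
          ((P : Subgroup L) : Set L))) : L) else 0 := rfl
    rw [h4, h3]
    refine le_trans (norm_sum_le _ _) ?_
    apply Finset.sum_le_sum
    intro φ _
    have hφc := isCharacter_of_irr φ.2
    have hφ1 : (φ : ↥(Subgroup.centralizer ((P : Subgroup L) : Set L)) → ℂ) 1 ≠ 0 :=
      irr_apply_one_ne_zero φ.2
    have hle := Cfsg.Agent.Lib.CT.KnUtil.norm_le_apply_one hφc
      (⟨k, hk⟩ : ↥(Subgroup.centralizer ((P : Subgroup L) : Set L)))
    obtain ⟨n, hn⟩ := char_exists_apply_one hφc
    have hn0 : (n : ℂ) ≠ 0 := by rw [← hn]; exact hφ1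
    have hnpos : (0 : ℝ) < n := by
      have : n ≠ 0 := fun h => hn0 (by rw [h]; simp)
      exact Nat.cast_pos.mpr (Nat.pos_of_ne_zero this)
    rw [hn] at hle ⊢
    simp only [Complex.natCast_re] at hle
    rw [norm_mul, norm_mul, norm_div, Complex.norm_natCast, Complex.norm_natCast,
      Complex.norm_natCast]
    have h5 : ‖(φ : ↥(Subgroup.centralizer ((P : Subgroup L) : Set L)) → ℂ) ⟨k, hk⟩‖ / (n : ℝ) ≤ 1 :=
      (div_le_one hnpos).mpr hle
    have h6 : (0 : ℝ) ≤ (mult (fun c : ↥(Subgroup.centralizer ((P : Subgroup L) : Set L)) =>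
        ψ (c : L)) φ : ℝ) := Nat.cast_nonneg _
    have h7 : (0 : ℝ) ≤ (r φ : ℝ) := Nat.cast_nonneg _
    calc (mult (fun c : ↥(Subgroup.centralizer ((P : Subgroup L) : Set L)) => ψ (c : L)) φ : ℝ) *
          ((r φ : ℝ) * (‖(φ : ↥(Subgroup.centralizer ((P : Subgroup L) : Set L)) → ℂ) ⟨k, hk⟩‖ /
            (n : ℝ)))
        ≤ (mult (fun c : ↥(Subgroup.centralizer ((P : Subgroup L) : Set L)) => ψ (c : L)) φ : ℝ) *
          ((r φ : ℝ) * 1) := by
          apply mul_le_mul_of_nonneg_left _ h6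
          exact mul_le_mul_of_nonneg_left h5 h7
      _ = _ := by ring

end Cfsg.Agent.Lib.Helper16.BrRBAVB
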