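import Mathlib
import Cfsg.Agent.Lib.Helper76.BrRBStmt
import Cfsg.Agent.Lib.CT.Wedderburn

/-!
S4504 parts R+B, piece `EXC`: every nontrivial irreducible constituent of `ξ * conj ξ`
satisfies `Exc`.
-/

set_option autoImplicit false
set_option linter.style.haveILetI false

namespace Cfsg.Agent.Lib.Helper16.BrRBEXC

open Cfsg Cfsg.Agent.Lib.Helper76.BrRB Cfsg.Agent.Lib.CT.Wedderburn
open scoped ComplexConjugate Classical

universe u

theorem main (hB0X : B0X.{u}) (hYTWO : YTWO.{u}) (hEX : EX.{u}) (hEY : EY.{u}) (hEO : EO.{u}) :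
    EXC.{u} := by
  intro L _ _ p _ c hNC hHA ψ hnt hm
  have hp : p.Prime := Fact.out
  have hp2 : p ≠ 2 := by
    have := c.hp5
    omega
  obtain ⟨X, Y, ε, ε', hXcard, hXY, hε, hε', hXsing, hYsing, hreg', hYavg, hout⟩ :=
    hB0X p hp2 c.P c.hP
  by_cases hX : ψ ∈ X
  · exact hEX p c.P c.hP c.hp5 c.hgen (ψ : L → ℂ) ψ.2 hnt (ε ψ) (hε ψ hX) (hXsing ψ hX)
  by_cases hY : ψ ∈ Y
  · have hY2 : Nat.card Y = 2 := by
      rw [hXcard, hNC] at hXY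
      have hdeg := c.hdeg
      have hepos : 0 < charDegree c.ξ := irr_charDegree_pos c.hξ
      have h1 : charDegree c.ξ * Nat.card Y = charDegree c.ξ * 2 := by
        rw [hXY]; omega
      exact Nat.eq_of_mul_eq_mul_left hepos h1
    obtain ⟨η', h1, h2, h3⟩ := hYTWO p c.P Y ε'
      (fun g => ∑ᶠ ξ ∈ X, (ε ξ : ℂ) * (ξ : L → ℂ) g) hY2 hε' hYsing
      (fun g hg η hη => hreg' g hg η hη) hYavg ψ hY
    exact hEY p c.P c.hP c.hp5 (ψ : L → ℂ) (η' : L → ℂ) ψ.2 η'.2 ε' hε' h1 h2 h3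
  · obtain ⟨f, h1, h2⟩ := hEO p c.P c.hP (ψ : L → ℂ) ψ.2 (hout ψ hX hY)
      (fun k hk _ => hHA ψ hm k hk)
    exact ⟨f, h1, le_of_lt h2, fun heq => absurd heq (ne_of_lt h2)⟩

end Cfsg.Agent.Lib.Helper16.BrRBEXC
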