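import Mathlib
import Cfsg.Agent.Lib.Helper76.BrRBStmt
import Cfsg.Agent.Lib.Helper16.BrCMom4

/-!
S4504 parts R+B, piece `HA`: for a constituent `ψ` of `ξ * conj ξ` and `k ∈ C`,
`∑_{u ∈ P} ψ (u k) = ∑_{u ∈ P} ψ u`.
-/

set_option autoImplicit false
set_option linter.style.haveILetI false

namespace Cfsg.Agent.Lib.Helper16.BrRBHA

open Cfsg Cfsg.Agent.Lib.Helper76.BrRB Cfsg.Agent.Lib.Helper81.Mult Cfsg.Agent.Lib.CT.Ops
  Cfsg.Agent.Lib.CT.Wedderburn Cfsg.Agent.Lib.Helper16.BrCMom4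
open scoped ComplexConjugate Classical

universe u

variable {L : Type u} [Group L]

theorem mlt_eq [Fintype L] {ξ₀ : L → ℂ} (hξ : IsCharacter L ξ₀) (χ : IrrCharacter L) :
    mlt ξ₀ (χ : L → ℂ) = (Nat.card L : ℂ) * (mult (Phi ξ₀) χ : ℂ) := by
  have hΦ : IsCharacter L (Phi ξ₀) := phi_char hξ
  have hcard0 : (Nat.card L : ℂ) ≠ 0 := Nat.cast_ne_zero.mpr Nat.card_pos.ne'
  rw [mult_cast hΦ χ, multC_def, ← mul_assoc, mul_inv_cancel₀ hcard0, one_mul]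
  unfold mlt
  refine Finset.sum_congr rfl fun g _ => ?_
  rw [phi_apply hξ, char_apply_inv (isCharacter_of_irr χ.2)]

theorem sPt_one [Fintype L] {p : ℕ} (P : Sylow p L) (F : L → ℂ) : sPt P F 1 = sP P F := by
  unfold sPt sP
  refine Finset.sum_congr rfl fun u _ => ?_
  rw [mul_one]

theorem sPt_expand [Fintype L] [Fintype (IrrCharacter L)] {p : ℕ} (P : Sylow p L) {ξ₀ : L → ℂ}
    (hξ : IsCharacter L ξ₀) (k : L) :
    sPt P (fun g => ξ₀ g * conj (ξ₀ g)) k =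
      ∑ χ : IrrCharacter L, (mult (Phi ξ₀) χ : ℂ) * sPt P (χ : L → ℂ) k := by
  have hΦ : IsCharacter L (Phi ξ₀) := phi_char hξ
  unfold sPt
  have h1 : ∀ u : L, (if u ∈ (P : Subgroup L) then ξ₀ (u * k) * conj (ξ₀ (u * k)) else 0) =
      ∑ χ : IrrCharacter L, (mult (Phi ξ₀) χ : ℂ) *
        (if u ∈ (P : Subgroup L) then (χ : L → ℂ) (u * k) else 0) := by
    intro u
    by_cases hu : u ∈ (P : Subgroup L)
    · simp only [if_pos hu]
      rw [← phi_apply hξ, char_expand hΦ (u * k)]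
    · simp only [if_neg hu, mul_zero, Finset.sum_const_zero]
  rw [Finset.sum_congr rfl (fun u _ => h1 u), Finset.sum_comm]
  refine Finset.sum_congr rfl fun χ _ => ?_
  rw [Finset.mul_sum]

theorem main (hAVB : AVB.{u}) : HA.{u} := by
  intro L _ _ p _ c hPhi ψ hm k hk
  haveI : Finite (IrrCharacter L) := finite_irrCharacter L
  letI : Fintype (IrrCharacter L) := Fintype.ofFinite _
  have hξc : IsCharacter L c.ξ := isCharacter_of_irr c.hξ
  have h1k := hPhi k hk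
  have h11 := hPhi 1 (Subgroup.one_mem _)
  rw [sPt_expand c.P hξc] at h1k h11
  have hav : ∀ χ : IrrCharacter L, ∃ r : ℝ, sP c.P (χ : L → ℂ) = (r : ℂ) ∧
      ‖sPt c.P (χ : L → ℂ) k‖ ≤ r :=
    fun χ => hAVB p c.P c.hP (χ : L → ℂ) (isCharacter_of_irr χ.2) k hk
  choose r hr1 hr2 using hav
  -- real parts
  have hsum : ∑ χ : IrrCharacter L, (mult (Phi c.ξ) χ : ℝ) *
      (r χ - (sPt c.P (χ : L → ℂ) k).re) = 0 := by
    have h2 : ∑ χ : IrrCharacter L, (mult (Phi c.ξ) χ : ℂ) * sPt c.P (χ : L → ℂ) 1 =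
        ∑ χ : IrrCharacter L, (mult (Phi c.ξ) χ : ℂ) * sPt c.P (χ : L → ℂ) k := by
      rw [h11, h1k]
    have h3 := congrArg Complex.re h2
    rw [Complex.re_sum, Complex.re_sum] at h3
    have h4 : ∀ χ : IrrCharacter L, ((mult (Phi c.ξ) χ : ℂ) * sPt c.P (χ : L → ℂ) 1).re =
        (mult (Phi c.ξ) χ : ℝ) * r χ := by
      intro χ
      rw [sPt_one, hr1 χ, ← Complex.ofReal_natCast, ← Complex.ofReal_mul, Complex.ofReal_re]
    have h5 : ∀ χ : IrrCharacter L, ((mult (Phi c.ξ) χ : ℂ) * sPt c.P (χ : L → ℂ) k).re =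
        (mult (Phi c.ξ) χ : ℝ) * (sPt c.P (χ : L → ℂ) k).re := by
      intro χ
      rw [← Complex.ofReal_natCast, Complex.re_ofReal_mul]
    rw [Finset.sum_congr rfl (fun χ _ => h4 χ), Finset.sum_congr rfl (fun χ _ => h5 χ)] at h3
    have h6 : ∑ χ : IrrCharacter L, (mult (Phi c.ξ) χ : ℝ) *
        (r χ - (sPt c.P (χ : L → ℂ) k).re) =
        ∑ χ : IrrCharacter L, (mult (Phi c.ξ) χ : ℝ) * r χ -
        ∑ χ : IrrCharacter L, (mult (Phi c.ξ) χ : ℝ) * (sPt c.P (χ : L → ℂ) k).re := by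
      rw [← Finset.sum_sub_distrib]
      refine Finset.sum_congr rfl fun χ _ => ?_
      ring
    rw [h6, h3, sub_self]
  have hnonneg : ∀ χ ∈ (Finset.univ : Finset (IrrCharacter L)), (0 : ℝ) ≤
      (mult (Phi c.ξ) χ : ℝ) * (r χ - (sPt c.P (χ : L → ℂ) k).re) := by
    intro χ _
    apply mul_nonneg (Nat.cast_nonneg _)
    have h7 : (sPt c.P (χ : L → ℂ) k).re ≤ ‖sPt c.P (χ : L → ℂ) k‖ := Complex.re_le_norm _
    linarith [hr2 χ]
  have hzero := (Finset.sum_eq_zero_iff_of_nonneg hnonneg).mp hsum ψ (Finset.mem_univ ψ)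
  have hmψ : mult (Phi c.ξ) ψ ≠ 0 := by
    intro h0
    apply hm
    rw [mlt_eq hξc ψ, h0]
    simp
  have hmψ' : (mult (Phi c.ξ) ψ : ℝ) ≠ 0 := Nat.cast_ne_zero.mpr hmψ
  have hre : (sPt c.P (ψ : L → ℂ) k).re = r ψ := by
    rcases mul_eq_zero.mp hzero with h | h
    · exact absurd h hmψ'
    · linarith
  have him : (sPt c.P (ψ : L → ℂ) k).im = 0 := by
    have h8 := hr2 ψ
    have h9 : ‖sPt c.P (ψ : L → ℂ) k‖ ^ 2 =
        (sPt c.P (ψ : L → ℂ) k).re ^ 2 + (sPt c.P (ψ : L → ℂ) k).im ^ 2 := by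
      rw [← Complex.normSq_eq_norm_sq, Complex.normSq_apply]
      ring
    have h10 : 0 ≤ ‖sPt c.P (ψ : L → ℂ) k‖ := norm_nonneg _
    have h11' : ‖sPt c.P (ψ : L → ℂ) k‖ ^ 2 ≤ r ψ ^ 2 := by
      apply pow_le_pow_left₀ h10 h8
    rw [h9, hre] at h11'
    have h12 : (sPt c.P (ψ : L → ℂ) k).im ^ 2 ≤ 0 := by linarith
    have h13 : 0 ≤ (sPt c.P (ψ : L → ℂ) k).im ^ 2 := sq_nonneg _
    have h14 : (sPt c.P (ψ : L → ℂ) k).im ^ 2 = 0 := le_antisymm h12 h13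
    exact pow_eq_zero_iff (two_ne_zero) |>.mp h14
  rw [hr1 ψ]
  apply Complex.ext
  · rw [hre, Complex.ofReal_re]
  · rw [him, Complex.ofReal_im]

end Cfsg.Agent.Lib.Helper16.BrRBHA
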