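import Mathlib
import Cfsg.Prelude.Def_Blocks
import Cfsg.Agent.Lib.Helper16.NormalDefect

/-!
# Centres of defect groups under block induction

* `isPPart_coe`: `p`-parts computed in a subgroup are `p`-parts in the group.
* `exists_conj_mem_center` (S0930): if `b^G = B`, every element of `Z(P)` (`P` a defect group of
  `B`) is conjugate to an element of `Z(D)` (`D` a defect group of `b`).
* `blockDefect_eq_zero_of_induced` (S0931).
-/

set_option autoImplicit false

namespace Cfsg.Agent.Lib.Helper16.CenterConj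

open Cfsg Cfsg.Agent.Lib.Helper77.LocalRing Cfsg.Agent.Lib.Helper77.CentralChar
  Cfsg.Agent.Lib.Helper16.ZR Cfsg.Agent.Lib.CT.Wedderburn Cfsg.Agent.Lib.Helper16.MinMax
  Cfsg.Agent.Lib.Helper16.Defect Cfsg.Agent.Lib.Helper16.IndBlock
  Cfsg.Agent.Lib.Helper16.Idem Cfsg.Agent.Lib.Helper16.QuotP Cfsg.Agent.Lib.Helper33.Conj
  Cfsg.Agent.Lib.Helper16.NormalDefect Cfsg.Agent.Lib.Helper16.PSection
  Cfsg.Agent.Lib.CT.SectionOrth

universe u
variable {G : Type u} [Group G] {M : Ideal AlgInt}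

/-- `p`-parts computed in a subgroup are `p`-parts in the group. -/
theorem isPPart_coe {p : ℕ} (H : Subgroup G) (r z : H) (h : IsPPart p r z) :
    IsPPart p (r : G) (z : G) := by
  obtain ⟨y, h1, h2, ⟨k, hk⟩, h4⟩ := h
  refine ⟨(y : G), ?_, ?_, ⟨k, ?_⟩, ?_⟩
  · rw [← h1]
    rfl
  · exact congrArg Subtype.val h2.eq
  · rw [Subgroup.orderOf_coe]
    exact hk
  · rw [Subgroup.orderOf_coe]
    exact h4

/-- If `b^G = B`, every element of `Z(P)` (`P` a defect group of `B`) is conjugate to an element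
of `Z(D)` (`D` a defect group of `b`). -/
theorem exists_conj_mem_center [Finite G] (p : ℕ) [Fact p.Prime] (hM : IsPModular p M)
    (H : Subgroup G) (b : Set (IrrCharacter H)) (B : Set (IrrCharacter G))
    (hind : IsInducedBlock M H b B) (D : Subgroup H) (hD : IsDefectGroup p M b D)
    (P : Subgroup G) (hP : IsDefectGroup p M B P) (x : G) (hx : x ∈ P)
    (hxc : ∀ w ∈ P, x * w = w * x) :
    ∃ g : G, g * x * g⁻¹ ∈ D.map H.subtype ∧
      ∀ w ∈ D.map H.subtype, (g * x * g⁻¹) * w = w * (g * x * g⁻¹) := by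
  classical
  have hp : p.Prime := Fact.out
  have hMp := isPrime_of_isPModular hM
  have hB := hind.2.1
  obtain ⟨y, hy, hsyl⟩ := isDefectGroup_iff.mp hP
  obtain ⟨χ, hχ⟩ := isPBlock_nonempty hMp hB
  have h1 := not_memLocalIdeal_centralChar_mul p hM B hB y hy P hsyl x hx hxc χ hχ
  obtain ⟨ξ, hξ⟩ := isPBlock_nonempty hMp hind.1
  have hi : ¬ MemLocalIdeal M (inducedCentralChar H (ξ : _ → ℂ) (x * y)) := by
    intro h
    apply h1
    have h2 := hind.2.2 ξ hξ χ hχ (x * y)
    have h3 := memLocalIdeal_sub hMp h h2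
    rwa [sub_sub_cancel] at h3
  obtain ⟨R, hR, hsum⟩ := Cfsg.Agent.Lib.Helper16.Induced.inducedCentralChar_eq_sum_reps H (x * y)
  have hcf : ∀ x k : H, (ξ : _ → ℂ) (k * x * k⁻¹) = (ξ : _ → ℂ) x := fun x k =>
    char_isClassFunction (isCharacter_of_irr ξ.2) x k
  rw [hsum _ hcf] at hi
  have hex : ∃ r ∈ R, ¬ MemLocalIdeal M (centralChar (ξ : _ → ℂ) r) := by
    by_contra hcon
    push Not at hcon
    exact hi (memLocalIdeal_sum hMp _ _ hcon)
  obtain ⟨r, hrR, hr⟩ := hex
  obtain ⟨r', hconj, -, hpp⟩ := exists_conj_centralizing p hM b hind.1 D hD r ⟨ξ, hξ, hr⟩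
  obtain ⟨z', hz'⟩ := exists_isPPart p hp r'
  obtain ⟨hz'D, hz'c⟩ := hpp z' hz'
  obtain ⟨t, ht⟩ := isConj_iff.mp (hR r hrR)
  obtain ⟨c, hc⟩ := isConj_iff.mp hconj
  have hxy : Commute x y := (mem_centralizer_singleton.mp (hsyl.1 hx)).symm
  have hyreg : ¬ p ∣ orderOf y := by
    intro h
    apply hy.2.1
    rw [Cfsg.Agent.Lib.Helper77.OsimaVanish.blockCoeff_eq_zero_of_singular p M hM B hB y h]
    exact memLocalIdeal_zero hMp
  obtain ⟨k, hk⟩ := hsyl.2.1 ⟨x, hx⟩
  have hxk : x ^ p ^ k = 1 := by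
    have h2 := congrArg Subtype.val hk
    rw [Subgroup.coe_pow] at h2
    exact h2
  obtain ⟨j, -, hj⟩ := (Nat.dvd_prime_pow hp).mp (orderOf_dvd_of_pow_eq_one hxk)
  have hpart : IsPPart p (x * y) x := ⟨y, rfl, hxy, ⟨j, hj⟩, hyreg⟩
  have hpart2 := isPPart_conj hpart ((c : G) * t)
  have hr' : (c : G) * t * (x * y) * ((c : G) * t)⁻¹ = (r' : G) := by
    rw [← hc, mul_inv_rev]
    have h3 : ((c * r * c⁻¹ : H) : G) = (c : G) * (r : G) * (c : G)⁻¹ := rfl
    rw [h3, ← ht]
    group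
  rw [hr'] at hpart2
  have hz := isPPart_unique hp hpart2 (isPPart_coe H r' z' hz')
  refine ⟨(c : G) * t, ?_, ?_⟩
  · rw [hz]
    exact Subgroup.mem_map.mpr ⟨z', hz'D, rfl⟩
  · intro w hw
    obtain ⟨w', hw', rfl⟩ := Subgroup.mem_map.mp hw
    rw [hz]
    exact congrArg Subtype.val (hz'c w' hw')

/-- If `b^G = B`, then `b` has defect zero iff `B` has defect zero. -/
theorem blockDefect_eq_zero_of_induced [Finite G] (p : ℕ) [Fact p.Prime] (hM : IsPModular p M)
    (H : Subgroup G) (b : Set (IrrCharacter H)) (B : Set (IrrCharacter G))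
    (hind : IsInducedBlock M H b B) : blockDefect p b = 0 ↔ blockDefect p B = 0 := by
  have hp : p.Prime := Fact.out
  constructor
  · intro h0
    obtain ⟨D, hD⟩ := exists_defectGroup hM b hind.1
    obtain ⟨P, hP⟩ := exists_defectGroup hM B hind.2.1
    have hcD := card_defectGroup p hM b hind.1 D hD
    have hcP := card_defectGroup p hM B hind.2.1 P hP
    rw [h0, pow_zero] at hcD
    by_contra hne
    obtain ⟨y, hy, hsyl⟩ := isDefectGroup_iff.mp hP
    have hPp : IsPGroup p P := hsyl.2.1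
    have hnt : Nontrivial P := by
      rw [← Finite.one_lt_card_iff_nontrivial, hcP]
      exact Nat.one_lt_pow hne hp.one_lt
    have hcn : Nontrivial (Subgroup.center P) := hPp.center_nontrivial
    obtain ⟨x, hx1⟩ := exists_ne (1 : Subgroup.center P)
    have hxc : ∀ w ∈ P, ((x : P) : G) * w = w * ((x : P) : G) := by
      intro w hw
      have h1 := Subgroup.mem_center_iff.mp x.2 ⟨w, hw⟩
      exact (congrArg Subtype.val h1).symm
    obtain ⟨g, hg, -⟩ := exists_conj_mem_center p hM H b B hind D hD P hP ((x : P) : G)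
      (x : P).2 hxc
    obtain ⟨d, hd, hdg⟩ := Subgroup.mem_map.mp hg
    have hD1 : D = ⊥ := Subgroup.card_eq_one.mp hcD
    rw [hD1, Subgroup.mem_bot] at hd
    rw [hd] at hdg
    have h2 : ((x : P) : G) = 1 := by
      have h3 : g * ((x : P) : G) * g⁻¹ = 1 := hdg.symm
      have h4 : ((x : P) : G) = g⁻¹ * (g * ((x : P) : G) * g⁻¹) * g := by group
      rw [h4, h3]
      group
    apply hx1
    exact Subtype.ext (Subtype.ext h2)
  · intro h0
    have h1 := blockDefect_le_of_induced p hM H b B hind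
    omega

end Cfsg.Agent.Lib.Helper16.CenterConj
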