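import Mathlib
import Cfsg.Agent.Lib.Helper41.OMStmt
import Cfsg.Agent.Lib.Helper38.OrtSINGERC
import Cfsg.Agent.Lib.Helper40.RecipPoly
import Cfsg.Agent.Lib.Helper75.OFCARDO
import Cfsg.Agent.Lib.Helper44.FinSq
import Cfsg.Agent.S2568

/-!
Piece MELTTOP of S5978 (helper16): the Singer element of order `r` for `orderOf q = 2 d`; its
invariant form has discriminant `(-1)^d ν μ²`.
-/

set_option autoImplicit false
set_option linter.unusedVariables false
set_option linter.style.haveILetI false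

namespace Cfsg.Agent.Lib.Helper16.OMMELTTOP

open Matrix Polynomial UniqueFactorizationMonoid
open Cfsg.Agent.Lib.Helper37.OrtStmt (OGrp)

universe u

/-- the element of order `r` in the Singer cycle has irreducible characteristic polynomial
(first part of `Helper38.OFELTEVEN1.aux`) -/
theorem aux_irr {F : Type u} [Field F] [Fintype F] (p : ℕ) [Fact p.Prime] [CharP F p] (r : ℕ)
    [Fact r.Prime] (hrp : r ≠ p) (i : ℕ) (hi : i = orderOf ((Fintype.card F : ℕ) : ZMod r))
    (hi2 : 2 ≤ i) (hidvd : i ∣ r - 1) (c : GL (Fin i) F)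
    (N : Matrix (Fin i) (Fin i) F)
    (hord : orderOf c = r ^ padicValNat r (Fintype.card F ^ i - 1))
    (hiso : (c : Matrix (Fin i) (Fin i) F)ᵀ * N * (c : Matrix (Fin i) (Fin i) F) = N) :
    r ∣ orderOf c ∧ ∃ M : Matrix (Fin i) (Fin i) F, M ^ r = 1 ∧ M ≠ 1 ∧ Mᵀ * N * M = N ∧
      Irreducible M.charpoly := by
  classical
  have hr : r.Prime := Fact.out
  have hp : p.Prime := Fact.out
  obtain ⟨a, ha⟩ : ∃ a, a = padicValNat r (Fintype.card F ^ i - 1) := ⟨_, rfl⟩
  rw [← ha] at hord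
  have hq2 : 2 ≤ Fintype.card F := Fintype.one_lt_card
  have hqi : 2 ≤ Fintype.card F ^ i :=
    le_trans hq2 (Nat.le_self_pow (by omega) _)
  have hrdvd : r ∣ Fintype.card F ^ i - 1 := by
    rw [← ZMod.natCast_eq_zero_iff, Nat.cast_sub (by omega), Nat.cast_pow, Nat.cast_one, hi,
      pow_orderOf_eq_one, sub_self]
  have ha1 : 1 ≤ a := by
    rw [ha]
    exact one_le_padicValNat_of_dvd (by omega) hrdvd
  refine ⟨by rw [hord]; exact dvd_pow_self r (by omega), ?_⟩
  -- the element of order `r`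
  obtain ⟨c₁, hc₁⟩ : ∃ c₁ : GL (Fin i) F, c₁ = c ^ (r ^ (a - 1)) := ⟨_, rfl⟩
  have hc₁r : c₁ ^ r = 1 := by
    rw [hc₁, ← pow_mul, ← pow_succ, Nat.sub_add_cancel ha1, ← hord, pow_orderOf_eq_one]
  have hc₁1 : c₁ ≠ 1 := by
    intro h
    rw [hc₁] at h
    have h3 := orderOf_dvd_of_pow_eq_one h
    rw [hord] at h3
    have h4 := (Nat.pow_dvd_pow_iff_le_right hr.one_lt).mp h3
    omega
  have hisopow : ∀ n : ℕ, ((c : Matrix (Fin i) (Fin i) F) ^ n)ᵀ * N
      * (c : Matrix (Fin i) (Fin i) F) ^ n = N := by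
    intro n
    induction n with
    | zero => simp
    | succ n ih =>
      rw [pow_succ, Matrix.transpose_mul]
      calc (c : Matrix (Fin i) (Fin i) F)ᵀ * ((c : Matrix (Fin i) (Fin i) F) ^ n)ᵀ * N
            * ((c : Matrix (Fin i) (Fin i) F) ^ n * (c : Matrix (Fin i) (Fin i) F))
          = (c : Matrix (Fin i) (Fin i) F)ᵀ * (((c : Matrix (Fin i) (Fin i) F) ^ n)ᵀ * N
            * (c : Matrix (Fin i) (Fin i) F) ^ n) * (c : Matrix (Fin i) (Fin i) F) := by
            simp only [Matrix.mul_assoc]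
        _ = N := by rw [ih, hiso]
  obtain ⟨M, hM⟩ : ∃ M : Matrix (Fin i) (Fin i) F, M = (c₁ : Matrix (Fin i) (Fin i) F) :=
    ⟨_, rfl⟩
  have hMr : M ^ r = 1 := by
    rw [hM, ← Units.val_pow_eq_pow_val, hc₁r]
    rfl
  have hM1 : M ≠ 1 := by
    intro h
    apply hc₁1
    apply Units.ext
    rw [← hM, h]
    rfl
  have hMiso : Mᵀ * N * M = N := by
    rw [hM, hc₁, Units.val_pow_eq_pow_val]
    exact hisopow _
  -- the characteristic polynomial
  have hr0 : (r : F) ≠ 0 := by
    rw [Ne, CharP.cast_eq_zero_iff F p]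
    intro h
    exact hrp ((Nat.prime_dvd_prime_iff_eq hp hr).mp h).symm
  obtain ⟨t, ht⟩ := hidvd
  obtain ⟨S, -, -, hSS, hall⟩ := Cfsg.Agent.S2568.cyclo_facts (F := F) (p := p) r i t hr hrp hi
    (by rw [ht, mul_comm])
  have hχm : M.charpoly.Monic := Matrix.charpoly_monic M
  have hχd : M.charpoly.natDegree = i := by
    rw [Matrix.charpoly_natDegree_eq_dim, Fintype.card_fin]
  have hχ0 : M.charpoly ≠ 0 := hχm.ne_zero
  have hann : aeval M (X ^ r - C (1 : F)) = 0 := by
    rw [map_sub, map_pow, aeval_X, aeval_C, map_one, hMr, sub_self]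
  have hfac : ∀ P ∈ normalizedFactors M.charpoly, P = X - C 1 ∨ P = M.charpoly := by
    intro P hP
    have hirr : Irreducible P := irreducible_of_normalized_factor P hP
    have hmon : P.Monic := by
      have h3 := normalize_normalized_factor P hP
      rw [← h3]
      exact monic_normalize hirr.ne_zero
    have hdvd : P ∣ X ^ r - C (1 : F) :=
      Cfsg.Agent.Lib.Helper40.RecipPoly.dvd_of_mem_nf_charpoly' M _ hann P hP
    rcases (hall P hirr hmon).mp hdvd with h | h
    · exact Or.inl h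
    · right
      have hdeg : P.natDegree = i := (hSS P h).2.2
      exact (Polynomial.eq_of_monic_of_dvd_of_natDegree_le hmon hχm
        (dvd_of_mem_normalizedFactors hP) (by rw [hχd, hdeg])).symm
  have hirrχ : Irreducible M.charpoly := by
    by_cases hex : ∃ P ∈ normalizedFactors M.charpoly, P = M.charpoly
    · obtain ⟨P, hP, hPe⟩ := hex
      rw [← hPe]
      exact irreducible_of_normalized_factor P hP
    · exfalso
      push Not at hex
      have hall1 : ∀ P ∈ normalizedFactors M.charpoly, P = X - C 1 := fun P hP =>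
        (hfac P hP).resolve_right (hex P hP)
      have hχeq : M.charpoly = (X - C (1 : F)) ^ (Multiset.card (normalizedFactors M.charpoly)) := by
        have h3 := prod_normalizedFactors_eq hχ0
        rw [hχm.normalize_eq_self, Multiset.eq_replicate_of_mem hall1,
          Multiset.prod_replicate] at h3
        exact h3.symm
      obtain ⟨k, hk⟩ : ∃ k, k = Multiset.card (normalizedFactors M.charpoly) := ⟨_, rfl⟩
      rw [← hk] at hχeq
      have hΦmul : cyclotomic r F * (X - C 1) = X ^ r - C 1 := by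
        rw [C_1]
        exact cyclotomic_prime_mul_X_sub_one F r
      have hcop : IsCoprime (X - C (1 : F)) (cyclotomic r F) := by
        rw [(irreducible_X_sub_C (1 : F)).coprime_iff_not_dvd, dvd_iff_isRoot, IsRoot,
          eval_one_cyclotomic_prime]
        exact hr0
      obtain ⟨a', b', hab⟩ := (hcop.pow_left (m := k)).symm
      -- a' * Φ + b' * (X - 1)^k = 1
      have hpoly : (X - C (1 : F)) = a' * (X ^ r - C 1) + b' * (X - C 1) * M.charpoly := by
        rw [← hΦmul, hχeq]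
        linear_combination (-(X - C (1 : F))) * hab
      have h5 := congrArg (aeval M) hpoly
      rw [map_add, map_mul, hann, mul_zero, zero_add, map_mul, Matrix.aeval_self_charpoly,
        mul_zero, map_sub, aeval_X, aeval_C, map_one, sub_eq_zero] at h5
      exact hM1 h5
  exact ⟨M, hMr, hM1, hMiso, hirrχ⟩

theorem top {F : Type u} [Field F] [Fintype F] (p : ℕ) [Fact p.Prime] [CharP F p]
    (h2F : (2 : F) ≠ 0) (d : ℕ) (hd : 1 ≤ d) (ν : F) (hν : ¬ IsSquare ν) (r : ℕ) [Fact r.Prime]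
    (hr2 : r ≠ 2) (hrp : r ≠ p) (i : ℕ)
    (hi : i = orderOf ((Fintype.card F : ℕ) : ZMod r)) (hid : i = 2 * d) (hidvd : i ∣ r - 1)
    (c : GL (Fin i) F) (N : Matrix (Fin i) (Fin i) F)
    (hord : orderOf c = r ^ padicValNat r (Fintype.card F ^ i - 1)) (hN : Nᵀ = N)
    (hNd : N.det ≠ 0)
    (hiso : (c : Matrix (Fin i) (Fin i) F)ᵀ * N * (c : Matrix (Fin i) (Fin i) F) = N) :
    ∃ (x₁ S₁ : Matrix (Fin (2 * d)) (Fin (2 * d)) F) (P R : F[X]) (μ : F),
      S₁ᵀ = S₁ ∧ μ ≠ 0 ∧ S₁.det = (-1) ^ d * ν * μ ^ 2 ∧ x₁ᵀ * S₁ * x₁ = S₁ ∧ x₁ ^ r = 1 ∧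
      (∀ z : F, x₁ ≠ z • 1) ∧ Irreducible P ∧ P.Monic ∧ x₁.charpoly = P * R ∧ ¬ P ∣ R := by
  classical
  subst hid
  have hr : r.Prime := Fact.out
  have hp : p.Prime := Fact.out
  obtain ⟨hrc, M, hMr, hM1, hMiso, hirr⟩ :=
    aux_irr p r hrp (2 * d) hi (by omega) hidvd c N hord hiso
  have hm1 : ((-1 : F) ^ d) * ((-1) ^ d) = 1 := by
    rw [← mul_pow]
    norm_num
  -- the square class of the discriminant
  have hnsq : ¬ IsSquare ((-1 : F) ^ d * N.det) := by
    rintro ⟨μ, hμ⟩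
    have hdet : N.det = (-1) ^ (2 * d / 2) * μ ^ 2 := by
      rw [Nat.mul_div_cancel_left d (by norm_num : 0 < 2)]
      calc N.det = ((-1 : F) ^ d * (-1) ^ d) * N.det := by rw [hm1, one_mul]
        _ = (-1) ^ d * ((-1) ^ d * N.det) := by ring
        _ = (-1) ^ d * μ ^ 2 := by rw [hμ]; ring
    have hcard := (Cfsg.Agent.Lib.Helper75.OFCARDO.main h2F (2 * d) (by omega) N hN hNd).2
      (even_two_mul d) ⟨μ, hdet⟩
    rw [Nat.mul_div_cancel_left d (by norm_num : 0 < 2)] at hcard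
    have hcmem : c ∈ OGrp N := hiso
    have hdvd : r ∣ Nat.card ↥(OGrp N) := by
      have h1 : orderOf (⟨c, hcmem⟩ : ↥(OGrp N)) = orderOf c := Subgroup.orderOf_mk c hcmem
      have h2 := orderOf_dvd_natCard (⟨c, hcmem⟩ : ↥(OGrp N))
      rw [h1] at h2
      exact hrc.trans h2
    rw [hcard] at hdvd
    have hq1 : ∀ k : ℕ, 1 ≤ Fintype.card F ^ k := fun k => Nat.one_le_pow _ _ Fintype.card_pos
    have hkey : ∀ k : ℕ, r ∣ Fintype.card F ^ k - 1 → 2 * d ∣ k := by
      intro k hk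
      rw [hi]
      apply orderOf_dvd_of_pow_eq_one
      have h3 := (ZMod.natCast_eq_zero_iff _ r).mpr hk
      rw [Nat.cast_sub (hq1 k), Nat.cast_pow, Nat.cast_one, sub_eq_zero] at h3
      exact h3
    rcases (Nat.Prime.dvd_mul hr).mp hdvd with h3 | h3
    · rcases (Nat.Prime.dvd_mul hr).mp h3 with h4 | h4
      · rcases (Nat.Prime.dvd_mul hr).mp h4 with h5 | h5
        · exact hr2 ((Nat.prime_dvd_prime_iff_eq hr Nat.prime_two).mp h5)
        · have h6 := hr.dvd_of_dvd_pow h5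
          obtain ⟨f, -, hf⟩ := FiniteField.card F p
          rw [hf] at h6
          exact hrp ((Nat.prime_dvd_prime_iff_eq hr hp).mp (hr.dvd_of_dvd_pow h6))
      · have h5 := hkey d h4
        have h6 := Nat.le_of_dvd (by omega) h5
        omega
    · obtain ⟨j, hj, hjd⟩ := (Prime.dvd_finset_prod_iff (Nat.Prime.prime hr) _).mp h3
      have h4 := hkey _ hjd
      have h5 := Nat.le_of_dvd (by omega) h4
      have h6 := Finset.mem_range.mp hj
      omega
  obtain ⟨s, hs⟩ := Cfsg.Agent.Lib.Helper44.FinSq.isSquare_mul_of_not_of_not hnsq hν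
  have hν0 : ν ≠ 0 := by
    rintro rfl
    exact hν ⟨0, by simp⟩
  have hs0 : s ≠ 0 := by
    rintro rfl
    rw [mul_zero] at hs
    have h1 : (-1 : F) ^ d * N.det ≠ 0 :=
      mul_ne_zero (pow_ne_zero _ (neg_ne_zero.mpr one_ne_zero)) hNd
    exact (mul_ne_zero h1 hν0) hs
  have hdet : N.det = (-1) ^ d * ν * (s / ν) ^ 2 := by
    have h2 : (-1 : F) ^ d * N.det = s * s / ν := by
      rw [← hs]
      exact (mul_div_cancel_right₀ _ hν0).symm
    have h3 : ν * (s / ν) ^ 2 = s * s / ν := by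
      field_simp
    calc N.det = ((-1 : F) ^ d * (-1) ^ d) * N.det := by rw [hm1, one_mul]
      _ = (-1) ^ d * ((-1) ^ d * N.det) := by ring
      _ = (-1) ^ d * (s * s / ν) := by rw [h2]
      _ = (-1) ^ d * ν * (s / ν) ^ 2 := by rw [mul_assoc, h3]
  have hχd : M.charpoly.natDegree = 2 * d := by
    rw [Matrix.charpoly_natDegree_eq_dim, Fintype.card_fin]
  have hns : ∀ z : F, M ≠ z • 1 := by
    intro z hz
    have hann : aeval M (X - C z) = 0 := by
      rw [map_sub, aeval_X, aeval_C, Algebra.algebraMap_eq_smul_one]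
      exact sub_eq_zero.mpr hz
    have hmem : M.charpoly ∈ normalizedFactors M.charpoly := by
      rw [normalizedFactors_irreducible hirr, (Matrix.charpoly_monic M).normalize_eq_self]
      exact Multiset.mem_singleton_self _
    have hdvd := Cfsg.Agent.Lib.Helper40.RecipPoly.dvd_of_mem_nf_charpoly' M _ hann _ hmem
    have h2 := Polynomial.natDegree_le_of_dvd hdvd (X_sub_C_ne_zero z)
    rw [natDegree_X_sub_C, hχd] at h2
    omega
  refine ⟨M, N, M.charpoly, 1, s / ν, hN, div_ne_zero hs0 hν0, hdet, hMiso, hMr, hns, hirr,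
    Matrix.charpoly_monic M, (mul_one _).symm, ?_⟩
  intro hdvd
  exact hirr.not_isUnit (isUnit_of_dvd_one hdvd)

theorem main : Cfsg.Agent.Lib.Helper41.OMStmt.MEltTop.{u} := by
  intro F _ _ p _ _ q hq h2F d hd ν hν r _ hr2 hrp hi
  classical
  subst hq
  have hr : r.Prime := Fact.out
  have hp : p.Prime := Fact.out
  obtain ⟨f, -, hf⟩ := FiniteField.card F p
  have hq0 : ((Fintype.card F : ℕ) : ZMod r) ≠ 0 := by
    rw [Ne, ZMod.natCast_eq_zero_iff, hf]
    intro h
    exact hrp ((Nat.prime_dvd_prime_iff_eq hr hp).mp (hr.dvd_of_dvd_pow h))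
  have hpow1 : ((Fintype.card F : ℕ) : ZMod r) ^ (r - 1) = 1 := ZMod.pow_card_sub_one_eq_one hq0
  have hidvd : orderOf ((Fintype.card F : ℕ) : ZMod r) ∣ r - 1 := orderOf_dvd_of_pow_eq_one hpow1
  have hi2 : 2 ≤ orderOf ((Fintype.card F : ℕ) : ZMod r) := by
    rw [← hi]
    omega
  have hev : Even (orderOf ((Fintype.card F : ℕ) : ZMod r)) := by
    rw [← hi]
    exact even_two_mul d
  obtain ⟨c, N, hord, hN, hNd, hiso⟩ :=
    Cfsg.Agent.Lib.Helper38.OrtSINGERC.main F p r h2F hr2 hrp hi2 hev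
  exact top p h2F d hd ν hν r hr2 hrp _ rfl hi.symm hidvd c N hord hN hNd hiso

end Cfsg.Agent.Lib.Helper16.OMMELTTOP
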