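import Mathlib
import Cfsg.Agent.Lib.Helper94.OPStmt
import Cfsg.Agent.Lib.Helper50.OFOBR
import Cfsg.Agent.Lib.Helper8.OFSQOM
import Cfsg.Agent.Lib.Helper44.FinSq

/-!
Piece NEGSQEX of S5989 (helper16, second seat): an element `x` of `Ω⁺` with `x * x = -1`
when `d` is even or `q ≡ 1 (mod 8)`.  `x = h * h` for an isometry `h` with `h ^ 4 = -1`.
-/

set_option autoImplicit false
set_option linter.unusedVariables false
set_option linter.style.haveILetI false

namespace Cfsg.Agent.Lib.Helper16.OPNEGSQEX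

open Matrix
open Cfsg.Agent.Lib.Helper94.OPStmt
open Cfsg.Agent.Lib.Helper41.OFStmt (S0)

universe u

theorem from_h {F : Type u} [Field F] [Fintype F] (h2 : (2 : F) ≠ 0) (d : ℕ) (hd : 1 ≤ d)
    (h : Matrix (P d) (P d) F) (hiso : hᵀ * S0 d F * h = S0 d F)
    (h4 : h * h * (h * h) = -1) :
    ∃ x : Matrix.GeneralLinearGroup (P d) F, x ∈ Cfsg.Geo.omegaGL (Cfsg.quadFormPlus d F) ∧
      (x : Matrix (P d) (P d) F) * (x : Matrix (P d) (P d) F) = -1 := by
  have h4' : h * (h * (h * h)) = -1 := by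
    rw [← h4]
    simp only [Matrix.mul_assoc]
  have hv : h * (-(h * h * h)) = 1 := by
    rw [Matrix.mul_neg]
    simp only [Matrix.mul_assoc]
    rw [h4', neg_neg]
  have hv' : (-(h * h * h)) * h = 1 := by
    rw [Matrix.neg_mul]
    simp only [Matrix.mul_assoc]
    rw [h4', neg_neg]
  obtain ⟨U, hU⟩ : ∃ U : Matrix.GeneralLinearGroup (P d) F,
      (U : Matrix (P d) (P d) F) = h := ⟨⟨h, -(h * h * h), hv, hv'⟩, rfl⟩
  have hUiso : U ∈ Cfsg.isometryGroup F (Cfsg.quadFormPlus d F) :=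
    (Cfsg.Agent.Lib.Helper50.OFOBR.main h2 d U).mpr (by rw [hU]; exact hiso)
  refine ⟨U * U, Cfsg.Agent.Lib.Helper8.OFSQOM.main h2 d hd U hUiso, ?_⟩
  rw [Units.val_mul, hU]
  exact h4

theorem anti {F : Type u} [Field F] (h2 : (2 : F) ≠ 0) (d : ℕ)
    (J : Matrix (Fin d) (Fin d) F) (hJ : J * J = -1) (hJt : Jᵀ = -J) :
    ∃ h : Matrix (P d) (P d) F, hᵀ * S0 d F * h = S0 d F ∧ h * h * (h * h) = -1 := by
  have e1 : (1 + -J) * (1 + J) = (2 : F) • (1 : Matrix (Fin d) (Fin d) F) := by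
    have e : (1 + -J) * (1 + J) = 1 - J * J := by noncomm_ring
    rw [e, hJ, sub_neg_eq_add, two_smul]
  have e2 : (1 + J) * (1 + J) = (2 : F) • J := by
    have e : (1 + J) * (1 + J) = 1 + J * J + (J + J) := by noncomm_ring
    rw [e, hJ, two_smul]
    abel
  have hBA : ((2 : F)⁻¹ • (1 + J))ᵀ * (1 + J) = 1 := by
    rw [Matrix.transpose_smul, Matrix.transpose_add, Matrix.transpose_one, hJt,
      Matrix.smul_mul, e1, smul_smul, inv_mul_cancel₀ h2, one_smul]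
  have hAB' : (1 + J)ᵀ * ((2 : F)⁻¹ • (1 + J)) = 1 := by
    have h := congrArg Matrix.transpose hBA
    rw [Matrix.transpose_mul, Matrix.transpose_transpose, Matrix.transpose_one] at h
    exact h
  have hAB : (1 + J) * ((2 : F)⁻¹ • (1 + J)) = J := by
    rw [Matrix.mul_smul, e2, smul_smul, inv_mul_cancel₀ h2, one_smul]
  have hBA' : ((2 : F)⁻¹ • (1 + J)) * (1 + J) = J := by
    rw [Matrix.smul_mul, e2, smul_smul, inv_mul_cancel₀ h2, one_smul]
  refine ⟨Matrix.fromBlocks 0 (1 + J) ((2 : F)⁻¹ • (1 + J)) 0, ?_, ?_⟩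
  · unfold S0
    rw [Matrix.fromBlocks_transpose, Matrix.fromBlocks_multiply, Matrix.fromBlocks_multiply]
    simp only [Matrix.transpose_zero, Matrix.zero_mul, Matrix.mul_zero, Matrix.mul_one,
      zero_add, add_zero]
    rw [hBA, hAB']
  · rw [Matrix.fromBlocks_multiply]
    simp only [Matrix.zero_mul, Matrix.mul_zero, zero_add, add_zero]
    rw [hAB, hBA', Matrix.fromBlocks_multiply]
    simp only [Matrix.zero_mul, Matrix.mul_zero, zero_add, add_zero]
    rw [hJ, ← Matrix.fromBlocks_one, Matrix.fromBlocks_neg, neg_zero]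

theorem diag {F : Type u} [Field F] (d : ℕ) (w : F) (hw0 : w ≠ 0)
    (hw : w * w * (w * w) = -1) :
    ∃ h : Matrix (P d) (P d) F, hᵀ * S0 d F * h = S0 d F ∧ h * h * (h * h) = -1 := by
  have hC : ∀ a b : F, (a • (1 : Matrix (Fin d) (Fin d) F)) * (b • (1 : Matrix (Fin d) (Fin d) F))
      = (a * b) • (1 : Matrix (Fin d) (Fin d) F) := by
    intro a b
    rw [Matrix.smul_mul, Matrix.one_mul, smul_smul]
  have hmul : ∀ a b a' b' : F,
      (Matrix.fromBlocks (a • (1 : Matrix (Fin d) (Fin d) F)) 0 0 (b • 1) : Matrix (P d) (P d) F)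
        * Matrix.fromBlocks (a' • 1) 0 0 (b' • 1)
        = Matrix.fromBlocks ((a * a') • 1) 0 0 ((b * b') • 1) := by
    intro a b a' b'
    rw [Matrix.fromBlocks_multiply]
    simp only [Matrix.zero_mul, Matrix.mul_zero, add_zero, zero_add, hC]
  have hw' : w⁻¹ * w⁻¹ * (w⁻¹ * w⁻¹) = -1 := by
    have h : w⁻¹ * w⁻¹ * (w⁻¹ * w⁻¹) = (w * w * (w * w))⁻¹ := by
      field_simp
    rw [h, hw]
    norm_num
  refine ⟨Matrix.fromBlocks (w • 1) 0 0 (w⁻¹ • 1), ?_, ?_⟩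
  · unfold S0
    rw [Matrix.fromBlocks_transpose, Matrix.fromBlocks_multiply, Matrix.fromBlocks_multiply]
    simp only [Matrix.transpose_zero, Matrix.transpose_smul, Matrix.transpose_one,
      Matrix.zero_mul, Matrix.mul_zero, Matrix.mul_one, zero_add, add_zero, hC]
    rw [mul_inv_cancel₀ hw0, inv_mul_cancel₀ hw0, one_smul]
  · rw [hmul, hmul, hw, hw', neg_one_smul, ← Matrix.fromBlocks_one, Matrix.fromBlocks_neg,
      neg_zero]

theorem exists_J {F : Type u} [Field F] (k : ℕ) :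
    ∃ J : Matrix (Fin (k + k)) (Fin (k + k)) F, J * J = -1 ∧ Jᵀ = -J := by
  obtain ⟨E, hEt⟩ : ∃ E : Matrix (Fin k ⊕ Fin k) (Fin k ⊕ Fin k) F ≃ₐ[F]
      Matrix (Fin (k + k)) (Fin (k + k)) F, ∀ M, (E M)ᵀ = E Mᵀ := by
    refine ⟨Matrix.reindexAlgEquiv F F finSumFinEquiv, ?_⟩
    intro M
    show (Matrix.reindex finSumFinEquiv finSumFinEquiv M)ᵀ
      = Matrix.reindex finSumFinEquiv finSumFinEquiv Mᵀ
    rw [Matrix.transpose_reindex]
  have h1 : (Matrix.fromBlocks 0 (-1) 1 0 : Matrix (Fin k ⊕ Fin k) (Fin k ⊕ Fin k) F)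
      * Matrix.fromBlocks 0 (-1) 1 0 = -1 := by
    rw [Matrix.fromBlocks_multiply]
    simp only [Matrix.zero_mul, Matrix.mul_zero, Matrix.mul_one, Matrix.one_mul, add_zero,
      zero_add]
    rw [← Matrix.fromBlocks_one, Matrix.fromBlocks_neg, neg_zero]
  have h2 : (Matrix.fromBlocks 0 (-1) 1 0 : Matrix (Fin k ⊕ Fin k) (Fin k ⊕ Fin k) F)ᵀ
      = -Matrix.fromBlocks 0 (-1) 1 0 := by
    rw [Matrix.fromBlocks_transpose, Matrix.fromBlocks_neg]
    simp only [Matrix.transpose_zero, Matrix.transpose_one, Matrix.transpose_neg, neg_zero,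
      neg_neg]
  refine ⟨E (Matrix.fromBlocks 0 (-1) 1 0), ?_, ?_⟩
  · rw [← map_mul, h1, map_neg, map_one]
  · rw [hEt, h2, map_neg]

theorem exists_w {F : Type u} [Field F] [Fintype F] (hodd : Odd (Fintype.card F))
    (h8 : Fintype.card F % 8 = 1) : ∃ w : F, w ≠ 0 ∧ w * w * (w * w) = -1 := by
  have hF : ringChar F ≠ 2 := Cfsg.Agent.Lib.Helper44.FinSq.ringChar_ne_two_of_odd_card hodd
  have h4 : Fintype.card F % 4 ≠ 3 := by omega
  obtain ⟨i, hi⟩ := FiniteField.isSquare_neg_one_iff.mpr h4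
  have hi0 : i ≠ 0 := by
    rintro rfl
    simp at hi
  have hsq : IsSquare i := by
    rw [FiniteField.isSquare_iff hF hi0]
    obtain ⟨t, ht⟩ : ∃ t, Fintype.card F / 2 = 4 * t := ⟨Fintype.card F / 8, by omega⟩
    rw [ht, pow_mul]
    have h : i ^ 4 = 1 := by
      calc i ^ 4 = (i * i) * (i * i) := by ring
        _ = 1 := by rw [← hi]; ring
    rw [h, one_pow]
  obtain ⟨w, hw⟩ := hsq
  refine ⟨w, ?_, ?_⟩
  · rintro rfl
    apply hi0
    rw [hw]
    ring
  · rw [← hw, ← hi]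

theorem main : NegSqEx.{u} := by
  intro F _ _ hodd d hd hcase
  have h2 : (2 : F) ≠ 0 := Cfsg.Agent.Lib.Helper44.FinSq.two_ne_zero_of_odd_card hodd
  rcases hcase with hev | h8
  · obtain ⟨k, rfl⟩ := hev
    obtain ⟨J, hJ, hJt⟩ := exists_J (F := F) k
    obtain ⟨h, hiso, h4⟩ := anti h2 (k + k) J hJ hJt
    exact from_h h2 (k + k) (by omega) h hiso h4
  · obtain ⟨w, hw0, hw⟩ := exists_w hodd h8
    obtain ⟨h, hiso, h4⟩ := diag d w hw0 hw
    exact from_h h2 d (by omega) h hiso h4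

end Cfsg.Agent.Lib.Helper16.OPNEGSQEX
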