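import Mathlib
import Cfsg.Agent.Lib.Helper16.P2pStmt
import Cfsg.Agent.Lib.Helper16.BGInvol
import Cfsg.Agent.Lib.Helper17.ExcCor
import Cfsg.Agent.Lib.Helper56.SmallSolvable
import Cfsg.Agent.Lib.CT.Kernel
import Cfsg.Agent.Lib.CT.Wedderburn
import Cfsg.Agent.S0494

/-!
# Primitive groups of degree `2p` with `|N_G(P)| = 2p` (S4707): assembly from the pieces
-/

set_option autoImplicit false

namespace Cfsg.Agent.Lib.Helper16.P2pCore

open Cfsg Subgroup MulAction
open Cfsg.Agent.Lib.Helper17.ExcMain Cfsg.Agent.Lib.Helper16.P2pStmt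
open scoped ComplexConjugate

universe u

theorem s4707_of_pieces (hExc : Exc.{u}) (hTwoTr : TwoTr.{u, u}) (hDeg : Deg.{u, u})
    (hCube : Cube.{u}) (hRat : P2pStmt.Rat.{u}) (hIntV : IntV.{u}) (hCnt : Cnt.{u}) (hMom : Mom.{u})
    (hXCard : XCard.{u}) (hPre1 : Pre1.{u}) (hPre2 : Pre2.{u}) (hPre3 : Pre3.{u})
    (hPre4 : Pre4.{u}) (hNoSub : NoSub.{u})
    {α : Type u} [Fintype α] [DecidableEq α] {p : ℕ} [Fact p.Prime] (hp : 3 < p)
    (hα : Fintype.card α = 2 * p) (G : Subgroup (Equiv.Perm α))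
    (hprim : MulAction.IsPreprimitive G α) (hnot2 : ¬ MulAction.IsMultiplyPretransitive G α 2)
    (P : Sylow p G)
    (hN : Nat.card (Subgroup.normalizer ((P : Subgroup G) : Set G)) = 2 * p) :
    p = 5 ∧ Nonempty (G ≃* alternatingGroup (Fin 5)) := by
  classical
  have hpp : p.Prime := Fact.out
  have hp5 : 5 ≤ p := by
    rcases Nat.lt_or_ge p 5 with h | h
    · exfalso
      have h4 : p = 4 := by omega
      rw [h4] at hpp
      norm_num at hpp
    · exact h
  obtain ⟨hPc, hnn, hker⟩ := hPre1 α p hp hα G hprim P hN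
  have hfpf := hPre2 α p hp hα G hprim hnot2 P hPc
  have hC := hPre3 G p (by omega) P hPc hN hker
  have hperf := hPre4 G p (by omega) P hPc hN hnn hker
  haveI : Fintype G := Fintype.ofFinite G
  haveI : Finite (IrrCharacter G) := Cfsg.Agent.Lib.CT.Wedderburn.finite_irrCharacter G
  haveI : Fintype (IrrCharacter G) := Fintype.ofFinite _
  have hN' : Nat.card (normalizer ((P : Subgroup G) : Set G)) = p * 2 := by rw [hN, mul_comm]
  obtain ⟨n, ε, δ, θ, χ, i₀, hE⟩ := hExc G (P : Subgroup G) p hpp hPc (le_of_eq hC) hN' hp5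
  have htrans : IsPretransitive G α := hprim.toIsPretransitive
  have hX : Nat.card α = 2 * p := by rw [Nat.card_eq_fintype_card, hα]
  have hne2 : ∑ g : G, Nat.card (fixedBy α g) ^ 2 ≠ 2 * Nat.card G :=
    fun h => hnot2 (hTwoTr G α htrans h)
  obtain ⟨rfl, rfl, hdχ, hdθ⟩ :=
    hDeg G α hperf (P : Subgroup G) p hpp hp5 hPc hX htrans hfpf hne2 n ε δ θ χ i₀ hE
  -- `χ = -1` on `P ∖ 1`
  have hχy : ∀ y : G, y ∈ (P : Subgroup G) → y ≠ 1 → (χ : G → ℂ) y = -1 := by
    intro y hy hy1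
    obtain ⟨-, -, -, -, -, hχT, hθχ, -, -, -, -, -, hform⟩ := hE
    have h1 := hform y hy hy1 (fun ψ => if ψ = χ then 1 else 0)
      (fun i j => by rw [if_neg (hθχ i), if_neg (hθχ j)])
    rw [Finset.sum_eq_single χ (fun ψ _ hψ => by rw [if_neg hψ, zero_mul])
      (fun h => absurd (Finset.mem_univ _) h), if_pos rfl, one_mul, if_neg (Ne.symm hχT),
      if_neg (hθχ i₀)] at h1
    have h2 : conj ((χ : G → ℂ) y) = -1 := by
      rw [h1]; push_cast; ring
    have h3 := congrArg conj h2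
    rw [Complex.conj_conj] at h3
    rw [h3]; simp
  have hχ1 : (χ : G → ℂ) 1 = ((p - 1 : ℕ) : ℂ) := by
    rw [Cfsg.Agent.Lib.Helper17.ExcCor.deg_eq χ, hdχ]
  -- `χ` is faithful
  have hfaith : ∀ g : G, (χ : G → ℂ) g = (χ : G → ℂ) 1 → g = 1 := by
    obtain ⟨K, hKn, hK⟩ := Cfsg.Agent.Lib.CT.Kernel.exists_normal_ker
      (Cfsg.Agent.Lib.CT.Wedderburn.isCharacter_of_irr χ.2)
    by_cases hKb : K = ⊥
    · intro g hg
      have : g ∈ K := (hK g).2 hg
      rw [hKb, Subgroup.mem_bot] at this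
      exact this
    · exfalso
      have hPK := hker K hKn hKb
      have hPne : (P : Subgroup G) ≠ ⊥ := by
        rw [← Subgroup.one_lt_card_iff_ne_bot, hPc]; omega
      obtain ⟨y, hy, hy1⟩ : ∃ y : G, y ∈ (P : Subgroup G) ∧ y ≠ 1 := by
        obtain ⟨y, hy⟩ := (Subgroup.ne_bot_iff_exists_ne_one).1 hPne
        exact ⟨(y : G), y.2, fun h => hy (Subtype.ext h)⟩
      have h1 := (hK y).1 (hPK hy)
      rw [hχy y hy hy1, hχ1] at h1
      have h2 : ((p - 1 : ℕ) : ℂ) = ((p : ℂ) - 1) := by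
        rw [Nat.cast_sub (by omega)]; simp
      rw [h2] at h1
      have h3 : (p : ℂ) = 0 := by linear_combination -h1
      have h4 : p = 0 := by exact_mod_cast h3
      omega
  have hGc := hXCard hCube hIntV hRat hCnt hMom G (P : Subgroup G) p hpp hp5 hPc hN' n θ χ i₀
    hE hdχ hdθ hfaith
  by_cases h5 : p = 5
  · refine ⟨h5, ?_⟩
    have h60 : Nat.card G = 60 := by rw [hGc, h5]
    have hns : ¬ Group.IsSolvable G := by
      intro hs
      have hnt : Nontrivial G := by
        rw [← Finite.one_lt_card_iff_nontrivial, h60]; norm_num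
      have := Group.IsSolvable.commutator_lt_top_of_nontrivial G
      rw [hperf] at this
      exact lt_irrefl _ this
    haveI := Cfsg.Agent.Lib.Helper56.SmallSolvable.isSimpleGroup_of_card_60 h60 hns
    exact Cfsg.Agent.S0494.result h60
  · exfalso
    have hp7 : 7 ≤ p := by
      rcases Nat.lt_or_ge p 7 with h | h
      · have h6 : p = 6 := by omega
        rw [h6] at hpp
        norm_num at hpp
      · exact h
    obtain ⟨w, hw, hcw, hconj⟩ :=
      Cfsg.Agent.Lib.Helper16.BGInvol.exists_invol hperf p hp7 P hPc hC hN' hGc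
    have hne : Nonempty α := by
      rw [← Fintype.card_pos_iff, hα]; omega
    obtain ⟨a⟩ := hne
    have hidx : (stabilizer G a).index = 2 * p := by
      rw [MulAction.index_stabilizer_of_transitive G a, hX]
    exact hNoSub G p hpp hp7 hGc w hw hcw hconj (stabilizer G a) hidx

end Cfsg.Agent.Lib.Helper16.P2pCore
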