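import Mathlib
import Cfsg.Agent.Lib.Helper16.P2pCore
import Cfsg.Agent.Lib.Helper20.P2EXC
import Cfsg.Agent.Lib.Helper20.P2DEG
import Cfsg.Agent.Lib.Helper49.P2TWOTR
import Cfsg.Agent.Lib.Helper81.P2CUBE
import Cfsg.Agent.Lib.Helper1.P2pRAT
import Cfsg.Agent.Lib.Helper59.P2INTV
import Cfsg.Agent.Lib.Helper49.P2CNT
import Cfsg.Agent.Lib.Helper49.P2MOM
import Cfsg.Agent.Lib.Helper59.P2XCARD
import Cfsg.Agent.Lib.Helper1.P2pPRE1
import Cfsg.Agent.Lib.Helper49.P2PRE2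
import Cfsg.Agent.Lib.Helper72.P2PRE3
import Cfsg.Agent.Lib.Helper89.P2PRE4
import Cfsg.Agent.Lib.Helper72.P2NOSUB

/-!
# Primitive groups of degree `2p` with `|N_G(P)| = 2p` (S4707), assembled
-/

set_option autoImplicit false

namespace Cfsg.Agent.Lib.Helper16.P2pFinal

open Cfsg

universe u

/-- A primitive, not doubly transitive permutation group of degree `2p` (`p > 3`) whose Sylow
`p`-normalizer has order `2p` is `A₅` (and `p = 5`). -/
theorem s4707_main {α : Type u} [Fintype α] [DecidableEq α] {p : ℕ} [Fact p.Prime] (hp : 3 < p)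
    (hα : Fintype.card α = 2 * p) (G : Subgroup (Equiv.Perm α))
    (hprim : MulAction.IsPreprimitive G α) (hnot2 : ¬ MulAction.IsMultiplyPretransitive G α 2)
    (P : Sylow p G)
    (hN : Nat.card (Subgroup.normalizer ((P : Subgroup G) : Set G)) = 2 * p) :
    p = 5 ∧ Nonempty (G ≃* alternatingGroup (Fin 5)) :=
  Cfsg.Agent.Lib.Helper16.P2pCore.s4707_of_pieces
    Cfsg.Agent.Lib.Helper20.P2EXC.main
    Cfsg.Agent.Lib.Helper49.P2TWOTR.main
    Cfsg.Agent.Lib.Helper20.P2DEG.main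
    Cfsg.Agent.Lib.Helper81.P2CUBE.main
    Cfsg.Agent.Lib.Helper1.P2pRAT.main
    Cfsg.Agent.Lib.Helper59.P2INTV.main
    Cfsg.Agent.Lib.Helper49.P2CNT.main
    Cfsg.Agent.Lib.Helper49.P2MOM.main
    Cfsg.Agent.Lib.Helper59.P2XCARD.main
    Cfsg.Agent.Lib.Helper1.P2pPRE1.main
    Cfsg.Agent.Lib.Helper49.P2PRE2.main
    Cfsg.Agent.Lib.Helper72.P2PRE3.main
    Cfsg.Agent.Lib.Helper89.P2PRE4.main
    Cfsg.Agent.Lib.Helper72.P2NOSUB.main
    hp hα G hprim hnot2 P hN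

end Cfsg.Agent.Lib.Helper16.P2pFinal
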