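import Mathlib
import Cfsg.Prelude.Def_BrauerPairs
import Cfsg.Prelude.Def_OddOrderLocal
import Cfsg.Agent.Lib.Helper77.BPNormal
import Cfsg.Agent.Lib.Helper77.BPConjMax
import Cfsg.Agent.Lib.Helper77.BPInd
import Cfsg.Agent.Lib.Helper77.BPUp
import Cfsg.Agent.Lib.Helper77.BPEquiv
import Cfsg.Agent.Lib.Helper16.BPLocal
import Cfsg.Agent.Lib.Helper16.Quot
import Cfsg.Agent.Lib.Helper16.FirstMain
import Cfsg.Agent.Lib.Helper23.Transitivity

/-!
# Kernels of blocks and normal `p'`-subgroups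

For a subgroup `X` of `G` we consider the sum `sig X` of its elements in the group algebra.  If a
subgroup `H` normalizes `X` and `ξ` is an irreducible character of `H`, the central character of
`ξ` at the truncation of `sig X` to `H` is `|X ∩ H|` or `0`, according as `X ∩ H` lies in the
kernel of `ξ` or not.  Since central characters of related blocks (induced blocks, Brauer pairs)
are congruent modulo the local ideal, kernels containing normal `p'`-subgroups are transferred
along these relations.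
-/

set_option autoImplicit false

namespace Cfsg.Agent.Lib.Helper16.PiKer

open Cfsg Cfsg.Agent.Lib.Helper77.LocalRing Cfsg.Agent.Lib.Helper77.CentralChar
  Cfsg.Agent.Lib.Helper77.ClassSum Cfsg.Agent.Lib.Helper77.BlockIdem
  Cfsg.Agent.Lib.Helper77.IdemIn Cfsg.Agent.Lib.Helper77.BPBasic
  Cfsg.Agent.Lib.Helper77.BPBrauer Cfsg.Agent.Lib.Helper77.BPInd
  Cfsg.Agent.Lib.CT.Wedderburn Cfsg.Agent.Lib.Helper16.ZR Cfsg.Agent.Lib.Helper16.Quot

universe u
variable {G : Type u} [Group G] {M : Ideal AlgInt}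

/-! ### The sum of the elements of a subgroup -/

/-- The sum of the elements of the subgroup `X` in the group algebra. -/
noncomputable def sig [Finite G] (X : Subgroup G) : MonoidAlgebra ℂ G :=
  ofFun ((X : Set G).indicator fun _ => (1 : ℂ))

theorem coeff_sig_of_mem [Finite G] {X : Subgroup G} {g : G} (hg : g ∈ X) :
    (sig X).coeff g = 1 := by
  unfold sig
  rw [coeff_ofFun, Set.indicator_of_mem (show g ∈ (X : Set G) from hg)]

theorem coeff_sig_of_not_mem [Finite G] {X : Subgroup G} {g : G} (hg : g ∉ X) :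
    (sig X).coeff g = 0 := by
  unfold sig
  rw [coeff_ofFun, Set.indicator_of_notMem (show g ∉ (X : Set G) from hg)]

theorem sig_mem_fixedSubring [Finite G] {X K : Subgroup G}
    (hK : K ≤ Subgroup.normalizer (X : Set G)) : sig X ∈ fixedSubring K := by
  rw [mem_fixedSubring]
  intro x hx g
  have h := Subgroup.mem_normalizer_iff.mp (hK hx) g
  by_cases hg : g ∈ X
  · rw [coeff_sig_of_mem hg, coeff_sig_of_mem (h.mp hg)]
  · rw [coeff_sig_of_not_mem hg, coeff_sig_of_not_mem (fun h' => hg (h.mpr h'))]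

theorem sig_mem_supportSubring [Finite G] {X C : Subgroup G} (hXC : X ≤ C) :
    sig X ∈ supportSubring C := by
  rw [mem_supportSubring]
  intro g hg
  exact coeff_sig_of_not_mem (fun h => hg (hXC h))

theorem sig_mem_intSubring [Finite G] (hMp : M.IsPrime) (X : Subgroup G) :
    sig X ∈ intSubring M hMp := by
  rw [mem_intSubring]
  intro g
  by_cases hg : g ∈ X
  · rw [coeff_sig_of_mem hg]
    exact memLocalRing_one hMp
  · rw [coeff_sig_of_not_mem hg]
    exact memLocalRing_zero hMp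

theorem sig_mem_center [Finite G] (X : Subgroup G) [hX : X.Normal] : sig X ∈ Zc G := by
  rw [← mem_fixedSubring_top_iff]
  apply sig_mem_fixedSubring
  rw [Subgroup.normalizer_eq_top]
  
/-! ### Values of central characters on `sig X` -/

theorem om_sig [Finite G] (H X : Subgroup G) (ξ : H → ℂ) :
    om H ξ (sig X) = (∑ᶠ n : X.subgroupOf H, ξ (n : H)) / ξ 1 := by
  classical
  cases nonempty_fintype G
  have : Fintype H := Fintype.ofFinite _
  unfold om omega
  rw [pair_eq_sum, finsum_eq_sum_of_fintype]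
  congr 1
  have h1 : ∀ h : H, (res H (sig X)).coeff h * ξ h
      = ((X.subgroupOf H : Set H)).indicator (fun h => ξ h) h := by
    intro h
    rw [coeff_res]
    by_cases hh : (h : G) ∈ X
    · rw [coeff_sig_of_mem hh, one_mul,
        Set.indicator_of_mem (show h ∈ (X.subgroupOf H : Set H) from Subgroup.mem_subgroupOf.mpr hh)]
    · rw [coeff_sig_of_not_mem hh, zero_mul,
        Set.indicator_of_notMem (show h ∉ (X.subgroupOf H : Set H) from
          fun h' => hh (Subgroup.mem_subgroupOf.mp h'))]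
  rw [Finset.sum_congr rfl (fun h _ => h1 h), Finset.sum_indicator_eq_sum_filter]
  exact Finset.sum_subtype (Finset.univ.filter (· ∈ (X.subgroupOf H : Set H)))
    (fun x => by simp) (fun h => ξ h)

/-- Sum of an irreducible character over a normal subgroup: either the subgroup lies in the
kernel, or the sum vanishes. -/
theorem sum_eq_zero_or {H : Type u} [Group H] [Finite H] (N : Subgroup H) (hN : N.Normal)
    (ξ : H → ℂ) (hξ : IsIrrCharacter H ξ) :
    (∀ n ∈ N, ξ n = ξ 1) ∨ ∑ᶠ n : N, ξ (n : H) = 0 := by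
  classical
  have : Fintype N := Fintype.ofFinite _
  by_cases h : ∑ᶠ n : N, ξ (n : H) = 0
  · exact Or.inr h
  · left
    apply apply_eq_of_over_trivial N hN ξ hξ
    unfold classInner
    rw [finsum_eq_sum_of_fintype] at h
    have h2 : ∀ n : N, ξ (n : H) * (starRingEnd ℂ) ((fun _ : N => (1 : ℂ)) n) = ξ (n : H) := by
      intro n
      simp
    rw [Finset.sum_congr rfl (fun n _ => h2 n)]
    exact mul_ne_zero (inv_ne_zero (Nat.cast_ne_zero.mpr Nat.card_pos.ne')) h

theorem om_sig_of_ker [Finite G] (H X : Subgroup G) (ξ : H → ℂ) (hξ : IsIrrCharacter H ξ)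
    (h : ∀ h : H, (h : G) ∈ X → ξ h = ξ 1) :
    om H ξ (sig X) = (Nat.card (X.subgroupOf H) : ℂ) := by
  classical
  have : Fintype (X.subgroupOf H) := Fintype.ofFinite _
  have h2 : ∀ n : X.subgroupOf H, ξ (n : H) = ξ 1 :=
    fun n => h (n : H) (Subgroup.mem_subgroupOf.mp n.2)
  rw [om_sig, finsum_eq_sum_of_fintype, Finset.sum_congr rfl (fun n _ => h2 n),
    Finset.sum_const, Finset.card_univ, nsmul_eq_mul, Nat.card_eq_fintype_card,
    mul_div_assoc, div_self (irr_one_ne_zero hξ), mul_one]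

theorem om_sig_of_not_ker [Finite G] (H X : Subgroup G)
    (hn : H ≤ Subgroup.normalizer (X : Set G)) (ξ : H → ℂ) (hξ : IsIrrCharacter H ξ)
    (h : ¬ ∀ h : H, (h : G) ∈ X → ξ h = ξ 1) : om H ξ (sig X) = 0 := by
  have hN : (X.subgroupOf H).Normal := by
    constructor
    intro n hn' g
    rw [Subgroup.mem_subgroupOf] at hn' ⊢
    have := (Subgroup.mem_normalizer_iff.mp (hn g.2) (n : G)).mp hn'
    simpa using this
  have : Finite H := inferInstance
  rcases sum_eq_zero_or (X.subgroupOf H) hN ξ hξ with h1 | h1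
  · exact absurd (fun x hx => h1 x (Subgroup.mem_subgroupOf.mpr hx)) h
  · rw [om_sig, h1, zero_div]

theorem card_subgroupOf_dvd [Finite G] (H X : Subgroup G) :
    Nat.card (X.subgroupOf H) ∣ Nat.card X := by
  let φ : X.subgroupOf H →* X :=
    { toFun := fun n => ⟨(n : H), Subgroup.mem_subgroupOf.mp n.2⟩
      map_one' := rfl
      map_mul' := fun _ _ => rfl }
  apply Subgroup.card_dvd_of_injective φ
  intro a b hab
  have h1 : ((a : H) : G) = ((b : H) : G) := congrArg (fun x : X => (x : G)) hab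
  exact Subtype.ext (Subtype.ext h1)

/-- The basic dichotomy argument. -/
theorem iff_of_sub_mem {p : ℕ} (hM : IsPModular p M) {a b : ℕ} (ha : ¬ p ∣ a) (hb : ¬ p ∣ b)
    {P Q : Prop} {x y : ℂ} (hxP : P → x = a) (hxnP : ¬ P → x = 0) (hyQ : Q → y = b)
    (hynQ : ¬ Q → y = 0) (h : MemLocalIdeal M (x - y)) : P ↔ Q := by
  by_cases hP : P <;> by_cases hQ : Q
  · exact ⟨fun _ => hQ, fun _ => hP⟩
  · exfalso
    rw [hxP hP, hynQ hQ, sub_zero, memLocalIdeal_natCast_iff hM] at h
    exact ha h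
  · exfalso
    rw [hxnP hP, hyQ hQ, zero_sub, memLocalIdeal_neg_iff, memLocalIdeal_natCast_iff hM] at h
    exact hb h
  · exact ⟨fun h' => absurd h' hP, fun h' => absurd h' hQ⟩

/-- Transfer of kernels along a congruence of central characters. -/
theorem ker_iff_of_om_sub [Finite G] {p : ℕ} (hM : IsPModular p M) (X : Subgroup G)
    (hpX : ¬ p ∣ Nat.card X) (H₁ H₂ : Subgroup G)
    (h₁ : H₁ ≤ Subgroup.normalizer (X : Set G)) (h₂ : H₂ ≤ Subgroup.normalizer (X : Set G))
    (ξ₁ : IrrCharacter H₁) (ξ₂ : IrrCharacter H₂)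
    (h : MemLocalIdeal M (om H₁ (ξ₁ : H₁ → ℂ) (sig X) - om H₂ (ξ₂ : H₂ → ℂ) (sig X))) :
    (∀ h : H₁, (h : G) ∈ X → (ξ₁ : H₁ → ℂ) h = (ξ₁ : H₁ → ℂ) 1) ↔
      (∀ h : H₂, (h : G) ∈ X → (ξ₂ : H₂ → ℂ) h = (ξ₂ : H₂ → ℂ) 1) :=
  iff_of_sub_mem hM (fun hd => hpX (hd.trans (card_subgroupOf_dvd H₁ X)))
    (fun hd => hpX (hd.trans (card_subgroupOf_dvd H₂ X)))
    (om_sig_of_ker H₁ X _ ξ₁.2) (om_sig_of_not_ker H₁ X h₁ _ ξ₁.2)
    (om_sig_of_ker H₂ X _ ξ₂.2) (om_sig_of_not_ker H₂ X h₂ _ ξ₂.2) h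

/-! ### The whole group -/

theorem omega_sig [Finite G] (X : Subgroup G) (χ : G → ℂ) :
    omega χ (sig X) = (∑ᶠ n : X, χ (n : G)) / χ 1 := by
  classical
  cases nonempty_fintype G
  unfold omega
  rw [pair_eq_sum, finsum_eq_sum_of_fintype]
  congr 1
  have h1 : ∀ g : G, (sig X).coeff g * χ g = (X : Set G).indicator (fun g => χ g) g := by
    intro g
    by_cases hg : g ∈ X
    · rw [coeff_sig_of_mem hg, one_mul, Set.indicator_of_mem (show g ∈ (X : Set G) from hg)]
    · rw [coeff_sig_of_not_mem hg, zero_mul,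
        Set.indicator_of_notMem (show g ∉ (X : Set G) from hg)]
  rw [Finset.sum_congr rfl (fun g _ => h1 g), Finset.sum_indicator_eq_sum_filter]
  exact Finset.sum_subtype (Finset.univ.filter (· ∈ (X : Set G)))
    (fun x => by simp) (fun g => χ g)

theorem omega_sig_of_ker [Finite G] (X : Subgroup G) (χ : G → ℂ) (hχ : IsIrrCharacter G χ)
    (h : ∀ n ∈ X, χ n = χ 1) : omega χ (sig X) = (Nat.card X : ℂ) := by
  classical
  have : Fintype X := Fintype.ofFinite _
  have h2 : ∀ n : X, χ (n : G) = χ 1 := fun n => h (n : G) n.2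
  rw [omega_sig, finsum_eq_sum_of_fintype, Finset.sum_congr rfl (fun n _ => h2 n),
    Finset.sum_const, Finset.card_univ, nsmul_eq_mul, Nat.card_eq_fintype_card,
    mul_div_assoc, div_self (irr_one_ne_zero hχ), mul_one]

theorem omega_sig_of_not_ker [Finite G] (X : Subgroup G) (hX : X.Normal) (χ : G → ℂ)
    (hχ : IsIrrCharacter G χ) (h : ¬ ∀ n ∈ X, χ n = χ 1) : omega χ (sig X) = 0 := by
  rcases sum_eq_zero_or X hX χ hχ with h1 | h1
  · exact absurd h1 h
  · rw [omega_sig, h1, zero_div]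

/-! ### Induced blocks -/

/-- A central element is the combination of class sums with its own coefficients. -/
theorem exists_reps_sum [Finite G] : ∃ R : Finset G, ∀ z : MonoidAlgebra ℂ G, z ∈ Zc G →
    z = ∑ r ∈ R, z.coeff r • classSum r := by
  classical
  cases nonempty_fintype G
  obtain ⟨R, -, hR1, hR2, -⟩ := Cfsg.Agent.Lib.Helper16.FirstMain.sum_stable_reps (A := ℂ)
    (Finset.univ : Finset G) (fun _ _ _ => Finset.mem_univ _)
  refine ⟨R, fun z hz => ?_⟩
  apply MonoidAlgebra.coeff_injective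
  ext g
  rw [Cfsg.Agent.Lib.Helper77.BPIdem.coeff_sum]
  obtain ⟨r₀, hr₀, hc⟩ := hR2 g (Finset.mem_univ g)
  have hcg : z.coeff r₀ = z.coeff g := by
    obtain ⟨c, hc'⟩ := isConj_iff.mp hc
    rw [← hc', (mem_center_iff z).mp hz]
  rw [Finset.sum_eq_single r₀]
  · rw [MonoidAlgebra.coeff_smul]
    show z.coeff g = z.coeff r₀ • (classSum r₀).coeff g
    unfold classSum
    rw [coeff_ofFun, if_pos hc.symm, smul_eq_mul, mul_one, hcg]
  · intro r hr hne
    rw [MonoidAlgebra.coeff_smul]
    show z.coeff r • (classSum r).coeff g = 0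
    unfold classSum
    rw [coeff_ofFun, if_neg, smul_zero]
    intro hrg
    exact hne (hR1 r hr r₀ hr₀ (hrg.trans hc))
  · intro h
    exact absurd hr₀ h

/-- Central characters of an induced block: congruence on all integral central elements. -/
theorem ind_om [Finite G] (hMp : M.IsPrime) (H : Subgroup G) (b : Set (IrrCharacter H))
    (B : Set (IrrCharacter G)) (hind : IsInducedBlock M H b B) (ξ : IrrCharacter H) (hξ : ξ ∈ b)
    (χ : IrrCharacter G) (hχ : χ ∈ B) (z : MonoidAlgebra ℂ G) (hz : z ∈ Zc G)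
    (hzR : z ∈ intSubring M hMp) :
    MemLocalIdeal M (om H (ξ : H → ℂ) z - omega (χ : G → ℂ) z) := by
  obtain ⟨R, hR⟩ := exists_reps_sum (G := G)
  have h1 : om H (ξ : H → ℂ) z = ∑ r ∈ R, z.coeff r * inducedCentralChar H (ξ : H → ℂ) r := by
    conv_lhs => rw [hR z hz]
    rw [om_sum]
    apply Finset.sum_congr rfl
    intro r _
    rw [om_smul, om_classSum]
  have h2 : omega (χ : G → ℂ) z = ∑ r ∈ R, z.coeff r * centralChar (χ : G → ℂ) r := by
    conv_lhs => rw [hR z hz]
    rw [omega_sum]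
    apply Finset.sum_congr rfl
    intro r _
    rw [omega_smul, omega_classSum _ (fun x g => irr_conj_inv χ x g)]
  rw [h1, h2, ← Finset.sum_sub_distrib]
  apply memLocalIdeal_sum hMp
  intro r _
  rw [← mul_sub]
  exact memLocalIdeal_mul_left hMp (hzR r) (hind.2.2 ξ hξ χ hχ r)

/-- **Lemma A.** If `b^G = B` and `N` is a normal `p'`-subgroup of `G`, then `N` lies in the
kernel of a member of `B` iff `N ∩ H` lies in the kernel of a member of `b`. -/
theorem ker_iff_of_induced [Finite G] {p : ℕ} (hM : IsPModular p M) (N : Subgroup G)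
    (hN : N.Normal) (hpN : ¬ p ∣ Nat.card N) (H : Subgroup G) (b : Set (IrrCharacter H))
    (B : Set (IrrCharacter G)) (hind : IsInducedBlock M H b B) (ξ : IrrCharacter H) (hξ : ξ ∈ b)
    (χ : IrrCharacter G) (hχ : χ ∈ B) :
    (∀ h : H, (h : G) ∈ N → (ξ : H → ℂ) h = (ξ : H → ℂ) 1) ↔
      (∀ n ∈ N, (χ : G → ℂ) n = (χ : G → ℂ) 1) := by
  have hMp := isPrime_of_isPModular hM
  have hNn : H ≤ Subgroup.normalizer (N : Set G) := by
    rw [Subgroup.normalizer_eq_top]
    exact le_top
  haveI := hN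
  exact iff_of_sub_mem hM (fun hd => hpN (hd.trans (card_subgroupOf_dvd H N))) hpN
    (om_sig_of_ker H N _ ξ.2) (om_sig_of_not_ker H N hNn _ ξ.2)
    (omega_sig_of_ker N _ χ.2) (omega_sig_of_not_ker N hN _ χ.2)
    (ind_om hMp H b B hind ξ hξ χ hχ (sig N) (sig_mem_center N) (sig_mem_intSubring hMp N))

end Cfsg.Agent.Lib.Helper16.PiKer
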