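import Mathlib
import Cfsg.Agent.Lib.Helper16.PiKer
import Cfsg.Agent.Lib.Helper16.BPLocal2
import Cfsg.Agent.Lib.Helper16.Induced
import Cfsg.Agent.Lib.Helper77.BPSubpair
import Cfsg.Agent.Lib.Helper77.BPMax2

/-!
# Brauer pairs and kernels containing `π'`-cores

For a Brauer pair `(Q, f)` we consider the condition `KerP` that `O_σ(C_G(Q))` lies in the kernel
of every member of `f` (here `σ` is a set of primes not containing `p`).  This condition is
inherited by smaller pairs, by conjugate pairs, and, when `C_G(Q)` has a normal Hall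
`σ`-subgroup, by larger pairs.  For a maximal pair `(D, e)` it is equivalent to `O_σ(N_G(D))`
lying in the kernel of the Brauer correspondent of the block.
-/

set_option autoImplicit false

namespace Cfsg.Agent.Lib.Helper16.PiKer2

open Cfsg Cfsg.Agent.Lib.Helper77.LocalRing Cfsg.Agent.Lib.Helper77.CentralChar
  Cfsg.Agent.Lib.Helper77.ClassSum Cfsg.Agent.Lib.Helper77.BlockIdem
  Cfsg.Agent.Lib.Helper77.IdemIn Cfsg.Agent.Lib.Helper77.BPBasic
  Cfsg.Agent.Lib.Helper77.BPBrauer Cfsg.Agent.Lib.Helper77.BPInd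
  Cfsg.Agent.Lib.Helper77.BPPairs Cfsg.Agent.Lib.Helper77.BPNormal
  Cfsg.Agent.Lib.Helper77.BPMax2 Cfsg.Agent.Lib.Helper77.BPEquiv
  Cfsg.Agent.Lib.Helper77.BPTransport Cfsg.Agent.Lib.Helper77.BPConjMax
  Cfsg.Agent.Lib.Helper77.BPConj Cfsg.Agent.Lib.Helper77.BPSubpair
  Cfsg.Agent.Lib.Helper77.BPSub Cfsg.Agent.Lib.Helper77.BPUp
  Cfsg.Agent.Lib.CT.Wedderburn Cfsg.Agent.Lib.Helper16.ZR
  Cfsg.Agent.Lib.Helper16.MinMax Cfsg.Agent.Lib.Helper16.BPLocal
  Cfsg.Agent.Lib.Helper16.PiKer Cfsg.Agent.Lib.Helper23.Transitivity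

universe u
variable {G : Type u} [Group G] {M : Ideal AlgInt}

/-! ### Facts on `piCoreOf` -/

theorem mem_piCoreOf_iff (σ : Set ℕ) (X : Subgroup G) (x : X) :
    (x : G) ∈ piCoreOf σ X ↔ x ∈ piCore σ X := by
  unfold piCoreOf
  constructor
  · rintro ⟨y, hy, hyx⟩
    have : y = x := Subtype.ext hyx
    rwa [← this]
  · intro h
    exact ⟨x, h, rfl⟩

theorem not_dvd_card_piCoreOf [Finite G] {p : ℕ} (hp : p.Prime) (σ : Set ℕ) (hpσ : p ∉ σ)
    (X : Subgroup G) : ¬ p ∣ Nat.card (piCoreOf σ X) :=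
  fun h => hpσ (isPiNum_card_piCoreOf σ X p hp h)

theorem not_dvd_card_piCore [Finite G] {p : ℕ} (hp : p.Prime) (σ : Set ℕ) (hpσ : p ∉ σ) :
    ¬ p ∣ Nat.card (piCore σ G) :=
  fun h => hpσ (isPiNum_card_piCore σ p hp h)

/-- The `σ`-core of a larger subgroup meets a smaller subgroup inside its `σ`-core. -/
theorem piCoreOf_inf_le [Finite G] (σ : Set ℕ) {X₁ X₂ : Subgroup G} (h : X₁ ≤ X₂) :
    piCoreOf σ X₂ ⊓ X₁ ≤ piCoreOf σ X₁ := by
  apply le_piCoreOf σ inf_le_right
  · exact (le_inf (h.trans (le_normalizer_piCoreOf σ X₂)) Subgroup.le_normalizer).trans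
      normalizer_inf_le
  · exact isPiNum_of_dvd (isPiNum_card_piCoreOf σ X₂) (Subgroup.card_dvd_of_le inf_le_left)

/-- Conjugation carries `σ`-cores to `σ`-cores. -/
theorem conj_mem_piCoreOf [Finite G] (σ : Set ℕ) {X X' : Subgroup G} (x : G)
    (h : ∀ g ∈ X, x * g * x⁻¹ ∈ X') (h' : ∀ g ∈ X', x⁻¹ * g * x ∈ X) :
    ∀ g ∈ piCoreOf σ X, x * g * x⁻¹ ∈ piCoreOf σ X' := by
  have hY : (piCoreOf σ X).map (MulAut.conj x).toMonoidHom ≤ piCoreOf σ X' := by
    apply le_piCoreOf σ
    · rintro _ ⟨k, hk, rfl⟩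
      exact h k (piCoreOf_le σ X hk)
    · apply le_normalizer_of_conj_mem
      rintro g' hg' _ ⟨k, hk, rfl⟩
      refine ⟨x⁻¹ * g' * x * k * (x⁻¹ * g' * x)⁻¹, ?_, ?_⟩
      · exact conj_mem_of_le_normalizer (le_normalizer_piCoreOf σ X) (h' g' hg') hk
      · show x * (x⁻¹ * g' * x * k * (x⁻¹ * g' * x)⁻¹) * x⁻¹ = g' * (x * k * x⁻¹) * g'⁻¹
        group
    · have hc : Nat.card ((piCoreOf σ X).map (MulAut.conj x).toMonoidHom) =
          Nat.card (piCoreOf σ X) :=
        Subgroup.card_map_of_injective (MulAut.conj x).injective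
      rw [hc]
      exact isPiNum_card_piCoreOf σ X
  intro g hg
  exact hY ⟨g, hg, rfl⟩

theorem normalizer_le_normalizer_piCoreOf [Finite G] (σ : Set ℕ) (X : Subgroup G) :
    Subgroup.normalizer (X : Set G) ≤ Subgroup.normalizer (piCoreOf σ X : Set G) := by
  apply le_normalizer_of_conj_mem
  intro x hx y hy
  apply conj_mem_piCoreOf σ x _ _ y hy
  · intro g hg
    exact (Subgroup.mem_normalizer_iff.mp hx g).mp hg
  · intro g hg
    have := (Subgroup.mem_normalizer_iff.mp (inv_mem hx) g).mp hg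
    simpa using this

/-! ### The kernel condition for Brauer pairs -/

/-- `O_σ(C_G(Q))` lies in the kernel of every member of `f`. -/
def KerP (σ : Set ℕ) (a : BrauerPairIdx G) : Prop :=
  ∀ ξ ∈ a.2, ∀ c : Subgroup.centralizer (a.1 : Set G),
    (c : G) ∈ piCoreOf σ (Subgroup.centralizer (a.1 : Set G)) →
      (ξ : Subgroup.centralizer (a.1 : Set G) → ℂ) c =
        (ξ : Subgroup.centralizer (a.1 : Set G) → ℂ) 1

/-- `C_G(Q)` has a normal Hall `σ`-subgroup: every `σ`-element lies in `O_σ(C_G(Q))`. -/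
def HallQ (σ : Set ℕ) (Q : Subgroup G) : Prop :=
  ∀ g ∈ Subgroup.centralizer (Q : Set G), (∀ q : ℕ, q.Prime → q ∣ orderOf g → q ∈ σ) →
    g ∈ piCoreOf σ (Subgroup.centralizer (Q : Set G))

theorem normal_step_iff [Finite G] {p : ℕ} [Fact p.Prime] (hM : IsPModular p M)
    {Q P : Subgroup G} {f : Set (IrrCharacter (Subgroup.centralizer (Q : Set G)))}
    {e : Set (IrrCharacter (Subgroup.centralizer (P : Set G)))}
    (h : IsNormalSubpair p M Q f P e) (X : Subgroup G)
    (hXC : X ≤ Subgroup.centralizer (Q : Set G))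
    (hCX : Subgroup.centralizer (Q : Set G) ≤ Subgroup.normalizer (X : Set G))
    (hPX : P ≤ Subgroup.normalizer (X : Set G)) (hpX : ¬ p ∣ Nat.card X)
    (ζ : IrrCharacter (Subgroup.centralizer (Q : Set G))) (hζ : ζ ∈ f)
    (ξ : IrrCharacter (Subgroup.centralizer (P : Set G))) (hξ : ξ ∈ e) :
    (∀ c : Subgroup.centralizer (Q : Set G), (c : G) ∈ X →
        (ζ : Subgroup.centralizer (Q : Set G) → ℂ) c =
          (ζ : Subgroup.centralizer (Q : Set G) → ℂ) 1) ↔
      (∀ c : Subgroup.centralizer (P : Set G), (c : G) ∈ X →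
        (ξ : Subgroup.centralizer (P : Set G) → ℂ) c =
          (ξ : Subgroup.centralizer (P : Set G) → ℂ) 1) := by
  have hMp := isPrime_of_isPModular hM
  have hz : sig X ∈ pairSubring hMp (Subgroup.centralizer (Q : Set G)) P :=
    (mem_pairSubring hMp).mpr ⟨sig_mem_supportSubring hXC, sig_mem_fixedSubring hCX,
      sig_mem_fixedSubring hPX, sig_mem_intSubring hMp X⟩
  have h1 := normalSubpair_om hM h (sig X) hz ζ hζ ξ hξ
  have hCP : Subgroup.centralizer (P : Set G) ≤ Subgroup.normalizer (X : Set G) :=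
    (Subgroup.centralizer_le h.2.2.1).trans hCX
  exact (ker_iff_of_om_sub hM X hpX _ _ hCP hCX ξ ζ h1).symm

theorem kerP_down_step [Finite G] {p : ℕ} [Fact p.Prime] (hM : IsPModular p M) (σ : Set ℕ)
    (hpσ : p ∉ σ) {a b : BrauerPairIdx G} (h : NormalSubpairRel p M a b) (hb : KerP σ b) :
    KerP σ a := by
  have hMp := isPrime_of_isPModular hM
  have hp : p.Prime := Fact.out
  obtain ⟨Q, f⟩ := a
  obtain ⟨P, e⟩ := b
  have h' : IsNormalSubpair p M Q f P e := h
  obtain ⟨ξ, hξ⟩ := isPBlock_nonempty hMp h'.2.1.2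
  intro ζ hζ
  have hPX : P ≤ Subgroup.normalizer
      (piCoreOf σ (Subgroup.centralizer (Q : Set G)) : Set G) :=
    (h'.2.2.2.1.trans (normalizer_le_normalizer_centralizer Q)).trans
      (normalizer_le_normalizer_piCoreOf σ _)
  refine (normal_step_iff hM h' (piCoreOf σ (Subgroup.centralizer (Q : Set G)))
    (piCoreOf_le σ _) (le_normalizer_piCoreOf σ _) hPX (not_dvd_card_piCoreOf hp σ hpσ _)
    ζ hζ ξ hξ).mpr ?_
  intro c hc
  exact hb ξ hξ c (piCoreOf_inf_le σ (Subgroup.centralizer_le h'.2.2.1) ⟨hc, c.2⟩)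

theorem hall_up_step [Finite G] (σ : Set ℕ) {Q P : Subgroup G} (hQP : Q ≤ P)
    (hQ : HallQ σ Q) : HallQ σ P := by
  intro g hg hgσ
  exact piCoreOf_inf_le σ (Subgroup.centralizer_le hQP)
    ⟨hQ g (Subgroup.centralizer_le hQP hg) hgσ, hg⟩

theorem isPiElt_of_mem_piCoreOf [Finite G] (σ : Set ℕ) (X : Subgroup G) {g : G}
    (hg : g ∈ piCoreOf σ X) : ∀ q : ℕ, q.Prime → q ∣ orderOf g → q ∈ σ :=
  fun q hq hd => isPiNum_card_piCoreOf σ X q hq
    (hd.trans (Subgroup.orderOf_dvd_natCard _ hg))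

theorem kerP_up_step [Finite G] {p : ℕ} [Fact p.Prime] (hM : IsPModular p M) (σ : Set ℕ)
    (hpσ : p ∉ σ) {a b : BrauerPairIdx G} (h : NormalSubpairRel p M a b) (hH : HallQ σ a.1)
    (ha : KerP σ a) : KerP σ b := by
  have hMp := isPrime_of_isPModular hM
  have hp : p.Prime := Fact.out
  obtain ⟨Q, f⟩ := a
  obtain ⟨P, e⟩ := b
  have h' : IsNormalSubpair p M Q f P e := h
  obtain ⟨ζ, hζ⟩ := isPBlock_nonempty hMp h'.1.2
  intro ξ hξ c hc
  have hPX : P ≤ Subgroup.normalizer
      (piCoreOf σ (Subgroup.centralizer (Q : Set G)) : Set G) :=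
    (h'.2.2.2.1.trans (normalizer_le_normalizer_centralizer Q)).trans
      (normalizer_le_normalizer_piCoreOf σ _)
  refine (normal_step_iff hM h' (piCoreOf σ (Subgroup.centralizer (Q : Set G)))
    (piCoreOf_le σ _) (le_normalizer_piCoreOf σ _) hPX (not_dvd_card_piCoreOf hp σ hpσ _)
    ζ hζ ξ hξ).mp (ha ζ hζ) c ?_
  exact hH (c : G) (Subgroup.centralizer_le h'.2.2.1 c.2) (isPiElt_of_mem_piCoreOf σ _ hc)

theorem kerP_down [Finite G] {p : ℕ} [Fact p.Prime] (hM : IsPModular p M) (σ : Set ℕ)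
    (hpσ : p ∉ σ) {a b : BrauerPairIdx G}
    (h : Relation.ReflTransGen (NormalSubpairRel p M) a b) (hb : KerP σ b) : KerP σ a := by
  induction h using Relation.ReflTransGen.head_induction_on with
  | refl => exact hb
  | head h' _ ih => exact kerP_down_step hM σ hpσ h' ih

theorem kerP_up [Finite G] {p : ℕ} [Fact p.Prime] (hM : IsPModular p M) (σ : Set ℕ)
    (hpσ : p ∉ σ) {a b : BrauerPairIdx G}
    (h : Relation.ReflTransGen (NormalSubpairRel p M) a b) (hH : HallQ σ a.1)
    (ha : KerP σ a) : HallQ σ b.1 ∧ KerP σ b := by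
  induction h with
  | refl => exact ⟨hH, ha⟩
  | tail _ h' ih =>
    exact ⟨hall_up_step σ h'.2.2.1 ih.1, kerP_up_step hM σ hpσ h' ih.1 ih.2⟩

/-! ### Conjugation -/

theorem conj_mem_piCoreOf_centralizer [Finite G] (σ : Set ℕ) (Q : Subgroup G) (x g : G)
    (hg : g ∈ piCoreOf σ (Subgroup.centralizer (Q : Set G))) :
    x * g * x⁻¹ ∈ piCoreOf σ
      (Subgroup.centralizer ((Q.map (MulAut.conj x).toMonoidHom : Subgroup G) : Set G)) := by
  apply conj_mem_piCoreOf σ x _ _ g hg
  · intro k hk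
    rw [mem_centralizer_cj_iff]
    have : x⁻¹ * (x * k * x⁻¹) * x = k := by group
    rwa [this]
  · intro k hk
    exact (mem_centralizer_cj_iff Q x k).mp hk

theorem conj_mem_piCoreOf_centralizer' [Finite G] (σ : Set ℕ) (Q : Subgroup G) (x g : G)
    (hg : g ∈ piCoreOf σ
      (Subgroup.centralizer ((Q.map (MulAut.conj x).toMonoidHom : Subgroup G) : Set G))) :
    x⁻¹ * g * x ∈ piCoreOf σ (Subgroup.centralizer (Q : Set G)) := by
  have h := conj_mem_piCoreOf σ (X := Subgroup.centralizer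
    ((Q.map (MulAut.conj x).toMonoidHom : Subgroup G) : Set G))
    (X' := Subgroup.centralizer (Q : Set G)) x⁻¹ ?_ ?_ g hg
  · simpa using h
  · intro k hk
    have := (mem_centralizer_cj_iff Q x k).mp hk
    simpa using this
  · intro k hk
    rw [mem_centralizer_cj_iff]
    have : x⁻¹ * (x⁻¹⁻¹ * k * x⁻¹) * x = k := by group
    rwa [this]

theorem kerP_mk_iff (σ : Set ℕ) (Q : Subgroup G)
    (f : Set (IrrCharacter (Subgroup.centralizer (Q : Set G)))) :
    KerP σ (⟨Q, f⟩ : BrauerPairIdx G) ↔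
      ∀ ξ ∈ f, ∀ c : Subgroup.centralizer (Q : Set G),
        (c : G) ∈ piCoreOf σ (Subgroup.centralizer (Q : Set G)) →
          (ξ : Subgroup.centralizer (Q : Set G) → ℂ) c =
            (ξ : Subgroup.centralizer (Q : Set G) → ℂ) 1 := Iff.rfl

theorem kerP_conj_iff [Finite G] (σ : Set ℕ) (x : G) (Q : Subgroup G)
    (f : Set (IrrCharacter (Subgroup.centralizer (Q : Set G)))) :
    KerP σ (⟨Q.map (MulAut.conj x).toMonoidHom, conjBlock Q x f⟩ : BrauerPairIdx G) ↔
      KerP σ (⟨Q, f⟩ : BrauerPairIdx G) := by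
  rw [kerP_mk_iff, kerP_mk_iff]
  constructor
  · intro h ξ hξ c hc
    have hmem : pull (cIso Q x).symm ξ ∈ conjBlock Q x f := by
      rw [conjBlock_eq]
      exact ⟨ξ, hξ, rfl⟩
    have h1 := h (pull (cIso Q x).symm ξ) hmem (cIso Q x c) (by
      rw [coe_cIso]
      exact conj_mem_piCoreOf_centralizer σ Q x _ hc)
    rw [pull_apply, pull_apply, MulEquiv.symm_apply_apply, map_one] at h1
    exact h1
  · intro h ξ' hξ' c' hc'
    rw [conjBlock_eq] at hξ'
    obtain ⟨ξ, hξ, rfl⟩ := hξ'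
    have h1 := h ξ hξ ((cIso Q x).symm c') (by
      rw [coe_cIso_symm]
      exact conj_mem_piCoreOf_centralizer' σ Q x _ hc')
    rw [pull_apply, pull_apply, map_one]
    exact h1

theorem kerP_cjp_iff [Finite G] (σ : Set ℕ) (x : G) (a : BrauerPairIdx G) :
    KerP σ (cjp x a) ↔ KerP σ a := by
  obtain ⟨Q, f⟩ := a
  exact kerP_conj_iff σ x Q f

/-! ### The normalizer of a `p`-subgroup -/

/-- `O_σ(N_G(D)) = O_σ(C_G(D))` for a `p`-subgroup `D` when `p ∉ σ`. -/
theorem piCoreOf_normalizer_eq [Finite G] {p : ℕ} (hp : p.Prime) (σ : Set ℕ) (hpσ : p ∉ σ)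
    (D : Subgroup G) (hD : IsPGroup p D) :
    piCoreOf σ (Subgroup.normalizer (D : Set G)) =
      piCoreOf σ (Subgroup.centralizer (D : Set G)) := by
  have hCN : Subgroup.centralizer (D : Set G) ≤ Subgroup.normalizer (D : Set G) :=
    Subgroup.centralizer_le_normalizer _
  apply le_antisymm
  · apply le_piCoreOf σ
    · intro k hk
      rw [Subgroup.mem_centralizer_iff]
      intro d hd'
      have hd : d ∈ D := hd'
      have hkN : k ∈ Subgroup.normalizer (D : Set G) := piCoreOf_le σ _ hk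
      have hdN : d ∈ Subgroup.normalizer (D : Set G) := Subgroup.le_normalizer hd
      have h1 : k * d * k⁻¹ * d⁻¹ ∈ piCoreOf σ (Subgroup.normalizer (D : Set G)) ⊓ D := by
        rw [Subgroup.mem_inf]
        constructor
        · have h2 : d * k⁻¹ * d⁻¹ ∈ piCoreOf σ (Subgroup.normalizer (D : Set G)) :=
            conj_mem_of_le_normalizer (le_normalizer_piCoreOf σ _) hdN (inv_mem hk)
          have h3 := mul_mem hk h2
          have e : k * (d * k⁻¹ * d⁻¹) = k * d * k⁻¹ * d⁻¹ := by group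
          rwa [e] at h3
        · have h2 : k * d * k⁻¹ ∈ D := (Subgroup.mem_normalizer_iff.mp hkN d).mp hd
          exact mul_mem h2 (inv_mem hd)
      have h2 : piCoreOf σ (Subgroup.normalizer (D : Set G)) ⊓ D = ⊥ := by
        have : Fact p.Prime := ⟨hp⟩
        apply (Subgroup.disjoint_of_coprime_natCard _).eq_bot
        obtain ⟨n, hn⟩ := IsPGroup.iff_card.mp hD
        rw [hn]
        exact Nat.Coprime.pow_right n
          ((Nat.Prime.coprime_iff_not_dvd hp).mpr (not_dvd_card_piCoreOf hp σ hpσ _)).symm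
      rw [h2, Subgroup.mem_bot] at h1
      have h3 : k * d = d * k := by
        have h4 : k * d * k⁻¹ * d⁻¹ * (d * k) = k * d := by group
        rw [← h4, h1, one_mul]
      exact h3.symm
    · exact hCN.trans (le_normalizer_piCoreOf σ _)
    · exact isPiNum_card_piCoreOf σ _
  · apply le_piCoreOf σ
    · exact (piCoreOf_le σ _).trans hCN
    · exact (normalizer_le_normalizer_centralizer D).trans
        (normalizer_le_normalizer_piCoreOf σ _)
    · exact isPiNum_card_piCoreOf σ _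

/-- **Link.** For a Brauer pair `(D, e)` of `B` and the block `B₁` of `N_G(D)` with defect group
`D` inducing `B`: `O_σ(C_G(D))` lies in the kernel of `e` iff `O_σ(N_G(D))` lies in the kernel
of `B₁`. -/
theorem link [Finite G] {p : ℕ} [Fact p.Prime] (hM : IsPModular p M) (σ : Set ℕ) (hpσ : p ∉ σ)
    (B : Set (IrrCharacter G)) (D : Subgroup G)
    (e : Set (IrrCharacter (Subgroup.centralizer (D : Set G))))
    (hpair : IsBrauerPairOf p M B D e)
    (B₁ : Set (IrrCharacter (Subgroup.normalizer (D : Set G))))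
    (hB₁ : IsInducedBlock M (Subgroup.normalizer (D : Set G)) B₁ B)
    (hB₁D : IsDefectGroup p M B₁ (D.subgroupOf (Subgroup.normalizer (D : Set G)))) :
    KerP σ (⟨D, e⟩ : BrauerPairIdx G) ↔
      ∀ n : Subgroup.normalizer (D : Set G),
        n ∈ piCore σ (Subgroup.normalizer (D : Set G)) → n ∈ blockKer B₁ := by
  have hMp := isPrime_of_isPModular hM
  have hp : p.Prime := Fact.out
  have hDp : IsPGroup p D := hpair.1.1
  have hCN : Subgroup.centralizer (D : Set G) ≤ Subgroup.normalizer (D : Set G) :=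
    Subgroup.centralizer_le_normalizer _
  have hindC : IsInducedBlock M (Subgroup.centralizer (D : Set G)) e B :=
    (isBrauerPairOf_iff_isInducedBlock hM D hDp e B).mp hpair
  have hXeq := piCoreOf_normalizer_eq hp σ hpσ D hDp
  have hXN : piCoreOf σ (Subgroup.centralizer (D : Set G)) ≤ Subgroup.normalizer (D : Set G) :=
    (piCoreOf_le σ _).trans hCN
  have hNX : Subgroup.normalizer (D : Set G) ≤
      Subgroup.normalizer (piCoreOf σ (Subgroup.centralizer (D : Set G)) : Set G) :=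
    (normalizer_le_normalizer_centralizer D).trans (normalizer_le_normalizer_piCoreOf σ _)
  have hCX : Subgroup.centralizer (D : Set G) ≤
      Subgroup.normalizer (piCoreOf σ (Subgroup.centralizer (D : Set G)) : Set G) :=
    le_normalizer_piCoreOf σ _
  have hpX : ¬ p ∣ Nat.card (piCoreOf σ (Subgroup.centralizer (D : Set G))) :=
    not_dvd_card_piCoreOf hp σ hpσ _
  have key : ∀ ξ ∈ e, ∃ ζ₀ ∈ B₁,
      ((∀ c : Subgroup.centralizer (D : Set G),
          (c : G) ∈ piCoreOf σ (Subgroup.centralizer (D : Set G)) →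
            (ξ : Subgroup.centralizer (D : Set G) → ℂ) c =
              (ξ : Subgroup.centralizer (D : Set G) → ℂ) 1) ↔
        (∀ n : Subgroup.normalizer (D : Set G),
          (n : G) ∈ piCoreOf σ (Subgroup.centralizer (D : Set G)) →
            (ζ₀ : Subgroup.normalizer (D : Set G) → ℂ) n =
              (ζ₀ : Subgroup.normalizer (D : Set G) → ℂ) 1)) := by
    intro ξ hξ
    obtain ⟨ζ₀, hζ₀⟩ := exists_irr_sub hM (Subgroup.normalizer (D : Set G)) D hDp hCN ξ
    have hind2 : IsInducedBlock M (Subgroup.normalizer (D : Set G))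
        (blockOf M (ζ₀ : Subgroup.normalizer (D : Set G) → ℂ)) B := by
      refine ⟨isPBlock_blockOf ζ₀, hindC.2.1, ?_⟩
      intro ζ hζ χ hχ g
      have hz : trunc (Subgroup.normalizer (D : Set G)) (classSum g) ∈
          pairSubring hMp (Subgroup.normalizer (D : Set G)) D := by
        rw [mem_pairSubring]
        have hfix : classSum g ∈ fixedSubring (⊤ : Subgroup G) :=
          mem_fixedSubring_top_iff.mpr (classSum_mem_center g)
        exact ⟨trunc_mem_supportSubring _ _,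
          trunc_mem_fixedSubring Subgroup.le_normalizer (fixedSubring_mono le_top hfix),
          trunc_mem_fixedSubring (Subgroup.le_normalizer.trans Subgroup.le_normalizer)
            (fixedSubring_mono le_top hfix),
          trunc_mem_intSubring hMp _ (classSum_mem_intSubring M hMp g)⟩
      have h1 := hζ₀ _ hz
      rw [om_trunc hCN, om_trunc le_rfl, om_classSum, om_classSum] at h1
      have h2 := hindC.2.2 ξ hξ χ hχ g
      have h3 := Cfsg.Agent.Lib.Helper16.Induced.induced_sub_induced_mem hM.2.1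
        (Subgroup.normalizer (D : Set G)) (ζ : Subgroup.normalizer (D : Set G) → ℂ)
        (ζ₀ : Subgroup.normalizer (D : Set G) → ℂ) (fun x k => irr_conj_inv ζ k x)
        (fun x k => irr_conj_inv ζ₀ k x) (sameBlock_symm hζ) g
      have h4 := memLocalIdeal_add hMp (memLocalIdeal_sub hMp h3 h1) h2
      have e1 : inducedCentralChar (Subgroup.normalizer (D : Set G))
            (ζ : Subgroup.normalizer (D : Set G) → ℂ) g - centralChar (χ : G → ℂ) g =
          inducedCentralChar (Subgroup.normalizer (D : Set G))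
            (ζ : Subgroup.normalizer (D : Set G) → ℂ) g -
            inducedCentralChar (Subgroup.normalizer (D : Set G))
              (ζ₀ : Subgroup.normalizer (D : Set G) → ℂ) g -
          (inducedCentralChar (Subgroup.centralizer (D : Set G))
              (ξ : Subgroup.centralizer (D : Set G) → ℂ) g -
            inducedCentralChar (Subgroup.normalizer (D : Set G))
              (ζ₀ : Subgroup.normalizer (D : Set G) → ℂ) g) +
          (inducedCentralChar (Subgroup.centralizer (D : Set G))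
              (ξ : Subgroup.centralizer (D : Set G) → ℂ) g - centralChar (χ : G → ℂ) g) := by
        ring
      rw [e1]
      exact h4
    have hB₁eq : B₁ = blockOf M (ζ₀ : Subgroup.normalizer (D : Set G) → ℂ) :=
      Cfsg.Agent.Lib.Helper16.FirstMain.block_normalizer_unique p hM D B B₁ _ hB₁D hB₁ hind2
    refine ⟨ζ₀, by rw [hB₁eq]; exact mem_blockOf_self hMp ζ₀, ?_⟩
    have hz : sig (piCoreOf σ (Subgroup.centralizer (D : Set G))) ∈
        pairSubring hMp (Subgroup.normalizer (D : Set G)) D :=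
      (mem_pairSubring hMp).mpr ⟨sig_mem_supportSubring hXN, sig_mem_fixedSubring hNX,
        sig_mem_fixedSubring (Subgroup.le_normalizer.trans hNX), sig_mem_intSubring hMp _⟩
    exact ker_iff_of_om_sub hM _ hpX _ _ hCX hNX ξ ζ₀ (hζ₀ _ hz)
  have trans : ∀ ζ ∈ B₁, ∀ ζ' ∈ B₁,
      (∀ n : Subgroup.normalizer (D : Set G),
          (n : G) ∈ piCoreOf σ (Subgroup.centralizer (D : Set G)) →
            (ζ : Subgroup.normalizer (D : Set G) → ℂ) n =
              (ζ : Subgroup.normalizer (D : Set G) → ℂ) 1) →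
      (∀ n : Subgroup.normalizer (D : Set G),
          (n : G) ∈ piCoreOf σ (Subgroup.centralizer (D : Set G)) →
            (ζ' : Subgroup.normalizer (D : Set G) → ℂ) n =
              (ζ' : Subgroup.normalizer (D : Set G) → ℂ) 1) := by
    intro ζ hζ ζ' hζ' h
    have h1 := om_sub_mem_of_sameBlock hMp (Subgroup.normalizer (D : Set G)) ζ.2 ζ'.2
      (sameBlock_of_mem hMp hB₁.1 hζ hζ') (sig (piCoreOf σ (Subgroup.centralizer (D : Set G))))
      (sig_mem_fixedSubring hNX) (sig_mem_intSubring hMp _)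
    exact (ker_iff_of_om_sub hM _ hpX _ _ hNX hNX ζ ζ' h1).mp h
  rw [kerP_mk_iff]
  constructor
  · intro hK n hn χ hχ
    obtain ⟨ξ, hξ⟩ := isPBlock_nonempty hMp hpair.1.2
    obtain ⟨ζ₀, hζ₀, hiff⟩ := key ξ hξ
    have hnX : (n : G) ∈ piCoreOf σ (Subgroup.centralizer (D : Set G)) := by
      rw [← hXeq]
      exact (mem_piCoreOf_iff σ _ n).mpr hn
    exact trans ζ₀ hζ₀ χ hχ (hiff.mp (hK ξ hξ)) n hnX
  · intro hker ξ hξ
    obtain ⟨ζ₀, hζ₀, hiff⟩ := key ξ hξ
    apply hiff.mpr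
    intro n hnX
    have hn : n ∈ piCore σ (Subgroup.normalizer (D : Set G)) := by
      rw [← mem_piCoreOf_iff, hXeq]
      exact hnX
    exact hker n hn ζ₀ hζ₀

/-! ### Pairs of subgroups containing the centralizer -/

/-- A Brauer pair `(D₀, β)` of a block `b` of `H` with `C_G(D₀) ≤ H`, read in `G`, is a Brauer
pair of every block induced by `b`. -/
theorem up_pairOf [Finite G] {p : ℕ} [Fact p.Prime] (hM : IsPModular p M) (H : Subgroup G)
    (b : Set (IrrCharacter H)) (D₀ : Subgroup H)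
    (β : Set (IrrCharacter (Subgroup.centralizer (D₀ : Set H))))
    (hpair : IsBrauerPairOf p M b D₀ β)
    (hC : Subgroup.centralizer ((D₀.map H.subtype : Subgroup G) : Set G) ≤ H)
    (B : Set (IrrCharacter G)) (hind : IsInducedBlock M H b B) :
    IsBrauerPairOf p M B (D₀.map H.subtype) (upBlock H D₀ β) := by
  have hMp := isPrime_of_isPModular hM
  have hD₀p : IsPGroup p D₀ := hpair.1.1
  have hβ : IsPBlock M β := hpair.1.2
  have hB : IsPBlock M B := hind.2.1
  have hindβ : IsInducedBlock M (Subgroup.centralizer (D₀ : Set H)) β b :=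
    (isBrauerPairOf_iff_isInducedBlock hM D₀ hD₀p β b).mp hpair
  obtain ⟨ζ, hζ⟩ := isPBlock_nonempty hMp hind.1
  obtain ⟨χ, hχ⟩ := isPBlock_nonempty hMp hB
  refine ⟨⟨hD₀p.map H.subtype, isPBlock_upBlock H D₀ hC hβ⟩, hB, ?_⟩
  intro ξ hξ
  rw [upBlock_eq H D₀ hC] at hξ
  obtain ⟨ξ', hξ', rfl⟩ := hξ
  have hz := blockIdem_mem_top hMp B hB
  have hz1 := (Subring.mem_inf.mp hz).1
  have hz2 := (Subring.mem_inf.mp hz).2
  have hzc : res H (blockIdem B) ∈ Zc H := res_mem_center H (fixedSubring_mono le_top hz1)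
  have hzR : res H (blockIdem B) ∈ intSubring M hMp := by
    rw [mem_intSubring]
    intro h
    rw [coeff_res]
    exact (mem_intSubring M hMp).mp hz2 _
  have h1 := ind_om hMp (Subgroup.centralizer (D₀ : Set H)) β b hindβ ξ' hξ' ζ hζ
    (res H (blockIdem B)) hzc hzR
  have h2 := ind_om hMp H b B hind ζ hζ χ hχ (blockIdem B) (mem_fixedSubring_top_iff.mp hz1) hz2
  rw [omega_blockIdem, if_pos hχ] at h2
  rw [brauerOmega_eq]
  have h3 : om (Subgroup.centralizer ((D₀.map H.subtype : Subgroup G) : Set G))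
      (pull (zIso H D₀ _ (hS_of_le H D₀ hC)).symm ξ' : _ → ℂ) (blockIdem B) =
      om (Subgroup.centralizer (D₀ : Set H)) (ξ' : _ → ℂ) (res H (blockIdem B)) :=
    om_up H D₀ hC ξ' (blockIdem B)
  have h4 := memLocalIdeal_add hMp h1 h2
  have e1 : om (Subgroup.centralizer (D₀ : Set H)) (ξ' : _ → ℂ) (res H (blockIdem B)) -
        omega (ζ : H → ℂ) (res H (blockIdem B)) + (om H (ζ : H → ℂ) (blockIdem B) - 1) =
      om (Subgroup.centralizer (D₀ : Set H)) (ξ' : _ → ℂ) (res H (blockIdem B)) - 1 := by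
    unfold om
    ring
  rw [e1, ← h3] at h4
  exact h4

/-- **The local theorem.**  If `O_σ(N_G(D))` lies in the kernel of the Brauer correspondent of
`B`, then for every subgroup `G₀`, every block `B₀` of `G₀` inducing `B` whose defect group
`D₀` satisfies `C_G(D₀) ≤ G₀`, the subgroup `O_σ(G₀)` lies in the kernel of `B₀`. -/
theorem main_local [Finite G] {p : ℕ} [Fact p.Prime] (hM : IsPModular p M) (σ : Set ℕ)
    (hpσ : p ∉ σ) (B : Set (IrrCharacter G)) (hB : IsPBlock M B) (D : Subgroup G)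
    (hBD : IsDefectGroup p M B D)
    (B₁ : Set (IrrCharacter (Subgroup.normalizer (D : Set G))))
    (hB₁ : IsInducedBlock M (Subgroup.normalizer (D : Set G)) B₁ B)
    (hB₁D : IsDefectGroup p M B₁ (D.subgroupOf (Subgroup.normalizer (D : Set G))))
    (hker : ∀ n : Subgroup.normalizer (D : Set G),
      n ∈ piCore σ (Subgroup.normalizer (D : Set G)) → n ∈ blockKer B₁)
    (G₀ : Subgroup G) (B₀ : Set (IrrCharacter G₀)) (hB₀ : IsInducedBlock M G₀ B₀ B)
    (D₀ : Subgroup G₀) (hD₀ : IsDefectGroup p M B₀ D₀)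
    (hC : Subgroup.centralizer ((D₀.map G₀.subtype : Subgroup G) : Set G) ≤ G₀) :
    ∀ x : G₀, x ∈ piCore σ G₀ → x ∈ blockKer B₀ := by
  have hMp := isPrime_of_isPModular hM
  have hp : p.Prime := Fact.out
  obtain ⟨e, hmax⟩ := exists_maximal_pair hM B hB D hBD
  have hK : KerP σ (⟨D, e⟩ : BrauerPairIdx G) :=
    (link hM σ hpσ B D e hmax.1 B₁ hB₁ hB₁D).mpr hker
  obtain ⟨e₀, hmax₀⟩ := exists_maximal_pair hM B₀ hB₀.1 D₀ hD₀
  have hup := up_pairOf hM G₀ B₀ D₀ e₀ hmax₀.1 hC B hB₀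
  obtain ⟨x, hx⟩ := exists_conj_le_of_maximal hM hmax hup
  have hK1 : KerP σ (⟨(D₀.map G₀.subtype).map (MulAut.conj x).toMonoidHom,
      conjBlock (D₀.map G₀.subtype) x (upBlock G₀ D₀ e₀)⟩ : BrauerPairIdx G) :=
    kerP_down hM σ hpσ hx hK
  have hK2 : KerP σ (⟨D₀.map G₀.subtype, upBlock G₀ D₀ e₀⟩ : BrauerPairIdx G) :=
    (kerP_conj_iff σ x _ _).mp hK1
  rw [kerP_mk_iff] at hK2
  have hD₀p : IsPGroup p D₀ := hmax₀.1.1.1
  have hind₀ : IsInducedBlock M (Subgroup.centralizer (D₀ : Set G₀)) e₀ B₀ :=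
    (isBrauerPairOf_iff_isInducedBlock hM D₀ hD₀p e₀ B₀).mp hmax₀.1
  obtain ⟨ξ, hξ⟩ := isPBlock_nonempty hMp hmax₀.1.1.2
  have hξup : pull (zIso G₀ D₀ _ (hS_of_le G₀ D₀ hC)).symm ξ ∈ upBlock G₀ D₀ e₀ := by
    rw [upBlock_eq G₀ D₀ hC]
    exact ⟨ξ, hξ, rfl⟩
  have hleft : ∀ h : Subgroup.centralizer (D₀ : Set G₀), (h : G₀) ∈ piCore σ G₀ →
      (ξ : Subgroup.centralizer (D₀ : Set G₀) → ℂ) h =
        (ξ : Subgroup.centralizer (D₀ : Set G₀) → ℂ) 1 := by
    intro h hh
    have h1 := hK2 _ hξup (zIso G₀ D₀ _ (hS_of_le G₀ D₀ hC) h) (by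
      apply piCoreOf_inf_le σ hC
      refine ⟨?_, (zIso G₀ D₀ _ (hS_of_le G₀ D₀ hC) h).2⟩
      rw [coe_zIso]
      exact (mem_piCoreOf_iff σ G₀ (h : G₀)).mpr hh)
    rw [pull_apply, pull_apply, MulEquiv.symm_apply_apply, map_one] at h1
    exact h1
  intro x₀ hx₀ χ hχ
  exact (ker_iff_of_induced hM (piCore σ G₀) (piCore_normal σ G₀)
    (not_dvd_card_piCore hp σ hpσ) (Subgroup.centralizer (D₀ : Set G₀)) e₀ B₀ hind₀ ξ hξ
    χ hχ).mp hleft x₀ hx₀

end Cfsg.Agent.Lib.Helper16.PiKer2
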