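import Mathlib
import Cfsg.Agent.Lib.Helper16.PiKer2
import Cfsg.Agent.Lib.CT.PrincipalSection
import Cfsg.Agent.Lib.Helper16.Brauer
import Cfsg.Agent.S0912

/-!
# Values of characters on `π'`-cores of centralizers of `p`-elements

If `O_σ(N_G(D))` lies in the kernel of the Brauer correspondent of the block `B` (`p ∉ σ`), and
the centralizer `C` of the `p`-element `y` has a normal Hall `σ`-subgroup, then
`χ (y x) = χ y` for `χ ∈ B` and every `σ`-element `x` of `C`.  This combines the local theorem
with Brauer's second main theorem.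
-/

set_option autoImplicit false

namespace Cfsg.Agent.Lib.Helper16.PiKer3

open Cfsg Cfsg.Agent.Lib.Helper77.LocalRing Cfsg.Agent.Lib.Helper77.CentralChar
  Cfsg.Agent.Lib.Helper77.ClassSum Cfsg.Agent.Lib.Helper77.BlockIdem
  Cfsg.Agent.Lib.CT.Wedderburn Cfsg.Agent.Lib.Helper16.ZR
  Cfsg.Agent.Lib.Helper16.MinMax Cfsg.Agent.Lib.Helper16.PiKer2
  Cfsg.Agent.Lib.CT.PrincipalSection Cfsg.Agent.Lib.CT.SecondMain
  Cfsg.Agent.Lib.CT.SectionOrth Cfsg.Agent.Lib.CT.Orth

universe u
variable {G : Type u} [Group G] {M : Ideal AlgInt}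

theorem main_section [Finite G] {p : ℕ} [Fact p.Prime] (hM : IsPModular p M) (σ : Set ℕ)
    (hpσ : p ∉ σ) (B : Set (IrrCharacter G)) (hB : IsPBlock M B) (D : Subgroup G)
    (hBD : IsDefectGroup p M B D)
    (B₁ : Set (IrrCharacter (Subgroup.normalizer (D : Set G))))
    (hB₁ : IsInducedBlock M (Subgroup.normalizer (D : Set G)) B₁ B)
    (hB₁D : IsDefectGroup p M B₁ (D.subgroupOf (Subgroup.normalizer (D : Set G))))
    (hker : ∀ n : Subgroup.normalizer (D : Set G),
      n ∈ piCore σ (Subgroup.normalizer (D : Set G)) → n ∈ blockKer B₁)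
    (y : G) (hy : ∃ k : ℕ, orderOf y = p ^ k)
    (hCy : ∀ x : Subgroup.centralizer ({y} : Set G),
      (∀ q : ℕ, q.Prime → q ∣ orderOf x → q ∈ σ) →
        x ∈ piCore σ (Subgroup.centralizer ({y} : Set G))) :
    ∀ χ ∈ B, ∀ x : G, x ∈ Subgroup.centralizer ({y} : Set G) →
      (∀ q : ℕ, q.Prime → q ∣ orderOf x → q ∈ σ) →
        (χ : G → ℂ) (y * x) = (χ : G → ℂ) y := by
  classical
  have hMp := isPrime_of_isPModular hM
  have hp : p.Prime := hM.1
  intro χ hχ x hxC hxσ
  have hyC : y ∈ Subgroup.centralizer ({y} : Set G) := by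
    rw [Subgroup.mem_centralizer_iff]
    intro h hh
    rw [Set.mem_singleton_iff] at hh
    rw [hh]
  have hcomm : ∀ c : Subgroup.centralizer ({y} : Set G), y * (c : G) = (c : G) * y := fun c =>
    Subgroup.mem_centralizer_iff.mp c.2 y (Set.mem_singleton y)
  obtain ⟨k, hk⟩ := hy
  have hP : IsPGroup p (Subgroup.zpowers y) :=
    IsPGroup.of_card (n := k) (by rw [Nat.card_zpowers, hk])
  have hPH : Subgroup.zpowers y ≤ Subgroup.centralizer ({y} : Set G) := by
    rw [Subgroup.zpowers_le]
    exact hyC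
  have hCeq : Subgroup.centralizer (Subgroup.zpowers y : Set G) =
      Subgroup.centralizer ({y} : Set G) := by
    rw [Subgroup.zpowers_eq_closure, Subgroup.centralizer_closure]
  have hCH : Subgroup.centralizer (Subgroup.zpowers y : Set G) ≤
      Subgroup.centralizer ({y} : Set G) := hCeq.le
  have hHN : Subgroup.centralizer ({y} : Set G) ≤
      Subgroup.normalizer (Subgroup.zpowers y : Set G) := by
    rw [← hCeq]
    exact Subgroup.centralizer_le_normalizer _
  -- the characters of `C` whose block induces `B`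
  have step1 : ∀ ψ : IrrCharacter (Subgroup.centralizer ({y} : Set G)),
      IsInducedBlock M (Subgroup.centralizer ({y} : Set G))
        (blockOf M (ψ : Subgroup.centralizer ({y} : Set G) → ℂ)) B →
      ∀ c : Subgroup.centralizer ({y} : Set G),
        c ∈ piCore σ (Subgroup.centralizer ({y} : Set G)) →
          (ψ : Subgroup.centralizer ({y} : Set G) → ℂ) c =
            (ψ : Subgroup.centralizer ({y} : Set G) → ℂ) 1 := by
    intro ψ hψ c hc
    obtain ⟨D₀, hD₀⟩ := exists_defectGroup hM
      (blockOf M (ψ : Subgroup.centralizer ({y} : Set G) → ℂ)) (isPBlock_blockOf ψ)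
    have hyD₀ : (⟨y, hyC⟩ : Subgroup.centralizer ({y} : Set G)) ∈ D₀ := by
      apply Cfsg.Agent.S0912.result p M hM _ (isPBlock_blockOf ψ) D₀ hD₀
      have hN : (Subgroup.zpowers
          (⟨y, hyC⟩ : Subgroup.centralizer ({y} : Set G))).Normal := by
        constructor
        intro n hn g
        obtain ⟨j, rfl⟩ := Subgroup.mem_zpowers_iff.mp hn
        have hc : Commute g (⟨y, hyC⟩ : Subgroup.centralizer ({y} : Set G)) :=
          Subtype.ext (hcomm g).symm
        rw [(hc.zpow_right j).eq, mul_inv_cancel_right]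
        exact hn
      have hP' : IsPGroup p (Subgroup.zpowers
          (⟨y, hyC⟩ : Subgroup.centralizer ({y} : Set G))) :=
        IsPGroup.of_card (n := k) (by rw [Nat.card_zpowers, Subgroup.orderOf_mk, hk])
      exact (le_sSup (show Subgroup.zpowers _ ∈
        {N : Subgroup (Subgroup.centralizer ({y} : Set G)) | N.Normal ∧ IsPGroup p N} from
          ⟨hN, hP'⟩)) (Subgroup.mem_zpowers _)
    have hC : Subgroup.centralizer
        ((D₀.map (Subgroup.centralizer ({y} : Set G)).subtype : Subgroup G) : Set G) ≤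
        Subgroup.centralizer ({y} : Set G) := by
      intro g hg
      rw [Subgroup.mem_centralizer_iff]
      intro h hh
      rw [Set.mem_singleton_iff] at hh
      rw [hh]
      exact Subgroup.mem_centralizer_iff.mp hg y ⟨⟨y, hyC⟩, hyD₀, rfl⟩
    exact main_local hM σ hpσ B hB D hBD B₁ hB₁ hB₁D hker _ _ hψ D₀ hD₀ hC c hc ψ
      (mem_blockOf_self hMp ψ)
  have hclosed : BlockClosed M
      {ψ : IrrCharacter (Subgroup.centralizer ({y} : Set G)) |
        IsInducedBlock M (Subgroup.centralizer ({y} : Set G))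
          (blockOf M (ψ : Subgroup.centralizer ({y} : Set G) → ℂ)) B}ᶜ := by
    intro ψ hψ ψ' hs hψ'
    apply hψ
    have e1 : blockOf M (ψ' : Subgroup.centralizer ({y} : Set G) → ℂ) =
        blockOf M (ψ : Subgroup.centralizer ({y} : Set G) → ℂ) := blockOf_eq_of_mem hMp hs
    show IsInducedBlock M _ (blockOf M (ψ : Subgroup.centralizer ({y} : Set G) → ℂ)) B
    rw [← e1]
    exact hψ'
  have hω : ∀ ψ ∈ {ψ : IrrCharacter (Subgroup.centralizer ({y} : Set G)) |
        IsInducedBlock M (Subgroup.centralizer ({y} : Set G))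
          (blockOf M (ψ : Subgroup.centralizer ({y} : Set G) → ℂ)) B}ᶜ,
      MemLocalIdeal M (omega (ψ : Subgroup.centralizer ({y} : Set G) → ℂ)
        (res (Subgroup.centralizer ({y} : Set G)) (blockIdem (blockOf M (χ : G → ℂ))))) := by
    intro ψ hψ
    have hBχ : blockOf M (χ : G → ℂ) = B := (isPBlock_eq_blockOf hMp hB hχ).symm
    rw [hBχ]
    obtain ⟨B'', hB''⟩ := Cfsg.Agent.Lib.Helper16.Brauer.inducedBlockDefined_of_local hM
      (Subgroup.zpowers y) (Subgroup.centralizer ({y} : Set G)) hP hPH hCH hHN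
      (blockOf M (ψ : Subgroup.centralizer ({y} : Set G) → ℂ)) (isPBlock_blockOf ψ)
    obtain ⟨χ'', hχ''⟩ := Cfsg.Agent.Lib.Helper16.ZR.isPBlock_nonempty hMp hB''.2.1
    have hχ''B : χ'' ∉ B := by
      intro h
      apply hψ
      have e1 : B'' = B := by
        rw [isPBlock_eq_blockOf hMp hB''.2.1 hχ'', isPBlock_eq_blockOf hMp hB h]
      show IsInducedBlock M _ (blockOf M (ψ : Subgroup.centralizer ({y} : Set G) → ℂ)) B
      rw [← e1]
      exact hB''
    have h1 := omega_res_sub_mem hMp (Subgroup.centralizer ({y} : Set G))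
      (ψ : Subgroup.centralizer ({y} : Set G) → ℂ) χ''
      (hB''.2.2 ψ (mem_blockOf_self hMp ψ) χ'' hχ'')
      (blockIdem B) (blockIdem_mem_center _) (blockIdem_mem_intSubring hMp _ hB)
    rwa [omega_blockIdem, if_neg hχ''B, sub_zero] at h1
  have hϑ : IsClassFunction (Subgroup.centralizer ({y} : Set G))
      (fun c : Subgroup.centralizer ({y} : Set G) => (χ : G → ℂ) (y * (c : G))) := by
    intro g h
    show (χ : G → ℂ) (y * ((h * g * h⁻¹ : Subgroup.centralizer ({y} : Set G)) : G)) =
      (χ : G → ℂ) (y * (g : G))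
    have e1 : y * ((h * g * h⁻¹ : Subgroup.centralizer ({y} : Set G)) : G) =
        (h : G) * (y * (g : G)) * (h : G)⁻¹ := by
      simp only [Subgroup.coe_mul, Subgroup.coe_inv]
      rw [← mul_assoc, ← mul_assoc, hcomm h]
      group
    rw [e1]
    exact char_isClassFunction (isCharacter_of_irr χ.2) _ _
  -- the second main theorem
  have sec : ∀ c : Subgroup.centralizer ({y} : Set G), ¬ p ∣ orderOf c →
      blockPart {ψ : IrrCharacter (Subgroup.centralizer ({y} : Set G)) |
        IsInducedBlock M (Subgroup.centralizer ({y} : Set G))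
          (blockOf M (ψ : Subgroup.centralizer ({y} : Set G) → ℂ)) B}
        (fun c : Subgroup.centralizer ({y} : Set G) => (χ : G → ℂ) (y * (c : G))) c =
      (χ : G → ℂ) (y * (c : G)) := by
    intro c hc
    have hpp : IsPPart p (y * (c : G)) y :=
      ⟨(c : G), rfl, hcomm c, ⟨k, hk⟩, by rw [Subgroup.orderOf_coe]; exact hc⟩
    have key := second_main_set p M hM (Subgroup.centralizer ({y} : Set G))
      {ψ : IrrCharacter (Subgroup.centralizer ({y} : Set G)) |
        IsInducedBlock M (Subgroup.centralizer ({y} : Set G))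
          (blockOf M (ψ : Subgroup.centralizer ({y} : Set G) → ℂ)) B}ᶜ
      (blockCoeff_memLocalRing_of_closed hMp _ hclosed)
      (⟨y, hyC⟩ * c)
      (fun z hz => by
        have : y = z := isPPart_unique hp hpp hz
        rw [← this])
      χ hω
    have h2 := blockPart_eq_sum
      {ψ : IrrCharacter (Subgroup.centralizer ({y} : Set G)) |
        IsInducedBlock M (Subgroup.centralizer ({y} : Set G))
          (blockOf M (ψ : Subgroup.centralizer ({y} : Set G) → ℂ)) B}ᶜ _ hϑ c
    have h3 : ∑ᶠ g : Subgroup.centralizer ({y} : Set G),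
        blockCoeff {ψ : IrrCharacter (Subgroup.centralizer ({y} : Set G)) |
          IsInducedBlock M (Subgroup.centralizer ({y} : Set G))
            (blockOf M (ψ : Subgroup.centralizer ({y} : Set G) → ℂ)) B}ᶜ g *
          (fun c : Subgroup.centralizer ({y} : Set G) => (χ : G → ℂ) (y * (c : G))) (g * c) =
        ∑ᶠ k : Subgroup.centralizer ({y} : Set G),
          blockCoeff {ψ : IrrCharacter (Subgroup.centralizer ({y} : Set G)) |
            IsInducedBlock M (Subgroup.centralizer ({y} : Set G))
              (blockOf M (ψ : Subgroup.centralizer ({y} : Set G) → ℂ)) B}ᶜ k *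
            (χ : G → ℂ) ((k : G) *
              ((⟨y, hyC⟩ * c : Subgroup.centralizer ({y} : Set G)) : G)) := by
      refine finsum_congr fun g => ?_
      congr 2
      simp only [Subgroup.coe_mul]
      rw [← mul_assoc, ← mul_assoc, hcomm g]
    rw [h3, key] at h2
    have h4 := blockPart_add_compl
      {ψ : IrrCharacter (Subgroup.centralizer ({y} : Set G)) |
        IsInducedBlock M (Subgroup.centralizer ({y} : Set G))
          (blockOf M (ψ : Subgroup.centralizer ({y} : Set G) → ℂ)) B}
      (fun c : Subgroup.centralizer ({y} : Set G) => (χ : G → ℂ) (y * (c : G))) c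
    rw [h2, add_zero, blockPart_univ _ hϑ c] at h4
    exact h4
  have hxreg : ¬ p ∣ orderOf (⟨x, hxC⟩ : Subgroup.centralizer ({y} : Set G)) := by
    rw [Subgroup.orderOf_mk]
    exact fun h => hpσ (hxσ p hp h)
  have h1reg : ¬ p ∣ orderOf (1 : Subgroup.centralizer ({y} : Set G)) := by
    rw [orderOf_one]
    exact hp.one_lt.ne' ∘ Nat.dvd_one.mp
  have hxcore : (⟨x, hxC⟩ : Subgroup.centralizer ({y} : Set G)) ∈
      piCore σ (Subgroup.centralizer ({y} : Set G)) := by
    apply hCy
    intro q hq hd
    rw [Subgroup.orderOf_mk] at hd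
    exact hxσ q hq hd
  have hpart : blockPart {ψ : IrrCharacter (Subgroup.centralizer ({y} : Set G)) |
        IsInducedBlock M (Subgroup.centralizer ({y} : Set G))
          (blockOf M (ψ : Subgroup.centralizer ({y} : Set G) → ℂ)) B}
        (fun c : Subgroup.centralizer ({y} : Set G) => (χ : G → ℂ) (y * (c : G)))
        (⟨x, hxC⟩ : Subgroup.centralizer ({y} : Set G)) =
      blockPart {ψ : IrrCharacter (Subgroup.centralizer ({y} : Set G)) |
        IsInducedBlock M (Subgroup.centralizer ({y} : Set G))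
          (blockOf M (ψ : Subgroup.centralizer ({y} : Set G) → ℂ)) B}
        (fun c : Subgroup.centralizer ({y} : Set G) => (χ : G → ℂ) (y * (c : G))) 1 := by
    unfold blockPart
    apply finsum_mem_congr rfl
    intro ψ hψ
    rw [step1 ψ hψ _ hxcore]
  have e1 := sec ⟨x, hxC⟩ hxreg
  have e2 := sec 1 h1reg
  rw [hpart, e2] at e1
  rw [← e1]
  simp

end Cfsg.Agent.Lib.Helper16.PiKer3
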