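import Mathlib
import Cfsg.Agent.Lib.Helper16.PiKer2
import Cfsg.Agent.S0912

/-!
# From a local kernel condition to the Brauer correspondent

If a Brauer pair `(Q, f)` of the block `B` is such that `C_G(Q)` has a normal Hall
`σ`-subgroup lying in the kernel of `f`, then `O_σ(N_G(D))` lies in the kernel of the Brauer
correspondent of `B`.
-/

set_option autoImplicit false

namespace Cfsg.Agent.Lib.Helper16.PiKer4

open Cfsg Cfsg.Agent.Lib.Helper77.LocalRing Cfsg.Agent.Lib.Helper77.CentralChar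
  Cfsg.Agent.Lib.Helper77.ClassSum Cfsg.Agent.Lib.Helper77.BlockIdem
  Cfsg.Agent.Lib.Helper77.IdemIn Cfsg.Agent.Lib.Helper77.BPBasic
  Cfsg.Agent.Lib.Helper77.BPBrauer Cfsg.Agent.Lib.Helper77.BPInd
  Cfsg.Agent.Lib.Helper77.BPPairs Cfsg.Agent.Lib.Helper77.BPNormal
  Cfsg.Agent.Lib.Helper77.BPMax2 Cfsg.Agent.Lib.Helper77.BPEquiv
  Cfsg.Agent.Lib.Helper77.BPTransport Cfsg.Agent.Lib.Helper77.BPConjMax
  Cfsg.Agent.Lib.Helper77.BPConj Cfsg.Agent.Lib.Helper77.BPSubpair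
  Cfsg.Agent.Lib.Helper77.BPSub Cfsg.Agent.Lib.Helper77.BPUp
  Cfsg.Agent.Lib.CT.Wedderburn Cfsg.Agent.Lib.Helper16.ZR
  Cfsg.Agent.Lib.Helper16.MinMax Cfsg.Agent.Lib.Helper16.BPLocal
  Cfsg.Agent.Lib.Helper16.PiKer Cfsg.Agent.Lib.Helper16.PiKer2
  Cfsg.Agent.Lib.Helper23.Transitivity

universe u
variable {G : Type u} [Group G] {M : Ideal AlgInt}

/-- A normal `p`-subgroup is the first component of a Brauer pair of every block. -/
theorem exists_pairOf_of_normal {H : Type u} [Group H] [Finite H] {p : ℕ} [Fact p.Prime]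
    (hM : IsPModular p M) (b : Set (IrrCharacter H)) (hb : IsPBlock M b) (Q : Subgroup H)
    (hQn : Q.Normal) (hQp : IsPGroup p Q) :
    ∃ f : Set (IrrCharacter (Subgroup.centralizer (Q : Set H))), IsBrauerPairOf p M b Q f := by
  obtain ⟨D', hD'⟩ := exists_defectGroup hM b hb
  obtain ⟨e', hmax⟩ := exists_maximal_pair hM b hb D' hD'
  have hQD : Q ≤ D' :=
    (le_sSup (show Q ∈ {N : Subgroup H | N.Normal ∧ IsPGroup p N} from ⟨hQn, hQp⟩)).trans
      (Cfsg.Agent.S0912.result p M hM b hb D' hD')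
  obtain ⟨f, hf⟩ := exists_subpair hM D' e' hmax.1.1 Q hQD
  exact ⟨f, (isBrauerPairOf_iff_of_le hM b hb ⟨Q, f⟩ ⟨D', e'⟩ hf).mp hmax.1⟩

/-- From a Brauer pair with a normal Hall `σ`-subgroup of the centralizer in the kernel, to the
Brauer correspondent. -/
theorem main_up [Finite G] {p : ℕ} [Fact p.Prime] (hM : IsPModular p M) (σ : Set ℕ)
    (hpσ : p ∉ σ) (B : Set (IrrCharacter G)) (hB : IsPBlock M B) (D : Subgroup G)
    (hBD : IsDefectGroup p M B D)
    (B₁ : Set (IrrCharacter (Subgroup.normalizer (D : Set G))))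
    (hB₁ : IsInducedBlock M (Subgroup.normalizer (D : Set G)) B₁ B)
    (hB₁D : IsDefectGroup p M B₁ (D.subgroupOf (Subgroup.normalizer (D : Set G))))
    (a : BrauerPairIdx G) (ha : IsBrauerPairOf p M B a.1 a.2) (hH : HallQ σ a.1)
    (hK : KerP σ a) :
    ∀ n : Subgroup.normalizer (D : Set G),
      n ∈ piCore σ (Subgroup.normalizer (D : Set G)) → n ∈ blockKer B₁ := by
  obtain ⟨c, hc, hle⟩ := exists_maximal_above B (Nat.card G - Nat.card a.1) a a ha
    Relation.ReflTransGen.refl rfl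
  obtain ⟨-, hKc⟩ := kerP_up hM σ hpσ hle hH hK
  have hcD := isDefectGroup_of_maximal hM hc
  obtain ⟨x, hx⟩ := defectGroup_conj hM B hB hcD hBD
  obtain ⟨e, hmax⟩ := exists_maximal_pair hM B hB D hBD
  obtain ⟨y, hy⟩ := exists_conj_eq_of_maximal hM hmax c.1 c.2 hc.1 x hx.symm
  have hKD : KerP σ (⟨D, e⟩ : BrauerPairIdx G) := by
    rw [← hy]
    exact (kerP_cjp_iff σ y ⟨c.1, c.2⟩).mpr hKc
  exact (link hM σ hpσ B D e hmax.1 B₁ hB₁ hB₁D).mp hKD

/-- **The converse direction.**  If `C_G(D₀)` has a normal Hall `σ`-subgroup which lies in the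
kernel of a block `b` of `D₀ C_G(D₀)` inducing `B`, then `O_σ(N_G(D))` lies in the kernel of the
Brauer correspondent of `B`. -/
theorem main_converse [Finite G] {p : ℕ} [Fact p.Prime] (hM : IsPModular p M) (σ : Set ℕ)
    (hpσ : p ∉ σ) (B : Set (IrrCharacter G)) (hB : IsPBlock M B) (D : Subgroup G)
    (hBD : IsDefectGroup p M B D)
    (B₁ : Set (IrrCharacter (Subgroup.normalizer (D : Set G))))
    (hB₁ : IsInducedBlock M (Subgroup.normalizer (D : Set G)) B₁ B)
    (hB₁D : IsDefectGroup p M B₁ (D.subgroupOf (Subgroup.normalizer (D : Set G))))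
    (D₀ : Subgroup G) (hD₀ : IsPGroup p D₀) (H₀ : Subgroup G)
    (hH₀ : H₀ = D₀ ⊔ Subgroup.centralizer (D₀ : Set G))
    (b : Set (IrrCharacter H₀)) (hb : IsInducedBlock M H₀ b B)
    (hcompl : ∀ x : Subgroup.centralizer (D₀ : Set G),
      (∀ q : ℕ, q.Prime → q ∣ orderOf x → q ∈ σ) →
        x ∈ piCore σ (Subgroup.centralizer (D₀ : Set G)))
    (hkerb : ∀ x : Subgroup.centralizer (D₀ : Set G),
      x ∈ piCore σ (Subgroup.centralizer (D₀ : Set G)) →
        ∀ θ ∈ b, ∀ h : H₀, (h : G) = (x : G) → (θ : H₀ → ℂ) h = (θ : H₀ → ℂ) 1) :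
    ∀ n : Subgroup.normalizer (D : Set G),
      n ∈ piCore σ (Subgroup.normalizer (D : Set G)) → n ∈ blockKer B₁ := by
  have hMp := isPrime_of_isPModular hM
  have hp : p.Prime := Fact.out
  have hDH : D₀ ≤ H₀ := by rw [hH₀]; exact le_sup_left
  have hCH : Subgroup.centralizer (D₀ : Set G) ≤ H₀ := by rw [hH₀]; exact le_sup_right
  have hHN : H₀ ≤ Subgroup.normalizer (D₀ : Set G) := by
    rw [hH₀]
    exact sup_le Subgroup.le_normalizer (Subgroup.centralizer_le_normalizer _)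
  have hmap : (D₀.subgroupOf H₀).map H₀.subtype = D₀ := Subgroup.map_subgroupOf_eq_of_le hDH
  have hQn : (D₀.subgroupOf H₀).Normal := Subgroup.normal_subgroupOf_of_le_normalizer hHN
  have hQp : IsPGroup p (D₀.subgroupOf H₀) := hD₀.comap_subtype
  obtain ⟨f, hf⟩ := exists_pairOf_of_normal hM b hb.1 (D₀.subgroupOf H₀) hQn hQp
  have hC : Subgroup.centralizer (((D₀.subgroupOf H₀).map H₀.subtype : Subgroup G) : Set G) ≤
      H₀ := by
    rw [hmap]
    exact hCH
  have hup := up_pairOf hM H₀ b (D₀.subgroupOf H₀) f hf hC B hb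
  have hcore : ∀ g : G,
      g ∈ piCoreOf σ (Subgroup.centralizer
        (((D₀.subgroupOf H₀).map H₀.subtype : Subgroup G) : Set G)) →
      g ∈ piCoreOf σ (Subgroup.centralizer (D₀ : Set G)) := by
    rw [hmap]
    exact fun g h => h
  apply main_up hM σ hpσ B hB D hBD B₁ hB₁ hB₁D
    ⟨(D₀.subgroupOf H₀).map H₀.subtype, upBlock H₀ (D₀.subgroupOf H₀) f⟩ hup
  · show HallQ σ ((D₀.subgroupOf H₀).map H₀.subtype)
    rw [hmap]
    intro g hg hgσ
    have h1 := hcompl ⟨g, hg⟩ (by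
      intro q hq hd
      rw [Subgroup.orderOf_mk] at hd
      exact hgσ q hq hd)
    exact (mem_piCoreOf_iff σ _ ⟨g, hg⟩).mpr h1
  · rw [kerP_mk_iff]
    intro ξ hξ c hc
    rw [upBlock_eq H₀ _ hC] at hξ
    obtain ⟨ξ', hξ', rfl⟩ := hξ
    rw [pull_apply, pull_apply, map_one]
    have hHX : H₀ ≤ Subgroup.normalizer
        (piCoreOf σ (Subgroup.centralizer (D₀ : Set G)) : Set G) :=
      (hHN.trans (normalizer_le_normalizer_centralizer D₀)).trans
        (normalizer_le_normalizer_piCoreOf σ _)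
    have hXn : ((piCoreOf σ (Subgroup.centralizer (D₀ : Set G))).subgroupOf H₀).Normal :=
      Subgroup.normal_subgroupOf_of_le_normalizer hHX
    have hpX : ¬ p ∣ Nat.card ((piCoreOf σ (Subgroup.centralizer (D₀ : Set G))).subgroupOf H₀) :=
      fun h => not_dvd_card_piCoreOf hp σ hpσ _ (h.trans (card_subgroupOf_dvd H₀ _))
    have hindf := (isBrauerPairOf_iff_isInducedBlock hM _ hQp f b).mp hf
    obtain ⟨θ, hθ⟩ := isPBlock_nonempty hMp hb.1
    have hiff := ker_iff_of_induced hM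
      ((piCoreOf σ (Subgroup.centralizer (D₀ : Set G))).subgroupOf H₀) hXn hpX
      (Subgroup.centralizer ((D₀.subgroupOf H₀ : Subgroup H₀) : Set H₀)) f b hindf ξ' hξ' θ hθ
    apply hiff.mpr
    · intro n hn
      have hnX : (n : G) ∈ piCoreOf σ (Subgroup.centralizer (D₀ : Set G)) :=
        Subgroup.mem_subgroupOf.mp hn
      have hnC : (n : G) ∈ Subgroup.centralizer (D₀ : Set G) := piCoreOf_le σ _ hnX
      exact hkerb ⟨(n : G), hnC⟩ ((mem_piCoreOf_iff σ _ ⟨(n : G), hnC⟩).mp hnX) θ hθ n rfl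
    · rw [Subgroup.mem_subgroupOf, coe_zIso_symm]
      exact hcore _ hc

end Cfsg.Agent.Lib.Helper16.PiKer4
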