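import Mathlib
import Cfsg.Agent.Lib.Helper40.SFStmt
import Cfsg.Agent.Lib.Helper40.KStr

/-!
Piece COMMB of S5664 (helper16): from rank-one data to a Siegel element.
-/

set_option autoImplicit false
set_option linter.unusedVariables false
set_option linter.style.haveILetI false

universe u

namespace Cfsg.Agent.Lib.Helper16.SFCOMMB

open Cfsg.Agent.Lib.Helper40.SFStmt Cfsg.Agent.Lib.Helper94.Basic

theorem main (hA : CommA.{u}) : CommB.{u} := by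
  intro F L _ _ _ _ n c hfin γ hγM v ϑ κ hϑ hκ H1 H2
  have hτ : c.τ ≠ 0 := c.hτ
  have hγ : ∀ x y : W n L, ff c.τ (γ x) (γ y) = ff c.τ x y := c.isom γ hγM
  have hγs : ∀ x y : W n L, ff c.τ (γ.symm x) y = ff c.τ x (γ y) := by
    intro x y
    rw [← hγ (γ.symm x) y, LinearEquiv.apply_symm_apply]
  have hτs : ∀ (s : F) (x : L), c.τ (algebraMap F L s * x) = s * c.τ x := by
    intro s x
    rw [← Algebra.smul_def, map_smul, smul_eq_mul]
  -- e*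
  obtain ⟨es, hes⟩ := Cfsg.Agent.Lib.Helper40.KStr.exists_rep c.τ hτ ϑ
  have hes0 : es ≠ 0 := by
    rintro rfl
    apply hϑ
    ext a
    rw [hes a, mul_zero, map_zero]
    rfl
  -- δ₂
  obtain ⟨a₀, ha₀⟩ := DFunLike.ne_iff.mp hϑ
  have ha₀' : ϑ a₀ ≠ 0 := by simpa using ha₀
  obtain ⟨δ₂, hδ₂⟩ : ∃ δ₂ : L, ϑ δ₂ = 1 :=
    ⟨(ϑ a₀)⁻¹ • a₀, by rw [map_smul, smul_eq_mul, inv_mul_cancel₀ ha₀']⟩
  -- δ₁
  obtain ⟨δ₁, hδ₁0, hδ₁⟩ : ∃ δ₁ : L, δ₁ ≠ 0 ∧ ϑ δ₁ = 0 := by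
    have hrn := LinearMap.finrank_range_add_finrank_ker ϑ
    have hr : Module.finrank F (LinearMap.range ϑ) ≤ 1 := by
      have h := Submodule.finrank_le (LinearMap.range ϑ)
      rwa [Module.finrank_self] at h
    have hk : LinearMap.ker ϑ ≠ ⊥ := by
      intro hbot
      rw [hbot, finrank_bot] at hrn
      omega
    obtain ⟨x, hx, hx0⟩ := (Submodule.ne_bot_iff _).mp hk
    exact ⟨x, hx0, LinearMap.mem_ker.mp hx⟩
  -- v ≠ 0
  have hv : v ≠ 0 := by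
    rintro rfl
    have h := H2 δ₂ δ₂
    rw [hδ₂, smul_zero, map_zero] at h
    unfold ff at h
    rw [sympForm_self, map_zero] at h
    apply hκ
    rw [mul_one, mul_one] at h
    exact h.symm
  -- the two key facts
  have F1 : ∀ a : L, Cfsg.sympForm n L (γ (a • v)) v = algebraMap F L (κ * ϑ a) * es := by
    intro a
    apply Cfsg.Agent.Lib.Helper40.KStr.tau_inj c.τ hτ
    intro a'
    rw [← ff_lsmul_right, H2, hes a']
    have e : a' * (algebraMap F L (κ * ϑ a) * es) = algebraMap F L (κ * ϑ a) * (a' * es) := by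
      ring
    rw [e, hτs]
  have F2 : ∀ a : L, Cfsg.sympForm n L (γ.symm (a • v)) v
      = algebraMap F L (-(κ * ϑ a)) * es := by
    intro a
    apply Cfsg.Agent.Lib.Helper40.KStr.tau_inj c.τ hτ
    intro a'
    rw [← ff_lsmul_right, hγs, ff_skew, H2, hes a]
    have e : a' * (algebraMap F L (-(κ * c.τ (a * es))) * es)
        = algebraMap F L (-(κ * c.τ (a * es))) * (a' * es) := by
      ring
    rw [e, hτs, ← hes a']
    ring
  -- the parameters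
  obtain ⟨a₁, ha₁⟩ : ∃ a₁ : L, a₁ = es⁻¹ * δ₁ := ⟨_, rfl⟩
  obtain ⟨a₂, ha₂⟩ : ∃ a₂ : L, a₂ = es⁻¹ * δ₂ := ⟨_, rfl⟩
  have G1 : ∀ x : W n L, ϑ (a₂ * Cfsg.sympForm n L (γ.symm x) v) = ff c.τ x (γ (δ₂ • v)) := by
    intro x
    rw [hes, ← hγs, ff_lsmul_right, ha₂]
    congr 1
    field_simp
  have G2 : ∀ x : W n L, ϑ (a₁ * Cfsg.sympForm n L x v) = ff c.τ x (δ₁ • v) := by
    intro x
    rw [hes, ff_lsmul_right, ha₁]
    congr 1
    field_simp
  have N1 : ∀ a : L, (a₁ * Cfsg.sympForm n L (γ (a • v)) v) • v = (κ * ϑ a) • (δ₁ • v) := by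
    intro a
    rw [F1, smulF (κ * ϑ a), ← mul_smul, ha₁]
    congr 1
    field_simp
  have N2 : ∀ a : L, γ ((a₂ * Cfsg.sympForm n L (γ.symm (a • v)) v) • v)
      = (-(κ * ϑ a)) • γ (δ₂ • v) := by
    intro a
    rw [F2, ← map_smul, smulF (-(κ * ϑ a)), ← mul_smul, ha₂]
    congr 2
    field_simp
  have key : ∀ (s₁ s₂ : W n L ≃ₗ[F] W n L), s₁ ∈ c.M → s₂ ∈ c.M →
      (∀ x, s₁ x = x + (a₁ * Cfsg.sympForm n L x v) • v) →
      (∀ x, s₂ x = x + γ ((a₂ * Cfsg.sympForm n L (γ.symm x) v) • v)) →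
      ∃ e ∈ c.M, ∃ (d w : W n L) (c₀ : F), d ≠ 0 ∧ ff c.τ w d = 0 ∧
        Cfsg.sympForm n L w d ≠ 0 ∧ IsSiegel c.τ e d w c₀ := by
    intro s₁ s₂ hm1 hm2 hs1 hs2
    have C7 : ff c.τ (γ (δ₂ • v)) (δ₁ • v) = 0 := by
      rw [H2, hδ₁, mul_zero]
    have C1 : ∀ x, s₁ (s₂ x) - s₂ x - s₁ x + x
        = (κ * ff c.τ x (γ (δ₂ • v))) • (δ₁ • v) := by
      intro x
      rw [hs1 (s₂ x), hs1 x, hs2 x]
      simp only [sympForm_add_left, mul_add, add_smul]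
      rw [N1, G1]
      abel
    have C2 : ∀ x, s₂ (s₁ x) - s₁ x - s₂ x + x
        = (-(κ * ff c.τ x (δ₁ • v))) • γ (δ₂ • v) := by
      intro x
      rw [hs2 (s₁ x), hs2 x, hs1 x]
      simp only [map_add, sympForm_add_left, mul_add, add_smul]
      rw [N2, G2]
      abel
    have C3 : ∀ x, ff c.τ (s₁ x - x) (δ₁ • v) = 0 := by
      intro x
      rw [hs1 x, add_sub_cancel_left, ff_lsmul_left, sympForm_smul_right, sympForm_self,
        mul_zero, mul_zero, map_zero]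
    have C4 : ∀ x, ff c.τ (s₂ x - x) (δ₁ • v) = 0 := by
      intro x
      rw [hs2 x, add_sub_cancel_left, H2, hδ₁, mul_zero]
    have C5 : ∀ x, ff c.τ (s₂ x - x) (γ (δ₂ • v)) = 0 := by
      intro x
      rw [hs2 x, add_sub_cancel_left, hγ, ff_lsmul_left, sympForm_smul_right, sympForm_self,
        mul_zero, mul_zero, map_zero]
    have C6 : ∀ x, ff c.τ (s₁ x - x) (γ (δ₂ • v)) = -(κ * ff c.τ x (δ₁ • v)) := by
      intro x
      rw [hs1 x, add_sub_cancel_left, ff_skew, H2, hδ₂, G2, mul_one]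
    have hS := hA F L n c.τ s₁ s₂ (δ₁ • v) (γ (δ₂ • v)) κ C1 C2 C3 C4 C5 C6 C7
    refine ⟨s₁ * s₂ * (s₂ * s₁)⁻¹, ?_, δ₁ • v, κ • γ (δ₂ • v), κ ^ 2, ?_, ?_, ?_, hS⟩
    · exact Subgroup.mul_mem _ (Subgroup.mul_mem _ hm1 hm2)
        (Subgroup.inv_mem _ (Subgroup.mul_mem _ hm2 hm1))
    · exact smul_ne_zero hδ₁0 hv
    · rw [ff_smul_left, C7, mul_zero]
    · rw [smulF, sympForm_smul_left, sympForm_smul_right, F1, hδ₂, mul_one]
      have hk : algebraMap F L κ ≠ 0 := (map_ne_zero (algebraMap F L)).mpr hκ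
      exact mul_ne_zero hk (mul_ne_zero hδ₁0 (mul_ne_zero hk hes0))
  refine key ((ltv v a₁).restrictScalars F) (γ * (ltv v a₂).restrictScalars F * γ⁻¹)
    (c.hsub _ (ltv_isom v a₁)) ?_ (fun x => rfl) ?_
  · exact Subgroup.mul_mem _ (Subgroup.mul_mem _ hγM (c.hsub _ (ltv_isom v a₂)))
      (Subgroup.inv_mem _ hγM)
  · intro x
    show γ ((ltv v a₂) (γ.symm x)) = _
    rw [ltv_apply, map_add, LinearEquiv.apply_symm_apply]

end Cfsg.Agent.Lib.Helper16.SFCOMMB
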