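import Mathlib
import Cfsg.Agent.Lib.Helper40.SFStmt
import Cfsg.Agent.Lib.Helper40.KStr

/-!
Piece REDUCE of S5664 (helper16): rank reduction.
-/

set_option autoImplicit false
set_option linter.unusedVariables false
set_option linter.style.haveILetI false

universe u

namespace Cfsg.Agent.Lib.Helper16.SFREDUCE

open Cfsg.Agent.Lib.Helper40.SFStmt Cfsg.Agent.Lib.Helper94.Basic

theorem main (h : FieldLem.{u}) : Reduce.{u} := by
  intro F L _ _ _ _ n c hp g hg v u h2 h1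
  have hτ : c.τ ≠ 0 := c.hτ
  obtain ⟨x₀, hx₀Λ, hx₀, x₁, hx₁Λ, x₂, hx₂Λ, hne⟩ :=
    h F L hp (LinearMap.range (theta g v u)) h2 h1
  -- a functional vanishing on `x₀ Λ` but not at `x₁ x₂`
  have hnot : x₁ * x₂ ∉ (LinearMap.range (theta g v u)).map (LinearMap.mulLeft F x₀) := by
    intro hmem
    obtain ⟨y, hy, hyx⟩ := Submodule.mem_map.mp hmem
    exact hne y hy hyx.symm
  obtain ⟨φ, hφ1, hφ2⟩ := Submodule.exists_dual_map_eq_bot_of_notMem hnot inferInstance
  have hφ0 : ∀ y ∈ LinearMap.range (theta g v u), φ (x₀ * y) = 0 := by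
    intro y hy
    have hm : φ (x₀ * y) ∈
        ((LinearMap.range (theta g v u)).map (LinearMap.mulLeft F x₀)).map φ :=
      Submodule.mem_map_of_mem (Submodule.mem_map_of_mem hy)
    rw [hφ2] at hm
    exact (Submodule.mem_bot F).mp hm
  obtain ⟨a, ha⟩ := Cfsg.Agent.Lib.Helper40.KStr.exists_rep c.τ hτ φ
  -- t, g'
  have ht : (ltv u a).restrictScalars F ∈ c.M := c.hsub _ (ltv_isom u a)
  obtain ⟨g', hg'M, hg'app⟩ : ∃ g' ∈ c.M, ∀ x, g (g' x) = ltv u a (g x) := by
    refine ⟨g⁻¹ * (ltv u a).restrictScalars F * g,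
      c.M.mul_mem (c.M.mul_mem (c.M.inv_mem hg) ht) hg, ?_⟩
    intro x
    show g (g.symm ((ltv u a) (g x))) = _
    rw [LinearEquiv.apply_symm_apply]
  have key : ∀ c₁ c₂ : L, c.τ (c₂ * theta g' v v c₁)
      = - φ (theta g v u c₁ * theta g v u c₂) := by
    intro c₁ c₂
    have e1 : c.τ (c₂ * theta g' v v c₁) = ff c.τ (g' (c₁ • v)) (c₂ • v) := by
      rw [ff_lsmul_right, theta_apply]
    have e2 : g (g' (c₁ • v)) = g (c₁ • v) + (a * theta g v u c₁) • u := by
      rw [hg'app, ltv_apply, theta_apply]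
    have e3 : ff c.τ (g' (c₁ • v)) (c₂ • v)
        = ff c.τ (g (c₁ • v) + (a * theta g v u c₁) • u) (g (c₂ • v)) := by
      rw [← e2, c.isom g hg]
    have e4 : ff c.τ (g (c₁ • v)) (g (c₂ • v)) = 0 := by
      rw [c.isom g hg, ff_lsmul_left, sympForm_smul_right, sympForm_self, mul_zero, mul_zero,
        map_zero]
    have e5 : ff c.τ ((a * theta g v u c₁) • u) (g (c₂ • v))
        = c.τ (a * theta g v u c₁ * Cfsg.sympForm n L u (g (c₂ • v))) :=
      ff_lsmul_left _ _ _ _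
    have e6 : Cfsg.sympForm n L u (g (c₂ • v)) = - theta g v u c₂ := by
      rw [sympForm_skew, theta_apply]
    rw [e1, e3, ff_add_left, e4, e5, e6, zero_add, ha, ← map_neg c.τ]
    congr 1
    ring
  -- kernel statements
  have hker : ∀ c₁, theta g v u c₁ = 0 → theta g' v v c₁ = 0 := by
    intro c₁ h0
    apply Cfsg.Agent.Lib.Helper40.KStr.tau_inj c.τ hτ
    intro c₂
    rw [key c₁ c₂, h0, zero_mul, map_zero, neg_zero, mul_zero, map_zero]
  obtain ⟨c₀, hc₀⟩ := hx₀Λ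
  obtain ⟨c₁, hc₁⟩ := hx₁Λ
  obtain ⟨c₂, hc₂⟩ := hx₂Λ
  have hc₀' : theta g' v v c₀ = 0 := by
    apply Cfsg.Agent.Lib.Helper40.KStr.tau_inj c.τ hτ
    intro b
    rw [key c₀ b, hc₀, hφ0 _ ⟨b, rfl⟩, neg_zero, mul_zero, map_zero]
  have hc₁' : theta g' v v c₁ ≠ 0 := by
    intro h0
    have hk := key c₁ c₂
    rw [h0, mul_zero, map_zero, hc₁, hc₂] at hk
    exact hφ1 (neg_eq_zero.mp hk.symm)
  refine ⟨g', hg'M, v, v, ?_, ?_⟩
  · unfold rk
    exact Module.finrank_pos_iff_exists_ne_zero.mpr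
      ⟨⟨theta g' v v c₁, ⟨c₁, rfl⟩⟩, fun h0 => hc₁' (congrArg Subtype.val h0)⟩
  · unfold rk
    have r1 := LinearMap.finrank_range_add_finrank_ker (theta g v u)
    have r2 := LinearMap.finrank_range_add_finrank_ker (theta g' v v)
    have hlt : LinearMap.ker (theta g v u) < LinearMap.ker (theta g' v v) := by
      refine lt_of_le_of_ne (fun x hx => ?_) ?_
      · exact LinearMap.mem_ker.mpr (hker x (LinearMap.mem_ker.mp hx))
      · intro heq
        have hmem : c₀ ∈ LinearMap.ker (theta g v u) := by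
          rw [heq]
          exact LinearMap.mem_ker.mpr hc₀'
        exact hx₀ (by rw [← hc₀]; exact LinearMap.mem_ker.mp hmem)
    have hfl := Submodule.finrank_lt_finrank_of_lt hlt
    omega

end Cfsg.Agent.Lib.Helper16.SFREDUCE
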