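import Mathlib
import Cfsg.Prelude.Def_Blocks
import Cfsg.Agent.Lib.Helper16.ZR
import Cfsg.Agent.Lib.Helper75.BlockOrth2
import Cfsg.Agent.Lib.CT.Orth

/-!
# Sums over `p`-regular elements against a character of a block

* `sum_pRegular_blockPart`: for a class function `f` and `ψ' ∈ b`, the sum over the `p`-regular
  elements of `f · conj ψ'` only sees the `b`-part of `f` (block orthogonality).
-/

set_option autoImplicit false

namespace Cfsg.Agent.Lib.Helper16.SectionNonvanish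

open Cfsg Cfsg.Agent.Lib.Helper77.LocalRing Cfsg.Agent.Lib.Helper77.CentralChar
  Cfsg.Agent.Lib.Helper77.ClassSum Cfsg.Agent.Lib.Helper77.BlockIdem
  Cfsg.Agent.Lib.Helper16.ZR Cfsg.Agent.Lib.CT.Orth Cfsg.Agent.Lib.CT.Wedderburn
open scoped ComplexConjugate

universe u
variable {X : Type u} [Group X] {M : Ideal AlgInt}

theorem sum_expand_aux {Y : Type*} [Fintype Y] {I : Type*} [Fintype I] (S : Set Y)
    (a : I → ℂ) (F : I → Y → ℂ) (w : Y → ℂ) :
    ∑ᶠ c ∈ S, (∑ i, a i * F i c) * w c = ∑ i, a i * ∑ᶠ c ∈ S, F i c * w c := by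
  classical
  rw [finsum_mem_def, finsum_eq_sum_of_fintype]
  have h : ∀ i, ∑ᶠ c ∈ S, F i c * w c = ∑ c, S.indicator (fun c => F i c * w c) c := fun i => by
    rw [finsum_mem_def, finsum_eq_sum_of_fintype]
  simp only [h, Finset.mul_sum]
  rw [Finset.sum_comm]
  refine Finset.sum_congr rfl fun c _ => ?_
  by_cases hc : c ∈ S
  · simp only [Set.indicator_of_mem hc, Finset.sum_mul]
    refine Finset.sum_congr rfl fun i _ => by ring
  · simp only [Set.indicator_of_notMem hc, mul_zero, Finset.sum_const_zero]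

/-- Block orthogonality: the sum over the `p`-regular elements of `f · conj ψ'` only sees the
`b`-part of `f`, for `ψ' ∈ b`. -/
theorem sum_pRegular_blockPart [Finite X] (p : ℕ) [Fact p.Prime] (M : Ideal AlgInt)
    (hM : IsPModular p M) (b : Set (IrrCharacter X)) (hb : IsPBlock M b) (ψ' : IrrCharacter X)
    (hψ' : ψ' ∈ b) (f : X → ℂ) (hf : IsClassFunction X f) :
    ∑ᶠ c ∈ {c : X | ¬ p ∣ orderOf c}, f c * conj ((ψ' : X → ℂ) c)
      = ∑ᶠ c ∈ {c : X | ¬ p ∣ orderOf c}, blockPart b f c * conj ((ψ' : X → ℂ) c) := by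
  classical
  let _ : Fintype X := Fintype.ofFinite X
  have := finite_irrCharacter X
  have := Fintype.ofFinite (IrrCharacter X)
  have hMp := isPrime_of_isPModular hM
  have hF : ∀ c : X, blockPart b f c = ∑ ψ : IrrCharacter X,
      (if ψ ∈ b then classInner f (ψ : X → ℂ) else 0) * (ψ : X → ℂ) c := by
    intro c
    show ∑ᶠ ψ ∈ b, classInner f (ψ : X → ℂ) * (ψ : X → ℂ) c = _
    rw [finsum_mem_def, finsum_eq_sum_of_fintype]
    refine Finset.sum_congr rfl fun ψ _ => ?_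
    by_cases h : ψ ∈ b
    · rw [Set.indicator_of_mem h, if_pos h]
    · rw [Set.indicator_of_notMem h, if_neg h, zero_mul]
  have hf' : ∀ c : X, f c = ∑ ψ : IrrCharacter X, classInner f (ψ : X → ℂ) * (ψ : X → ℂ) c :=
    classFunction_expand_sum f hf
  have hR : ∀ ψ : IrrCharacter X, ψ ∉ b →
      ∑ᶠ c ∈ {c : X | ¬ p ∣ orderOf c}, (ψ : X → ℂ) c * conj ((ψ' : X → ℂ) c) = 0 := by
    intro ψ hψ
    apply Cfsg.Agent.Lib.Helper75.BlockOrth2.sum_pRegular_eq_zero_of_not_sameBlock p M hM ψ ψ'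
    intro hs
    apply hψ
    rw [isPBlock_eq_blockOf hMp hb hψ']
    exact sameBlock_symm hs
  have e1 : ∑ᶠ c ∈ {c : X | ¬ p ∣ orderOf c}, f c * conj ((ψ' : X → ℂ) c)
      = ∑ᶠ c ∈ {c : X | ¬ p ∣ orderOf c},
        (∑ ψ : IrrCharacter X, classInner f (ψ : X → ℂ) * (ψ : X → ℂ) c)
          * conj ((ψ' : X → ℂ) c) :=
    finsum_mem_congr rfl fun c _ => by rw [← hf' c]
  have e2 : ∑ᶠ c ∈ {c : X | ¬ p ∣ orderOf c}, blockPart b f c * conj ((ψ' : X → ℂ) c)
      = ∑ᶠ c ∈ {c : X | ¬ p ∣ orderOf c},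
        (∑ ψ : IrrCharacter X, (if ψ ∈ b then classInner f (ψ : X → ℂ) else 0)
          * (ψ : X → ℂ) c) * conj ((ψ' : X → ℂ) c) :=
    finsum_mem_congr rfl fun c _ => by rw [← hF c]
  rw [e1, e2, sum_expand_aux, sum_expand_aux]
  refine Finset.sum_congr rfl fun ψ _ => ?_
  by_cases h : ψ ∈ b
  · rw [if_pos h]
  · rw [if_neg h, hR ψ h, mul_zero, mul_zero]

end Cfsg.Agent.Lib.Helper16.SectionNonvanish
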