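import Mathlib
import Cfsg.Agent.Lib.Helper44.TPStmt
import Cfsg.Agent.Lib.Helper44.OTyp3
import Cfsg.Agent.Lib.Helper44.WittND
import Cfsg.Agent.Lib.Helper44.WittND2

/-!
# S5973 / HALFODD (helper16; adapted from Helper8.TSHALFODD): for `i` odd, an invariant nondegenerate subspace without fixed vectors
contains an invariant totally singular subspace of half its dimension
-/

set_option autoImplicit false

namespace Cfsg.Agent.Lib.Helper16.TPHALFODD

open Polynomial UniqueFactorizationMonoid Module QuadraticMap Matrix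
open Cfsg.Agent.Lib.Helper44.QSpace Cfsg.Agent.Lib.Helper44.NegPairs
open Cfsg.Agent.Lib.Helper44.WittND Cfsg.Agent.Lib.Helper44.WittND2
open Cfsg.Agent.Lib.Helper44.OCls1 Cfsg.Agent.Lib.Helper44.OTyp1 Cfsg.Agent.Lib.Helper44.OTyp2
open Cfsg.Agent.Lib.Helper44.OTyp3
open Cfsg.Agent.Lib.Helper40.RecipPoly
open Cfsg.Agent.Lib.Helper44.TPStmt

universe u

theorem ndsub_of_ndegJ {F : Type u} [Field F] {d : ℕ} {W : Submodule F (J d → F)}
    (h : NDeg d F W) : NDsub (plusQ d F) W := by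
  intro x hx hxy
  by_contra hx0
  obtain ⟨-, y, hy, hxy'⟩ := h x hx hx0
  exact hxy' (hxy y hy)

theorem mem_FxJ {F : Type u} [Field F] {d : ℕ} (x : Matrix (J d) (J d) F) (v : J d → F) :
    v ∈ Fx x ↔ x *ᵥ v = v := by
  unfold Fx
  rw [LinearMap.mem_ker, LinearMap.sub_apply, Matrix.toLin'_apply, LinearMap.id_apply,
    sub_eq_zero]

theorem main : HalfOdd.{u} := by
  intro F _ _ p _ _ d r _ hr2 hrp hiodd x hx hxr E hE hnd hfix
  classical
  have hr : r.Prime := Fact.out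
  by_cases hEbot : E = ⊥
  · refine ⟨⊥, bot_le, ?_, ?_, ?_⟩
    · unfold Stab
      rw [Submodule.map_bot]
    · intro w hw
      rw [(Submodule.mem_bot F).mp hw]
      show plusQ d F 0 = 0
      exact map_zero _
    · rw [hEbot]
      simp
  obtain ⟨Xm, hXm⟩ : ∃ Xm : Matrix (J d) (J d) F, Xm = (x : Matrix (J d) (J d) F) := ⟨_, rfl⟩
  rw [← hXm] at hE hfix ⊢
  have hXQ : ∀ u, plusQ d F (Xm *ᵥ u) = plusQ d F u := by
    intro u
    rw [hXm]
    exact hx u u
  have hXr : Xm ^ r = 1 := by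
    rw [hXm, ← Units.val_pow_eq_pow_val, hxr]
    rfl
  have hSE : Sep (res (plusQ d F) E) := sep_res_of_ndsub (ndsub_of_ndegJ hnd)
  have hmaps : ∀ v ∈ E, Matrix.toLin' Xm v ∈ E := fun v hv => hE (Submodule.mem_map_of_mem hv)
  obtain ⟨φ, hφ⟩ : ∃ φ : E →ₗ[F] E, ∀ v : E, ((φ v : E) : J d → F) = Xm *ᵥ (v : J d → F) :=
    ⟨(Matrix.toLin' Xm).restrict hmaps, fun v => rfl⟩
  have hφpow : ∀ (n : ℕ) (v : E), (((φ ^ n) v : E) : J d → F) = (Xm ^ n) *ᵥ (v : J d → F) := by
    intro n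
    induction n with
    | zero =>
      intro v
      rw [pow_zero, pow_zero, Matrix.one_mulVec]
      rfl
    | succ n ih =>
      intro v
      rw [pow_succ, Module.End.mul_apply, ih, hφ, Matrix.mulVec_mulVec, ← pow_succ]
  have hφr : φ ^ r = 1 := by
    apply LinearMap.ext
    intro v
    apply Subtype.ext
    rw [hφpow, hXr, Matrix.one_mulVec]
    rfl
  have h1 : φ * φ ^ (r - 1) = 1 := by
    rw [← pow_succ', Nat.sub_add_cancel hr.pos, hφr]
  have h2 : φ ^ (r - 1) * φ = 1 := by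
    rw [← pow_succ, Nat.sub_add_cancel hr.pos, hφr]
  have hφQ : ∀ v, res (plusQ d F) E (φ v) = res (plusQ d F) E v := by
    intro v
    rw [res_apply, res_apply, hφ, hXQ]
  -- matrix of `φ`
  obtain ⟨n, hn⟩ : ∃ n, n = finrank F E := ⟨_, rfl⟩
  obtain ⟨b⟩ : Nonempty (Basis (Fin n) F E) := by
    rw [hn]
    exact ⟨Module.finBasis F E⟩
  obtain ⟨s, hs⟩ : ∃ s : Matrix (Fin n) (Fin n) F, s = LinearMap.toMatrix b b φ := ⟨_, rfl⟩
  obtain ⟨s', hs'⟩ : ∃ s' : Matrix (Fin n) (Fin n) F, s' = LinearMap.toMatrix b b (φ ^ (r - 1)) :=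
    ⟨_, rfl⟩
  have hss' : s * s' = 1 := by
    rw [hs, hs', ← LinearMap.toMatrix_mul, h1, LinearMap.toMatrix_one]
  have hkey : ∀ u : Fin n → F, b.equivFun.symm (s *ᵥ u) = φ (b.equivFun.symm u) := by
    intro u
    have h := LinearMap.toMatrix_mulVec_repr b b φ (b.equivFun.symm u)
    rw [← Basis.equivFun_apply, ← Basis.equivFun_apply, LinearEquiv.apply_symm_apply, ← hs] at h
    rw [h, LinearEquiv.symm_apply_apply]
  have hsr : s ^ r = 1 := by
    have h := map_pow (LinearMap.toMatrixAlgEquiv b) φ r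
    rw [hφr, map_one] at h
    rw [hs]
    exact h.symm
  obtain ⟨Q', hQ'⟩ : ∃ Q' : QuadraticForm F (Fin n → F),
      ∀ u, Q' u = res (plusQ d F) E (b.equivFun.symm u) :=
    ⟨(res (plusQ d F) E).comp (b.equivFun.symm : (Fin n → F) →ₗ[F] E), fun u => rfl⟩
  have hS' : Sep Q' := sep_of_iso hSE Q' b.equivFun (fun v => by
    rw [hQ', LinearEquiv.symm_apply_apply])
  have hsQ : ∀ u, Q' (s *ᵥ u) = Q' u := by
    intro u
    rw [hQ', hQ', hkey, hφQ]
  have hcm : s.charpoly.Monic := Matrix.charpoly_monic s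
  have hcf : ∀ P ∈ normalizedFactors s.charpoly, P ∣ X ^ r - C (1 : F) := by
    intro P hP
    apply dvd_of_mem_nf_charpoly' s _ _ P hP
    rw [map_sub, map_pow, aeval_X, aeval_C, map_one, hsr, sub_self]
  have hcr : rstar (RingHom.id F) s.charpoly = s.charpoly := rstar_charpoly_iso hS' s s' hss' hsQ
  have hsL : ¬ (X - C (1 : F)) ∣ s.charpoly := by
    intro hdvd
    have hroot := Polynomial.dvd_iff_isRoot.mp hdvd
    rw [Polynomial.IsRoot, Matrix.eval_charpoly] at hroot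
    obtain ⟨v, hv0, hv⟩ := Matrix.exists_mulVec_eq_zero_iff.mpr hroot
    rw [Matrix.sub_mulVec, map_one, Matrix.one_mulVec, sub_eq_zero] at hv
    have hw : φ (b.equivFun.symm v) = b.equivFun.symm v := by
      rw [← hkey, ← hv]
    have hmem : ((b.equivFun.symm v : E) : J d → F) ∈ E ⊓ Fx Xm := by
      refine ⟨(b.equivFun.symm v).2, ?_⟩
      exact (mem_FxJ Xm _).mpr (by rw [← hφ, hw])
    rw [hfix, Submodule.mem_bot] at hmem
    have h0 : b.equivFun.symm v = 0 := Subtype.ext hmem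
    apply hv0
    have := congrArg b.equivFun h0
    rw [LinearEquiv.apply_symm_apply, map_zero] at this
    exact this
  -- arithmetic of `i`
  obtain ⟨i, hi⟩ : ∃ i, i = orderOf ((Fintype.card F : ℕ) : ZMod r) := ⟨_, rfl⟩
  rw [← hi] at hiodd
  have hq0 : ((Fintype.card F : ℕ) : ZMod r) ≠ 0 := by
    intro h0
    rw [ZMod.natCast_eq_zero_iff] at h0
    obtain ⟨m, hp, hm⟩ := FiniteField.card F p
    rw [hm] at h0
    have := (Nat.prime_dvd_prime_iff_eq hr hp).mp (hr.dvd_of_dvd_pow h0)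
    exact hrp this
  have hidvd : i ∣ r - 1 := by
    rw [hi]
    apply orderOf_dvd_of_pow_eq_one
    exact ZMod.pow_card_sub_one_eq_one hq0
  obtain ⟨t, ht⟩ := hidvd
  obtain ⟨-, hf2⟩ := facts (F := F) (p := p) r i t hr hr2 hrp hi (by rw [ht]; ring)
  obtain ⟨c₁, hc₁m, hc₁0, hc, hcop, hL1, hL2⟩ := hf2 hiodd s.charpoly hcm hcf hcr hsL
  have hdeg : n = 2 * c₁.natDegree := by
    have h3 : s.charpoly.natDegree = n := by
      rw [Matrix.charpoly_natDegree_eq_dim, Fintype.card_fin]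
    rw [hc, Polynomial.Monic.natDegree_mul hc₁m (rstar_monic _ c₁ hc₁0),
      rstar_natDegree _ c₁ hc₁0] at h3
    omega
  have hnpos : n ≠ 0 := by
    intro h0
    apply hEbot
    rw [h0] at hn
    exact Submodule.finrank_eq_zero.mp hn.symm
  obtain ⟨k, hk⟩ : ∃ k, c₁.natDegree = k + 1 := ⟨c₁.natDegree - 1, by omega⟩
  have hfin : finrank F E = 2 * (k + 1) := by
    rw [← hn, hdeg, hk]
  have hann : aeval φ (c₁ * rstar (RingHom.id F) c₁) = 0 := by
    have h := LinearMap.aeval_self_charpoly φ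
    rw [← LinearMap.charpoly_toMatrix φ b, ← hs, hc] at h
    exact h
  obtain ⟨c₂, hc₂⟩ : ∃ c₂, c₂ = rstar (RingHom.id F) c₁ := ⟨_, rfl⟩
  rw [← hc₂] at hcop hann hL2
  have hid2 : ∀ x : F, (RingHom.id F) ((RingHom.id F) x) = x := fun x => rfl
  have hrev1 : c₁.reverse = C (c₁.coeff 0) * c₂ := by
    rw [hc₂]
    unfold rstar
    rw [Polynomial.map_id, RingHom.id_apply, ← mul_assoc, ← C_mul, mul_inv_cancel₀ hc₁0, C_1,
      one_mul]
  have hc₂0 : c₂.coeff 0 ≠ 0 := by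
    rw [hc₂, rstar_coeff_zero _ c₁ hc₁m]
    exact inv_ne_zero hc₁0
  have hrev2 : c₂.reverse = C (c₂.coeff 0) * c₁ := by
    have hss : rstar (RingHom.id F) c₂ = c₁ := by
      rw [hc₂]
      exact rstar_star _ hid2 c₁ hc₁m hc₁0
    conv_rhs => rw [← hss]
    unfold rstar
    rw [Polynomial.map_id, RingHom.id_apply, ← mul_assoc, ← C_mul, mul_inv_cancel₀ hc₂0, C_1,
      one_mul]
  have hW₁ : ∀ x ∈ LinearMap.ker (aeval φ c₁), res (plusQ d F) E x = 0 := fun x hx =>
    ts_ker (res (plusQ d F) E) φ (φ ^ (r - 1)) h1 h2 hφQ c₁ c₂ _ hc₁0 hrev1 hcop hL1 x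
      (LinearMap.mem_ker.mp hx)
  have hW₂ : ∀ x ∈ LinearMap.ker (aeval φ c₂), res (plusQ d F) E x = 0 := fun x hx =>
    ts_ker (res (plusQ d F) E) φ (φ ^ (r - 1)) h1 h2 hφQ c₂ c₁ _ hc₂0 hrev2 hcop.symm hL2 x
      (LinearMap.mem_ker.mp hx)
  have hsup : LinearMap.ker (aeval φ c₁) ⊔ LinearMap.ker (aeval φ c₂) = ⊤ := by
    rw [Polynomial.sup_ker_aeval_eq_ker_aeval_mul_of_coprime φ hcop, hann, LinearMap.ker_zero]
  have hdim := Submodule.finrank_sup_add_finrank_inf_eq (LinearMap.ker (aeval φ c₁))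
    (LinearMap.ker (aeval φ c₂))
  rw [hsup, finrank_top, hfin] at hdim
  have hhalf : ∀ W : Submodule F E, (∀ x ∈ W, res (plusQ d F) E x = 0) →
      2 * finrank F W ≤ finrank F E := by
    intro W hW
    have hle : W ≤ LinearMap.BilinForm.orthogonal (polarBilin (res (plusQ d F) E)) W := by
      intro w hw u hu
      show polar (res (plusQ d F) E) u w = 0
      unfold polar
      rw [hW _ (W.add_mem hu hw), hW _ hu, hW _ hw]
      simp
    have h3 := LinearMap.BilinForm.finrank_orthogonal (nondegenerate_of_sep hSE) W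
    have h4 : finrank F W ≤ finrank F E - finrank F W :=
      le_of_le_of_eq (Submodule.finrank_mono hle) h3
    have h5 : finrank F W ≤ finrank F E := Submodule.finrank_le W
    omega
  have hd1 := hhalf _ hW₁
  have hd2 := hhalf _ hW₂
  rw [hfin] at hd1 hd2
  have hfW : finrank F (LinearMap.ker (aeval φ c₁)) = k + 1 := by omega
  have hcomm : aeval φ c₁ * φ = φ * aeval φ c₁ := by
    have h6 : aeval φ (c₁ * X) = aeval φ (X * c₁) := by rw [mul_comm]
    rw [map_mul, map_mul, aeval_X] at h6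
    exact h6
  refine ⟨(LinearMap.ker (aeval φ c₁)).map E.subtype, Submodule.map_subtype_le _ _, ?_, ?_, ?_⟩
  · rintro _ ⟨_, ⟨v, hv, rfl⟩, rfl⟩
    refine ⟨φ v, ?_, ?_⟩
    · rw [SetLike.mem_coe, LinearMap.mem_ker, ← Module.End.mul_apply, hcomm,
        Module.End.mul_apply, LinearMap.mem_ker.mp hv, map_zero]
    · show ((φ v : E) : J d → F) = Matrix.toLin' Xm (v : J d → F)
      rw [hφ, Matrix.toLin'_apply]
  · rintro _ ⟨v, hv, rfl⟩
    show plusQ d F ((v : E) : J d → F) = 0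
    have h5 := hW₁ v hv
    rw [res_apply] at h5
    exact h5
  · rw [Submodule.finrank_map_subtype_eq, hfW, hfin]

end Cfsg.Agent.Lib.Helper16.TPHALFODD
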