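import Mathlib
import Cfsg.Agent.Lib.Helper44.TPStmt
import Cfsg.Agent.Lib.Helper8.HypHYPSUB

/-!
# S5973 / TSIN (helper16; adapted from Helper8.TSTSIN): a nondegenerate subspace of dimension
`> 2 j` of the plus space contains a totally singular `j`-space
-/

set_option autoImplicit false

namespace Cfsg.Agent.Lib.Helper16.TPTSIN

open Module QuadraticMap
open Cfsg.Agent.Lib.Helper44.QSpace Cfsg.Agent.Lib.Helper44.NegPairs Cfsg.Agent.Lib.Helper44.OEmb
open Cfsg.Agent.Lib.Helper44.WittND Cfsg.Agent.Lib.Helper44.WittND2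
open Cfsg.Agent.Lib.Helper44.TPStmt
open Cfsg.Agent.Lib.Helper8.HypHYPSUB (isom_inj inlMap inlMap_inj plusQ_inlMap)

universe u

theorem ndsub_of_ndegJ {F : Type u} [Field F] {d : ℕ} {W : Submodule F (J d → F)}
    (h : NDeg d F W) : NDsub (plusQ d F) W := by
  intro x hx hxy
  by_contra hx0
  obtain ⟨-, y, hy, hxy'⟩ := h x hx hx0
  exact hxy' (hxy y hy)

theorem main : TsIn.{u} := by
  intro F _ _ d Y j hY hj
  classical
  have hY' : NDsub (plusQ d F) Y := ndsub_of_ndegJ hY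
  have hfH : finrank F (Fin j ⊕ Fin j → F) = 2 * j := by
    rw [Module.finrank_fintype_fun_eq_card, Fintype.card_sum, Fintype.card_fin]
    ring
  obtain ⟨φ, hφ⟩ := exists_embedding j (Fin j ⊕ Fin j → F) (plusQ j F) Y (res (plusQ d F) Y) hfH
    (by rw [hfH]; exact hj) (sep_plusQ j) (sep_res_of_ndsub hY')
  have hinj := isom_inj (sep_plusQ j) φ hφ
  refine ⟨LinearMap.range (Y.subtype ∘ₗ φ ∘ₗ inlMap j), ?_, ?_, ?_⟩
  · rintro _ ⟨a, rfl⟩
    exact (φ (inlMap j a)).2
  · rintro _ ⟨a, rfl⟩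
    have h5 := hφ (inlMap j a)
    rw [res_apply, plusQ_inlMap] at h5
    exact h5
  · have hinj2 : Function.Injective (Y.subtype ∘ₗ φ ∘ₗ inlMap j) := by
      rw [LinearMap.coe_comp, LinearMap.coe_comp]
      exact (Y.subtype_injective.comp hinj).comp (inlMap_inj j)
    rw [LinearMap.finrank_range_of_inj hinj2, Module.finrank_fintype_fun_eq_card,
      Fintype.card_fin]

end Cfsg.Agent.Lib.Helper16.TPTSIN
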